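import Cfsg.Agent.H6.M22I
import Cfsg.Prelude.Def_Sporadic
/-! Statements of the steps in the recognition of `M₂₂` by its order. -/
set_option autoImplicit false
open Subgroup CfH6
namespace CfH4.M22
universe u

/-- the local data given by the character theory -/
structure Loc (G : Type*) [Group G] : Prop where
  simple : IsSimpleGroup G
  card : Nat.card G = 443520
  j2 : ∀ u v : G, orderOf u = 2 → orderOf v = 2 → IsConj u v
  c2 : ∀ u : G, orderOf u = 2 → Nat.card (centralizer ({u} : Set G)) = 384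
  j3 : ∀ u v : G, orderOf u = 3 → orderOf v = 3 → IsConj u v
  c3 : ∀ u : G, orderOf u = 3 → Nat.card (centralizer ({u} : Set G)) = 36
  c5 : ∀ u : G, orderOf u = 5 → Nat.card (centralizer ({u} : Set G)) = 5
  c7 : ∀ u : G, orderOf u = 7 → Nat.card (centralizer ({u} : Set G)) = 7
  c11 : ∀ u : G, orderOf u = 11 → Nat.card (centralizer ({u} : Set G)) = 11

/-- a self-centralizing `2⁴` with the action of `3² : 4` and one further normalizing element -/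
structure Fr1 {G : Type*} [Group G] (p q r s t b v : G) : Prop where
  p2 : p * p = 1
  q2 : q * q = 1
  pq : p * q = q * p
  pr : p * r = r * p
  ps : p * s = s * p
  qr : q * r = r * q
  qs : q * s = s * q
  card : Nat.card (closure ({p, q, r, s} : Set G)) = 16
  self : ∀ g : G, g * p = p * g → g * q = q * g → g * r = r * g → g * s = s * g → g ∈ closure ({p, q, r, s} : Set G)
  bp : b * p * b⁻¹ = r
  bq : b * q * b⁻¹ = s
  br : b * r * b⁻¹ = p
  bs : b * s * b⁻¹ = p * q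
  b4 : b ^ 4 = 1
  tp : t * p * t⁻¹ = q
  tq : t * q * t⁻¹ = p * q
  tr : t * r * t⁻¹ = r
  ts : t * s * t⁻¹ = s
  vN : ∀ e ∈ closure ({p, q, r, s} : Set G), v * e * v⁻¹ ∈ closure ({p, q, r, s} : Set G)
  vE : v ∉ closure ({p, q, r, s} : Set G)
  vp : v * p = p * v
  v2 : v * v ∈ closure ({p, q, r, s} : Set G)
  v3 : (v * (b⁻¹ * t * b)) ^ 3 ∈ closure ({p, q, r, s} : Set G)

/-- letters `p q r s a b b⁻¹ τ` -/
def il : List ℕ := [0, 1, 2, 3, 4, 6, 5, 7]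
/-- a presentation of `2⁴ : A₆` -/
def rN : List (List ℕ) := [[0, 1, 0, 1], [0, 2, 0, 2], [0, 3, 0, 3], [1, 2, 1, 2], [1, 3, 1, 3], [2, 3, 2, 3],
  [4, 0, 4, 1, 2, 3], [4, 1, 4, 2], [4, 2, 4, 1], [4, 3, 4, 0, 1, 2], [5, 0, 6, 2], [5, 1, 6, 3], [5, 2, 6, 0],
  [5, 3, 6, 0, 1], [5, 5, 5, 5], [4, 5, 4, 5, 4, 5, 4, 5, 4, 5], [4, 5, 5, 4, 5, 5, 4, 5, 5, 4, 5, 5, 4, 5, 5]]
def wX : List ℕ := [4, 5, 4, 6, 4, 5, 5]
def wY : List ℕ := [4, 5, 4, 5, 5, 4, 5, 4, 6, 4, 5, 4]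
def wY' : List ℕ := [4, 6, 4, 5, 4, 6, 4, 6, 6, 4, 6, 4]
def wU : List ℕ := [4, 5, 5, 4, 6, 4, 5, 5, 4, 6, 4, 5, 4, 6]
/-- the relators of the further involution, in two variants -/
def rT (k : Bool) : List (List ℕ) := [7 :: wY ++ 7 :: wY', [7, 5, 5, 7, 6, 6],
  [7, 0, 2, 7] ++ (if k then [0, 2] else []) ++ wU, 7 :: wX ++ 7 :: wX ++ 7 :: wX]

def PA : Prop := ∀ {G : Type u} [Group G] [Finite G], IsSimpleGroup G → Nat.card G = 443520 → Loc G
def PB1 : Prop := ∀ {G : Type u} [Group G] [Finite G], Loc G → ∃ p q r s t b v : G, Fr1 p q r s t b v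
def PB2 : Prop := ∀ {G : Type u} [Group G] [Finite G], Loc G → ∀ p q r s t b v : G, Fr1 p q r s t b v →
  ∃ ev : ℕ → G, (∀ x < 7, ev (il.getD x 0) = (ev x)⁻¹) ∧ (∀ w ∈ rN, evw ev w = 1) ∧ ev 0 ≠ 1
def PB3 : Prop := ∀ {G : Type u} [Group G] [Finite G], Loc G → ∀ ev : ℕ → G, (∀ x < 7, ev (il.getD x 0) = (ev x)⁻¹) →
  (∀ w ∈ rN, evw ev w = 1) → ev 0 ≠ 1 → ∃ (τ : G) (k : Bool), τ * τ = 1 ∧ ∀ w ∈ rT k, evw (Function.update ev 7 τ) w = 1
def PC : Prop := ∀ {G : Type u} [Group G] [Finite G], Nat.card G = 443520 → ∀ (ev : ℕ → G) (k : Bool),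
  (∀ x < 8, ev (il.getD x 0) = (ev x)⁻¹) → (∀ w ∈ rN ++ rT k, evw ev w = 1) → ev 0 ≠ 1 → Cfsg.Spor.IsoM22 G

theorem final (hA : PA.{u}) (h1 : PB1.{u}) (h2 : PB2.{u}) (h3 : PB3.{u}) (hC : PC.{u}) {G : Type u} [Group G] [Finite G]
    (hG : Cfsg.IsM22 G) : Cfsg.Spor.IsoM22 G := by
  have L := hA hG.1 hG.2
  obtain ⟨p, q, r, s, t, b, v, F⟩ := h1 L
  obtain ⟨ev, a1, a2, a3⟩ := h2 L _ _ _ _ _ _ _ F
  obtain ⟨τ, k, b1, b2⟩ := h3 L ev a1 a2 a3
  have e : ∀ x < 7, Function.update ev 7 τ x = ev x := fun x hx => Function.update_of_ne hx.ne _ _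
  refine hC L.card (Function.update ev 7 τ) k (fun x hx => ?_) (fun w hw => ?_) (by rwa [e 0 (by norm_num)])
  · by_cases h : x = 7
    · subst h
      exact (Function.update_self _ _ _).trans ((eq_inv_of_mul_eq_one_right b1).trans (by rw [Function.update_self]))
    · rw [e x (by omega), e _ ((by decide : ∀ x < 7, il.getD x 0 < 7) x (by omega)), a1 x (by omega)]
  · rcases List.mem_append.1 hw with h | h
    · rw [evw_congr e ((by decide : ∀ w ∈ rN, ∀ x ∈ w, x < 7) w h), a2 w h]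
    · exact b2 w h

end CfH4.M22
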