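import Cfsg.Agent.H4.JU
import Cfsg.Agent.H3.Jw0
/-! The module theoretic step in the form used for the fourth Janko group. -/
set_option autoImplicit false
namespace CfH4.JU
universe u

theorem umod' : CfH3.J4.UMOD.{u} := fun μ => umod μ

end CfH4.JU
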