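import Cfsg.Agent.OD.Pre

/-! Chief factors in ambient form. -/

open scoped commutatorElement

namespace CfH4

variable {G : Type*} [Group G]

/-- `K / L` is a chief factor of `G`. -/
structure IsChief (L K : Subgroup G) : Prop where
  normal_left : L.Normal
  normal_right : K.Normal
  lt : L < K
  min : ∀ M : Subgroup G, M.Normal → L ≤ M → M ≤ K → M = L ∨ M = K

theorem exists_isChief_below [Finite G] {N K : Subgroup G} (hN : N.Normal) (hK : K.Normal)
    (h : N < K) : ∃ L, N ≤ L ∧ IsChief L K := by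
  obtain ⟨L, ⟨hL1, hL2, hL3⟩, hmax⟩ := (wellFounded_gt (α := Subgroup G)).has_min
    {L | L.Normal ∧ N ≤ L ∧ L < K} ⟨N, hN, le_rfl, h⟩
  refine ⟨L, hL2, hL1, hK, hL3, fun M hM h1 h2 => ?_⟩
  by_contra hc
  push Not at hc
  exact hmax M ⟨hM, hL2.trans h1, lt_of_le_of_ne h2 hc.2⟩ (lt_of_le_of_ne h1 hc.1.symm)

theorem exists_isChief_above [Finite G] {L N : Subgroup G} (hL : L.Normal) (hN : N.Normal)
    (h : L < N) : ∃ K, K ≤ N ∧ IsChief L K := by
  obtain ⟨K, ⟨hK1, hK2, hK3⟩, hmin⟩ := (wellFounded_lt (α := Subgroup G)).has_min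
    {K | K.Normal ∧ K ≤ N ∧ L < K} ⟨N, hN, le_rfl, h⟩
  refine ⟨K, hK2, hL, hK1, hK3, fun M hM h1 h2 => ?_⟩
  by_contra hc
  push Not at hc
  exact hmin M ⟨hM, h2.trans hK2, lt_of_le_of_ne h1 hc.1.symm⟩ (lt_of_le_of_ne h2 hc.2)

theorem isSolvable_quotient_of_le {N L : Subgroup G} [N.Normal] [L.Normal] (h : N ≤ L)
    (hs : Group.IsSolvable (G ⧸ N)) : Group.IsSolvable (G ⧸ L) :=
  Group.isSolvable_of_surjective (f := QuotientGroup.map N L (MonoidHom.id G) h)
    (fun x => by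
      obtain ⟨g, rfl⟩ := QuotientGroup.mk_surjective x
      exact ⟨g, rfl⟩)

/-- Solvability of the quotient passes along homomorphisms. -/
theorem isSolvable_quotient_comap {G' : Type*} [Group G'] (f : G' →* G) {N : Subgroup G}
    [N.Normal] {N' : Subgroup G'} [N'.Normal] (h : N.comap f ≤ N')
    (hs : Group.IsSolvable (G ⧸ N)) : Group.IsSolvable (G' ⧸ N') := by
  refine isSolvable_quotient_of_le h ?_
  refine Group.isSolvable_of_isSolvable_injective
    (f := QuotientGroup.map (N.comap f) N f le_rfl) ?_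
  rw [injective_iff_map_eq_one]
  intro x hx
  obtain ⟨g, rfl⟩ := QuotientGroup.mk_surjective x
  exact (QuotientGroup.eq_one_iff g).2 ((QuotientGroup.eq_one_iff (f g)).1 hx)

theorem IsChief.commutator_le {L K : Subgroup G} (h : IsChief L K)
    (hs : haveI := h.normal_left; Group.IsSolvable (G ⧸ L)) : ⁅K, K⁆ ≤ L := by
  have := h.normal_left
  have := h.normal_right
  rcases h.min (⁅K, K⁆ ⊔ L) inferInstance le_sup_right
    (sup_le (Subgroup.commutator_le_left K K) h.lt.le) with h1 | h1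
  · exact le_sup_left.trans h1.le
  · exfalso
    have h2 : K.map (QuotientGroup.mk' L) ≠ ⊥ := by
      rw [Ne, Subgroup.map_eq_bot_iff, QuotientGroup.ker_mk']
      exact h.lt.not_ge
    have h3 := Group.IsSolvable.commutator_lt_of_ne_bot h2
    rw [← Subgroup.map_commutator] at h3
    apply h3.not_ge
    rw [Subgroup.map_le_map_iff, QuotientGroup.ker_mk', h1]

/-- An abelian chief factor of a finite group is elementary abelian. -/
theorem IsChief.exists_prime [Finite G] {L K : Subgroup G} (h : IsChief L K) (hab : ⁅K, K⁆ ≤ L) :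
    ∃ p : ℕ, p.Prime ∧ ∀ x ∈ K, x ^ p ∈ L := by
  have := h.normal_left
  have hK := h.normal_right
  obtain ⟨x, hxK, hxL⟩ := SetLike.exists_of_lt h.lt
  have h1 : (x : G ⧸ L) ≠ 1 := by rwa [Ne, QuotientGroup.eq_one_iff]
  obtain ⟨p, hp, hpd⟩ := Nat.exists_prime_and_dvd (mt orderOf_eq_one_iff.1 h1)
  refine ⟨p, hp, ?_⟩
  have hc : ∀ a ∈ K, ∀ b ∈ K, Commute (a : G ⧸ L) b := fun a ha b hb => by
    rw [← commutatorElement_eq_one_iff_commute]
    exact (QuotientGroup.eq_one_iff ⁅a, b⁆).2 (hab (Subgroup.commutator_mem_commutator ha hb))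
  let M : Subgroup G :=
    { carrier := {y | y ∈ K ∧ (y : G ⧸ L) ^ p = 1}
      mul_mem' := fun {a b} ha hb => ⟨K.mul_mem ha.1 hb.1, by
        rw [QuotientGroup.mk_mul, (hc a ha.1 b hb.1).mul_pow, ha.2, hb.2, one_mul]⟩
      one_mem' := ⟨K.one_mem, by simp⟩
      inv_mem' := fun {a} ha => ⟨K.inv_mem ha.1, by
        rw [QuotientGroup.mk_inv, inv_pow, ha.2, inv_one]⟩ }
  have hM : M.Normal := ⟨fun y hy g => ⟨hK.conj_mem y hy.1 g, by
    rw [QuotientGroup.mk_mul, QuotientGroup.mk_mul, QuotientGroup.mk_inv, conj_pow, hy.2]; simp⟩⟩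
  rcases h.min M hM (fun l hl => ⟨h.lt.le hl, by
    rw [(QuotientGroup.eq_one_iff l).2 hl, one_pow]⟩) (fun y hy => hy.1) with h2 | h2
  · exfalso
    have hpos : 0 < orderOf (x : G ⧸ L) := orderOf_pos _
    have h3 : x ^ (orderOf (x : G ⧸ L) / p) ∈ M := ⟨K.pow_mem hxK _, by
      rw [QuotientGroup.mk_pow, ← pow_mul, Nat.div_mul_cancel hpd, pow_orderOf_eq_one]⟩
    rw [h2, ← QuotientGroup.eq_one_iff, QuotientGroup.mk_pow] at h3
    exact pow_ne_one_of_lt_orderOf (Nat.div_pos (Nat.le_of_dvd hpos hpd) hp.pos).ne'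
      (Nat.div_lt_self hpos hp.one_lt) h3
  · intro y hy
    rw [← QuotientGroup.eq_one_iff, QuotientGroup.mk_pow]
    exact (h2.ge hy).2

theorem isPGroup_map_mk' {L K : Subgroup G} [L.Normal] {p : ℕ} (h : ∀ x ∈ K, x ^ p ∈ L) :
    IsPGroup p (K.map (QuotientGroup.mk' L)) := by
  rintro ⟨_, x, hx, rfl⟩
  refine ⟨1, Subtype.ext ?_⟩
  simpa [← QuotientGroup.mk_pow] using h x hx

theorem exists_relIndex_eq_pow [Finite G] {L K : Subgroup G} [L.Normal] {p : ℕ} (hp : p.Prime)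
    (h : ∀ x ∈ K, x ^ p ∈ L) : ∃ k, L.relIndex K = p ^ k := by
  have := Fact.mk hp
  obtain ⟨k, hk⟩ := (isPGroup_map_mk' h).exists_card_eq
  refine ⟨k, ?_⟩
  rw [← hk, ← Subgroup.relIndex_ker, QuotientGroup.ker_mk']

end CfH4
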