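import Cfsg.Agent.OD.Pre
import Cfsg.Agent.H4.Gallagher

/-! Norms of restrictions, full ramification, the going-down theorem, relative primitivity. -/

open Cfsg Module CfH4
open scoped ComplexConjugate commutatorElement

namespace CfH4

universe u v w

section norm
variable {G : Type v} [Group G] [Fintype G] {H : Type u} [Group H] [Fintype H] {ι : H →* G}

open Classical in
theorem sum_eq_sum_range_add {M : Type*} [AddCommMonoid M] (hι : Function.Injective ι)
    (F : G → M) : ∑ g, F g = ∑ h, F (ι h) + ∑ g with g ∉ ι.range, F g := by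
  rw [← Finset.sum_filter_add_sum_filter_not Finset.univ (· ∈ ι.range)]
  congr 1
  symm
  exact Finset.sum_bij (fun h _ => ι h) (fun h _ => by simp) (fun _ _ _ _ h => hι h)
    (fun g hg => by
      obtain ⟨h, rfl⟩ := (Finset.mem_filter.1 hg).2
      exact ⟨h, Finset.mem_univ _, rfl⟩) (fun _ _ => rfl)

omit [Fintype G] [Fintype H] in
theorem card_mul_index_range (hι : Function.Injective ι) :
    Nat.card H * ι.range.index = Nat.card G := by
  rw [Nat.card_congr (MonoidHom.ofInjective hι).toEquiv, Subgroup.card_mul_index]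

theorem classInner_res_of_vanish (hι : Function.Injective ι) {χ : G → ℂ} (ψ : G → ℂ)
    (h : ∀ g ∉ ι.range, χ g = 0) :
    classInner (fun h => χ (ι h)) (fun h => ψ (ι h)) = ι.range.index * classInner χ ψ := by
  classical
  rw [classInner_def, classInner_def, sum_eq_sum_range_add hι, Finset.sum_eq_zero (s := {g | _})
    fun g hg => by rw [h g (Finset.mem_filter.1 hg).2, zero_mul], ← card_mul_index_range hι]
  have : (ι.range.index : ℂ) ≠ 0 := by exact_mod_cast Subgroup.index_ne_zero_of_finite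
  have := natCard_ne_zero' (G := H)
  push_cast
  field_simp
  simp

theorem vanish_of_classInner_res (hι : Function.Injective ι) {χ : G → ℂ}
    (h : classInner (fun h => χ (ι h)) (fun h => χ (ι h)) = ι.range.index * classInner χ χ) :
    ∀ g ∉ ι.range, χ g = 0 := by
  classical
  rw [classInner_self, classInner_self, sum_eq_sum_range_add hι, ← card_mul_index_range hι] at h
  have h1 : (ι.range.index : ℝ) ≠ 0 := by exact_mod_cast Subgroup.index_ne_zero_of_finite
  have h2 : (Nat.card H : ℝ) ≠ 0 := by exact_mod_cast Nat.card_pos.ne'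
  have h3 : ∑ g with g ∉ ι.range, ‖χ g‖ ^ 2 = 0 := by
    have h4 : (Nat.card H : ℝ)⁻¹ * ∑ g : H, ‖χ (ι g)‖ ^ 2 = ι.range.index *
      (((Nat.card H * ι.range.index : ℕ) : ℝ)⁻¹ *
        (∑ g : H, ‖χ (ι g)‖ ^ 2 + ∑ g with g ∉ ι.range, ‖χ g‖ ^ 2)) := by exact_mod_cast h
    push_cast at h4
    field_simp at h4
    linarith
  rw [Finset.sum_eq_zero_iff_of_nonneg fun _ _ => by positivity] at h3
  intro g hg
  simpa using h3 g (by simpa using hg)

/-- Bessel's inequality for characters. -/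
theorem Cfsg.IsCharacter.sum_mult_sq_le {A : G → ℂ} (hA : IsCharacter G A) {κ : Type*}
    [Fintype κ] (f : κ → IrrCharacter G) (hf : Function.Injective f) {n : ℕ}
    (hn : classInner A A = n) : ∑ i, mult A (f i) ^ 2 ≤ n := by
  rw [hA.classInner_eq_sum_mult hA, Nat.cast_inj] at hn
  rw [← hn]
  calc ∑ i, mult A (f i) ^ 2
      = ∑ η ∈ Finset.univ.map ⟨f, hf⟩, mult A (η : G → ℂ) * mult A (η : G → ℂ) := by
        simp [sq]
    _ ≤ _ := Finset.sum_le_sum_of_subset (Finset.subset_univ _)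

theorem classInner_smul_smul_irr {θ : G → ℂ} (hθ : IsIrrCharacter G θ) (e : ℕ) :
    classInner ((e : ℂ) • θ) ((e : ℂ) • θ) = (e ^ 2 : ℕ) := by
  rw [classInner_smul_left, classInner_natCast_smul_right, hθ.classInner_self]; simp [sq]

end norm

namespace NEmb
variable {N : Type u} {G : Type v} [Group N] [Group G] (E : NEmb N G) [Fintype G] [Fintype N]
  {χ : G → ℂ} {θ : N → ℂ}

theorem vanish_of_fullyRam (hχ : IsIrrCharacter G χ) (hθ : IsIrrCharacter N θ) {e : ℕ}
    (h : (fun n => χ (E.ι n)) = (e : ℂ) • θ) (he : e ^ 2 = E.ι.range.index) :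
    ∀ g ∉ E.ι.range, χ g = 0 :=
  vanish_of_classInner_res E.inj (by
    rw [h, classInner_smul_smul_irr hθ, he, hχ.classInner_self, mul_one])

theorem fullyRam_of_vanish (hχ : IsIrrCharacter G χ) (hθ : IsIrrCharacter N θ) {e : ℕ}
    (h : (fun n => χ (E.ι n)) = (e : ℂ) • θ) (hv : ∀ g ∉ E.ι.range, χ g = 0) :
    e ^ 2 = E.ι.range.index := by
  have := classInner_res_of_vanish E.inj χ hv
  rw [h, classInner_smul_smul_irr hθ, hχ.classInner_self, mul_one] at this
  exact_mod_cast this

theorem ind_eq_of_fullyRam (hχ : IsIrrCharacter G χ) (hθ : IsIrrCharacter N θ) {e : ℕ}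
    (h : (fun n => χ (E.ι n)) = (e : ℂ) • θ) (he : e ^ 2 = E.ι.range.index) :
    indHom E.ι θ = (e : ℂ) • χ := by
  have hi := hθ.isCharacter.indHom E.inj
  apply hi.eq_smul_of_degree hχ
  · have := hi.mult_eq hχ.isCharacter
    rw [classInner_indHom_left E.inj _ hχ.classFun, h, classInner_natCast_smul_right,
      hθ.classInner_self, mul_one] at this
    exact le_of_eq (by exact_mod_cast this.symm)
  · have h1 : χ 1 = e * θ 1 := by simpa using congrFun h 1
    rw [indHom_one E.inj, ← he, h1]; push_cast; ring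

theorem fullyRam_of_unique (hχ : IsIrrCharacter G χ) (hθ : IsIrrCharacter N θ) {e : ℕ}
    (h : (fun n => χ (E.ι n)) = (e : ℂ) • θ)
    (hu : ∀ ψ, IsIrrCharacter G ψ → classInner (indHom E.ι θ) ψ ≠ 0 → ψ = χ) :
    e ^ 2 = E.ι.range.index := by
  have h1 := congrFun ((indHom_classFun E.ι θ).eq_smul_of_unique hχ hu) 1
  have h2 : χ 1 = e * θ 1 := by simpa using congrFun h 1
  rw [classInner_indHom_left E.inj _ hχ.classFun, h, classInner_natCast_smul_right,
      hθ.classInner_self, mul_one, indHom_one E.inj, Pi.smul_apply, h2, smul_eq_mul,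
      ← mul_assoc] at h1
  have := mul_right_cancel₀ hθ.apply_one_ne_zero h1
  rw [sq]; exact_mod_cast this.symm

end NEmb

section down
variable {G : Type v} [Group G] [Finite G]

/-- The going-down theorem. -/
theorem going_down (K L : Subgroup G) [hK : K.Normal] [hL : L.Normal] (hLK : L ≤ K)
    (hchief : ∀ M : Subgroup G, M.Normal → L ≤ M → M ≤ K → M = L ∨ M = K) (hab : ⁅K, K⁆ ≤ L)
    (θ : K → ℂ) (hθ : IsIrrCharacter K θ) (hinv : (NEmb.sub K).Inv θ) :
    IsIrrCharacter L (fun x : L => θ ⟨(x : G), hLK x.2⟩) ∨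
    (∃ (φ : L → ℂ) (e : ℕ), IsIrrCharacter L φ ∧ (fun x : L => θ ⟨(x : G), hLK x.2⟩) = (e : ℂ) • φ ∧
      e ^ 2 = L.relIndex K) ∨
    (∃ F : Finset (L → ℂ), (∀ φ ∈ F, IsIrrCharacter L φ) ∧ F.card = L.relIndex K ∧
      (fun x : L => θ ⟨(x : G), hLK x.2⟩) = ∑ φ ∈ F, φ) := by
  classical
  have := Fintype.ofFinite G
  have := Fintype.ofFinite K
  have := Fintype.ofFinite L
  let E : NEmb L K := NEmb.subLe hLK fun t _ k hk => hL.conj_mem k hk t
  have hEr : E.ι.range = L.subgroupOf K := NEmb.subLe_range _ _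
  have hidx : E.ι.range.index = L.relIndex K := by rw [hEr]; rfl
  obtain ⟨φ, hφ, hθφ⟩ := E.exists_irr_under hθ.isCharacter hθ.apply_one_ne_zero
  let T := (NEmb.sub L).inertia φ
  have hLT : L ≤ T := fun l hl => (NEmb.sub L).ι_mem_inertia hφ.classFun ⟨l, hl⟩
  have hdec : ∀ g : G, ∃ k ∈ K, g * k⁻¹ ∈ T := by
    intro g
    have h1 : (NEmb.sub L).cj g (fun n => θ (E.ι n)) = fun n => θ (E.ι n) := by
      ext n; exact hinv g (E.ι n)
    have h2 : classInner (fun n => θ (E.ι n)) ((NEmb.sub L).cj g φ) ≠ 0 := by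
      rwa [← h1, NEmb.classInner_cj]
    obtain ⟨k, hk⟩ := E.mem_orb.1 (E.mem_orb_of_over hθ hφ hθφ ((NEmb.sub L).cj_irr hφ g) h2)
    exact ⟨k, k.2, ((NEmb.sub L).cj_eq_cj_iff φ g k).1 hk.symm⟩
  have hnorm : (K ⊓ T).Normal := ⟨fun x hx g => by
    refine ⟨hK.conj_mem x hx.1 g, ?_⟩
    obtain ⟨k, hk, ht⟩ := hdec g
    have h1 : k * x * k⁻¹ ∈ T := by
      have : k * x * k⁻¹ = ⁅k, x⁆ * x := by simp [commutatorElement_def]
      rw [this]
      exact T.mul_mem (hLT (hab (Subgroup.commutator_mem_commutator hk hx.1))) hx.2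
    have : g * x * g⁻¹ = (g * k⁻¹) * (k * x * k⁻¹) * (g * k⁻¹)⁻¹ := by group
    rw [this]
    exact T.mul_mem (T.mul_mem ht h1) (T.inv_mem ht)⟩
  rcases hchief _ hnorm (le_inf hLK hLT) inf_le_left with hM | hM
  · right; right
    have hin : E.inertia φ = E.ι.range := by
      refine le_antisymm (fun k hk => ?_) ?_
      · rw [hEr, Subgroup.mem_subgroupOf, ← hM]
        exact ⟨k.2, hk⟩
      · rintro _ ⟨n, rfl⟩; exact E.ι_mem_inertia hφ.classFun n
    have h1 := E.ind_irr_of_inertia hφ hin.le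
    have h2 := hθφ
    rw [← classInner_indHom_right E.inj _ hθ.classFun] at h2
    have h3 := hθ.eq_of_classInner_ne_zero h1 h2
    refine ⟨E.orb φ, fun η hη => E.orb_irr hφ hη, by rw [E.card_orb, hin, hidx], ?_⟩
    have h4 := E.clifford hθ hφ hθφ
    rw [← classInner_indHom_right E.inj _ hθ.classFun, ← h3, hθ.classInner_self, one_smul] at h4
    exact h4
  have hφi : E.Inv φ := fun k n => congrFun (show (k : G) ∈ T from (hM.ge k.2).2) n
  obtain ⟨e, he0, he, hres⟩ := hφi.clifford_mult hθ hφ hθφ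
  let U : Subgroup G :=
    { carrier := {g | ∃ hg : g ∈ K, ∀ f : K →* ℂˣ, (∀ n, f (E.ι n) = 1) →
        (∀ k, f k * θ k = θ k) → f ⟨g, hg⟩ = 1}
      mul_mem' := by
        rintro a b ⟨ha, ha'⟩ ⟨hb, hb'⟩
        refine ⟨K.mul_mem ha hb, fun f h1 h2 => ?_⟩
        change f (⟨a, ha⟩ * ⟨b, hb⟩) = 1
        rw [map_mul, ha' f h1 h2, hb' f h1 h2, one_mul]
      one_mem' := ⟨K.one_mem, fun f _ _ => map_one f⟩
      inv_mem' := by
        rintro a ⟨ha, ha'⟩
        refine ⟨K.inv_mem ha, fun f h1 h2 => ?_⟩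
        change f (⟨a, ha⟩⁻¹) = 1
        rw [map_inv, ha' f h1 h2, inv_one] }
  have hUn : U.Normal := ⟨by
    rintro x ⟨hx, hx'⟩ g
    refine ⟨hK.conj_mem x hx g, fun f h1 h2 => ?_⟩
    exact hx' (f.comp ((NEmb.sub K).actEquiv g).toMonoidHom)
      (fun n => h1 ((NEmb.sub L).act g n)) fun k => by rw [← hinv g k]; exact h2 _⟩
  rcases hchief U hUn (fun l hl => ⟨hLK hl, fun f h1 _ => h1 ⟨l, hl⟩⟩) (fun x hx => hx.1)
    with hU | hU
  · right; left
    refine ⟨φ, e, hφ, hres, ?_⟩
    rw [← hidx]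
    apply E.fullyRam_of_vanish hθ hφ hres
    intro k hk
    by_contra h0
    apply hk
    rw [hEr, Subgroup.mem_subgroupOf, ← hU]
    refine ⟨k.2, fun f _ h2 => ?_⟩
    ext
    exact mul_right_cancel₀ h0 (by rw [h2 k]; simp)
  · left
    have hcomm : commutator K ≤ E.ι.range := by
      rw [hEr, commutator, Subgroup.commutator_le]
      intro a _ b _
      exact hab (Subgroup.commutator_mem_commutator a.2 b.2)
    have := Fintype.ofFinite {f : K →* ℂˣ // ∀ n ∈ E.ι.range, f n = 1}
    let F : {f : K →* ℂˣ // ∀ n ∈ E.ι.range, f n = 1} → IrrCharacter K := fun f =>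
      ⟨_, hθ.linear_mul (isIrrCharacter_of_unitsHom f.1).isCharacter (by simp)⟩
    have hF : Function.Injective F := by
      intro f f' hff
      have h1 : ∀ k, (f.1 k : ℂ) * θ k = f'.1 k * θ k := fun k =>
        congrFun (congrArg Subtype.val hff) k
      ext k
      have := (hU.ge k.2).2 (f.1 / f'.1) (fun n => by
        simp [f.2 _ ⟨n, rfl⟩, f'.2 _ ⟨n, rfl⟩]) (fun k => by
          simp only [MonoidHom.div_apply, Units.val_div_eq_div_val]
          rw [div_mul_eq_mul_div, h1, mul_div_cancel_left₀ _ (Units.ne_zero _)])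
      rw [MonoidHom.div_apply, div_eq_one] at this
      exact congrArg Units.val this
    have hi := hφ.isCharacter.indHom E.inj
    have h1 := hi.sum_mult_sq_le F hF (n := E.ι.range.index) (by
      rw [hφi.classInner_ind_ind, hφ.classInner_self, mul_one])
    have h2 : ∀ f, mult (indHom E.ι φ) (F f) = e := fun f => by
      have := hi.mult_eq (F f).2.isCharacter
      rw [classInner_indHom_left E.inj _ (F f).2.classFun] at this
      have h3 : (fun n => (F f : K → ℂ) (E.ι n)) = fun n => θ (E.ι n) := by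
        ext n; simp [F, f.2 _ ⟨n, rfl⟩]
      rw [h3, ← conj_classInner, he] at this
      simpa using this
    simp only [h2, Finset.sum_const, Finset.card_univ, Fintype.card_eq_nat_card,
      card_hom_trivial_on _ hcomm, smul_eq_mul] at h1
    have hpos : 0 < E.ι.range.index := Nat.pos_of_ne_zero Subgroup.index_ne_zero_of_finite
    have he1 : e = 1 := by
      by_contra hne
      have : 2 ≤ e := by omega
      have : 4 ≤ e ^ 2 := by nlinarith
      nlinarith
    change IsIrrCharacter L (fun n => θ (E.ι n))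
    rw [hres, he1]; simpa using hφ

end down

section prim
variable {G : Type v} [Group G] [Fintype G]

/-- `χ` is not induced from a character of a proper subgroup containing `N`. -/
def RelPrim (N : Subgroup G) (χ : G → ℂ) : Prop :=
  ∀ T : Subgroup G, T ≠ ⊤ → N ≤ T → ∀ ψ : T → ℂ, IsCharacter T ψ → indFun T ψ ≠ χ

/-- The restriction of `χ` to `M` is a multiple of an irreducible character. -/
def Homog (M : Subgroup G) (χ : G → ℂ) : Prop :=
  ∃ (φ : M → ℂ) (e : ℕ), IsIrrCharacter M φ ∧ (fun m : M => χ m) = (e : ℂ) • φ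

theorem RelPrim.homog {N : Subgroup G} {χ : G → ℂ} (h : RelPrim N χ) (hχ : IsIrrCharacter G χ)
    (M : Subgroup G) [M.Normal] (hNM : N ≤ M) : Homog M χ := by
  have := Fintype.ofFinite M
  by_contra hc
  obtain ⟨T, ψ, h1, h2, h3, h4⟩ := (NEmb.sub M).exists_induced_of_not_homog hχ hc
  rw [NEmb.sub_range] at h2
  exact h T h1 (hNM.trans h2) ψ h3.isCharacter h4

/-- Every irreducible character is induced from a relatively primitive one. -/
theorem exists_relPrim (N : Subgroup G) {χ : G → ℂ} (hχ : IsIrrCharacter G χ) :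
    ∃ (H : Subgroup G) (_ : Fintype H) (ψ : H → ℂ), N ≤ H ∧ IsIrrCharacter H ψ ∧
      indFun H ψ = χ ∧ RelPrim (N.subgroupOf H) ψ := by
  have hex : ∃ n, ∃ (H : Subgroup G) (ψ : H → ℂ), Nat.card H = n ∧ N ≤ H ∧ IsCharacter H ψ ∧
      indFun H ψ = χ := by
    have := Fintype.ofFinite (⊤ : Subgroup G)
    refine ⟨_, ⊤, fun g => χ g, rfl, le_top, hχ.isCharacter.res _, ?_⟩
    exact indHom_of_bijective (ι := (⊤ : Subgroup G).subtype) Subgroup.topEquiv.bijective
      hχ.classFun
  classical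
  obtain ⟨H, ψ, h1, h2, h3, h4⟩ := Nat.find_spec hex
  have := Fintype.ofFinite H
  refine ⟨H, this, ψ, h2, h3.isIrr_of_indHom H.subtype_injective (by
    rw [indHom_subtype, h4]; exact hχ), h4, ?_⟩
  intro T hT hNT η hη he
  have h5 := CfH5.indFun_trans_map H T η
  rw [he, h4] at h5
  refine Nat.find_min hex (m := Nat.card (T.map H.subtype)) ?_ ⟨_, _, rfl, ?_, ?_, h5.symm⟩
  · rw [← h1, Subgroup.card_map_of_injective H.subtype_injective]
    exact lt_of_le_of_ne (T.card_le_card_group) fun h => hT (T.eq_top_of_card_eq h)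
  · intro n hn
    exact ⟨⟨n, h2 hn⟩, hNT hn, rfl⟩
  · exact hη.comp (T.equivMapOfInjective H.subtype H.subtype_injective).symm.toMonoidHom

end prim

end CfH4
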