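import Cfsg.Agent.OD.Pre
import Cfsg.Agent.H4.DegRatio
import Cfsg.Agent.H4.Ramified
import Cfsg.Agent.H4.Chief
import Cfsg.Agent.H4.Gallagher
import Cfsg.Agent.H1.MinNormal
import Cfsg.Agent.OD.Helper4x2f6a8fcc28

/-! Berger's theorem: quasiprimitive characters of solvable groups are primitive. -/

open Cfsg Module CfH4
open scoped ComplexConjugate commutatorElement

namespace CfH4

universe u v w

section
variable {G : Type u} [Group G] [Fintype G] {A B φ : G → ℂ}

theorem Cfsg.IsCharacter.eq_smul_of_add (hA : IsCharacter G A) (hB : IsCharacter G B)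
    (hφ : IsIrrCharacter G φ) {c : ℂ} (h : A + B = c • φ) : A = (mult A φ : ℂ) • φ := by
  rw [hA.mult_eq hφ.isCharacter]
  refine hA.classFun.eq_smul_of_unique hφ fun η hη hne => ?_
  by_contra hc
  have h1 : classInner (A + B) η = 0 := by
    rw [h, classInner_smul_left, hφ.classInner_of_ne hη (Ne.symm hc), mul_zero]
  rw [classInner_add_left, ← hA.mult_eq hη.isCharacter, ← hB.mult_eq hη.isCharacter] at h1
  have h2 : mult A η + mult B η = 0 := by exact_mod_cast h1
  apply hne
  rw [← hA.mult_eq hη.isCharacter, (Nat.add_eq_zero_iff.1 h2).1, Nat.cast_zero]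

theorem Cfsg.IsCharacter.isIrr_of_mul (hA : IsCharacter G A) (hB : IsCharacter G B)
    (h : IsIrrCharacter G (A * B)) : IsIrrCharacter G A := by
  have h0 := h.apply_one_ne_zero
  rw [Pi.mul_apply, mul_ne_zero_iff] at h0
  obtain ⟨β, hβ, hne⟩ := hA.classFun.exists_irr_of_ne_zero (fun h => h0.1 (by rw [h]; rfl))
  have h1 := hA.sub_irr hβ hne
  have h2 : A * B = β * B + (A - β) * B := by ring
  rw [h2] at h
  rcases h.eq_zero_or_of_add (hβ.isCharacter.mul hB) (h1.mul hB) with h3 | h3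
  · exact absurd (congrFun h3 1) (mul_ne_zero hβ.apply_one_ne_zero h0.2)
  · have h4 := h1.eq_zero_of_apply_one ((mul_eq_zero.1 (congrFun h3 1)).resolve_right h0.2)
    rwa [sub_eq_zero.1 h4]

/-- An irreducible character of a subgroup is a constituent of the restriction of its
induced character. -/
theorem Cfsg.IsIrrCharacter.res_indHom_sub {H : Type v} [Group H] [Fintype H] {j : H →* G}
    (hj : Function.Injective j) {θ : H → ℂ} (hθ : IsIrrCharacter H θ) :
    IsCharacter H ((fun h => indHom j θ (j h)) - θ) := by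
  refine ((hθ.isCharacter.indHom hj).comp j).sub_irr hθ ?_
  rw [← classInner_indHom_right hj θ (indHom_classFun j θ), Ne, classInner_self_eq_zero]
  intro h
  have := congrFun h 1
  rw [indHom_one hj] at this
  exact mul_ne_zero (by exact_mod_cast Subgroup.FiniteIndex.index_ne_zero)
    hθ.apply_one_ne_zero this

/-- Structure of a chief factor above the core of a maximal subgroup. -/
theorem IsChief.inf_le_of_core {L K H : Subgroup G} (h : IsChief L K) (hab : ⁅K, K⁆ ≤ L)
    (hmax : IsCoatom H) (hLH : L ≤ H) (hcore : ∀ M : Subgroup G, M.Normal → M ≤ H → M ≤ L) :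
    (∀ g : G, ∃ k ∈ K, ∃ x ∈ H, g = k * x) ∧ K ⊓ H ≤ L := by
  have := h.normal_right
  have h1 : K ⊔ H = ⊤ := by
    refine hmax.2 _ (lt_of_le_of_ne le_sup_right fun he => ?_)
    exact h.lt.not_ge (hcore K this (le_sup_left.trans he.ge))
  have h2 := CfH1.forall_exists_mul_of_sup_eq_top h1
  refine ⟨h2, hcore _ ⟨fun x hx g => ?_⟩ inf_le_right⟩
  obtain ⟨k, hk, y, hy, rfl⟩ := h2 g
  have h3 : y * x * y⁻¹ ∈ K ⊓ H :=
    ⟨this.conj_mem x hx.1 y, H.mul_mem (H.mul_mem hy hx.2) (H.inv_mem hy)⟩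
  have h4 : k * y * x * (k * y)⁻¹ = ⁅k, y * x * y⁻¹⁆ * (y * x * y⁻¹) := by
    simp only [commutatorElement_def]; group
  rw [h4]
  have h5 := hab (Subgroup.commutator_mem_commutator hk h3.1)
  exact (K ⊓ H).mul_mem ⟨h.lt.le h5, hLH h5⟩ h3

/-- Consecutive chief factors above the core of a maximal subgroup have distinct primes. -/
theorem ne_of_core {L K M H : Subgroup G} [L.Normal] [hM : M.Normal] {p q : ℕ} (hp : p.Prime)
    (hLK : L ≤ K) (hKM : K < M) (h1 : ∀ x ∈ K, x ^ p ∈ L) (h2 : ∀ x ∈ M, x ^ q ∈ K)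
    (hmax : IsCoatom H) (hLH : L ≤ H) (hcore : ∀ M : Subgroup G, M.Normal → M ≤ H → M ≤ L)
    (hx : ∀ g : G, ∃ k ∈ K, ∃ x ∈ H, g = k * x) : p ≠ q := by
  rintro rfl
  have := Fact.mk hp
  have hP : IsPGroup p (M.map (QuotientGroup.mk' L)) := by
    rintro ⟨_, x, hx, rfl⟩
    refine ⟨2, Subtype.ext ?_⟩
    have := h1 _ (h2 x hx)
    rw [← pow_mul, ← pow_two] at this
    simpa [← QuotientGroup.mk_pow] using this
  have hLY : L ≤ M ⊓ H := le_inf (hLK.trans hKM.le) hLH
  have hker : (QuotientGroup.mk' L).ker ≤ M ⊓ H := by rwa [QuotientGroup.ker_mk']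
  have hlt : (M ⊓ H).map (QuotientGroup.mk' L) < M.map (QuotientGroup.mk' L) := by
    refine lt_of_le_of_ne (Subgroup.map_mono inf_le_left) fun he => ?_
    have h3 := congrArg (Subgroup.comap (QuotientGroup.mk' L)) he
    rw [Subgroup.comap_map_eq_self hker, Subgroup.comap_map_eq_self (hker.trans inf_le_left)] at h3
    exact hKM.not_ge ((hcore M hM (h3.ge.trans inf_le_right)).trans hLK)
  obtain ⟨_, ⟨⟨x, hxM, rfl⟩, hxN⟩, hxY⟩ :=
    SetLike.exists_of_lt (CfH1.lt_inf_normalizer_of_isNilpotent hP.isNilpotent hlt)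
  have hxN' : x ∈ Subgroup.normalizer ((M ⊓ H : Subgroup G) : Set G) := by
    rw [← Subgroup.comap_map_eq_self hker,
      ← Subgroup.comap_normalizer_eq_of_surjective _ (QuotientGroup.mk'_surjective L)]
    exact hxN
  have hH : H ≤ Subgroup.normalizer ((M ⊓ H : Subgroup G) : Set G) := by
    intro y hy
    rw [Subgroup.mem_normalizer_iff]
    intro z
    constructor
    · exact fun hz => ⟨hM.conj_mem z hz.1 y, H.mul_mem (H.mul_mem hy hz.2) (H.inv_mem hy)⟩
    · intro hz
      have h3 : z = y⁻¹ * (y * z * y⁻¹) * y := by group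
      rw [h3]
      exact ⟨hM.conj_mem' _ hz.1 y, H.mul_mem (H.mul_mem (H.inv_mem hy) hz.2) hy⟩
  have htop := hmax.2 _ (lt_of_le_of_ne hH fun he =>
    hxY (Subgroup.mem_map_of_mem _ ⟨hxM, he ▸ hxN'⟩))
  have hY := hcore _ (Subgroup.normalizer_eq_top_iff.1 htop) inf_le_right
  refine hKM.not_ge fun m hm => ?_
  obtain ⟨k, hk, y, hy, rfl⟩ := hx m
  exact K.mul_mem hk (hLK (hY ⟨(M.mul_mem_cancel_left (hKM.le hk)).1 hm, hy⟩))

end

section
variable {G : Type u} [Group G] [Fintype G] {H : Type v} [Group H] [Fintype H] {j : H →* G}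

theorem exists_not_homog_of_core (hj : Function.Injective j) (hmax : IsCoatom j.range)
    (L : Subgroup G) [hL : L.Normal] (hLH : L ≤ j.range)
    (hcore : ∀ M : Subgroup G, M.Normal → M ≤ j.range → M ≤ L) (hs : Group.IsSolvable (G ⧸ L))
    {θ : H → ℂ} (hθ : IsCharacter H θ) (hφ : IsIrrCharacter (L.comap j) (fun x => θ x))
    (hinv : ∀ (g : G) (x y : H), j x ∈ L → j y = g * j x * g⁻¹ → θ y = θ x)
    (hχ : IsIrrCharacter G (indHom j θ)) :
    ∃ M : Subgroup G, M.Normal ∧ L < M ∧ ¬ Homog M (indHom j θ) := by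
  classical
  by_contra hc
  push Not at hc
  set χ := indHom j θ with hχdef
  obtain ⟨K, -, hK⟩ := exists_isChief_above hL (inferInstance : (⊤ : Subgroup G).Normal)
    (lt_of_le_of_lt hLH hmax.lt_top)
  have hKn := hK.normal_right
  have hab := hK.commutator_le hs
  obtain ⟨hx, hKH⟩ := hK.inf_le_of_core hab hmax hLH hcore
  obtain ⟨p, hp, hpK⟩ := hK.exists_prime hab
  obtain ⟨k, hk⟩ := exists_relIndex_eq_pow hp hpK
  have := Fintype.ofFinite K
  have := Fintype.ofFinite (L.comap j)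
  -- restriction to `K`
  let b : L.comap j →* K := (j.comp (L.comap j).subtype).codRestrict K fun x => hK.lt.le x.2
  have hb : Function.Injective b := fun x y h => Subtype.ext (hj (congrArg Subtype.val h))
  have hbr : b.range = L.subgroupOf K := by
    ext x
    simp only [MonoidHom.mem_range, Subgroup.mem_subgroupOf]
    constructor
    · rintro ⟨y, rfl⟩; exact y.2
    · intro h
      obtain ⟨y, hy⟩ := hLH h
      exact ⟨⟨y, by rwa [Subgroup.mem_comap, hy]⟩, Subtype.ext hy⟩
  have hχK : (fun x : K => χ x) = indHom b (fun x => θ x) := by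
    ext x
    refine indHom_mackey hj K.subtype_injective (a := (L.comap j).subtype) hb (fun _ => rfl)
      (fun y hy => ?_) (fun g => ?_) hθ.classFun x
    · rw [hbr]; exact hKH ⟨y.2, hy⟩
    · obtain ⟨a, ha, _, ⟨y, rfl⟩, rfl⟩ := hx g
      exact ⟨⟨a, ha⟩, y, rfl⟩
  let EK : NEmb (L.comap j) K := NEmb.ofRange b hb (by rw [hbr]; infer_instance)
  have hEK : EK.Inv (fun x => θ x) := fun g n =>
    hinv g n (EK.act g n) n.2 (congrArg Subtype.val (EK.ι_act g n))
  obtain ⟨ξ, f, hξ, hf⟩ := hc K hKn hK.lt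
  have hf2 : f ^ 2 = L.relIndex K := by
    have h1 := hEK.classInner_ind_ind (fun x => θ x)
    change classInner (indHom b _) (indHom b _) = (b.range.index : ℂ) * _ at h1
    rw [← hχK, hf, classInner_smul_smul_irr hξ, hφ.classInner_self, mul_one, hbr] at h1
    exact_mod_cast h1
  have hf0 : (f : ℂ) ≠ 0 := by
    intro h
    rw [Nat.cast_eq_zero] at h
    rw [h] at hf2
    exact Subgroup.FiniteIndex.index_ne_zero (H := L.subgroupOf K) hf2.symm
  have hθ0 : θ 1 ≠ 0 := hφ.apply_one_ne_zero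
  have hχ1 : χ 1 = f ^ 2 * θ 1 := by
    have := congrFun hχK 1
    rw [indHom_one hb, hbr] at this
    rw [← Nat.cast_pow, hf2]
    exact this
  have hidx : (j.range.index : ℂ) = f ^ 2 := by
    rw [hχdef, indHom_one hj] at hχ1
    exact mul_right_cancel₀ hθ0 hχ1
  have hKtop : K < ⊤ := by
    refine lt_top_iff_ne_top.2 ?_
    rintro rfl
    have h1 := classInner_comp_equiv (Subgroup.topEquiv (G := G)) χ χ
    change classInner (fun x : (⊤ : Subgroup G) => χ x) (fun x : (⊤ : Subgroup G) => χ x) = _ at h1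
    rw [hf, classInner_smul_smul_irr hξ, hχ.classInner_self, hf2] at h1
    exact hK.lt.not_ge (Subgroup.relIndex_eq_one.1 (by exact_mod_cast h1))
  obtain ⟨M, -, hM⟩ := exists_isChief_above hKn (inferInstance : (⊤ : Subgroup G).Normal) hKtop
  have hMn := hM.normal_right
  obtain ⟨q, hq, hqM⟩ := hM.exists_prime (hM.commutator_le (isSolvable_quotient_of_le hK.lt.le hs))
  obtain ⟨r, hr⟩ := exists_relIndex_eq_pow hq hqM
  have hpq := ne_of_core hp hK.lt.le hM.lt hpK hqM hmax hLH hcore hx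
  have := Fintype.ofFinite M
  have := Fintype.ofFinite (M.comap j)
  have hDY : L.comap j ≤ M.comap j := Subgroup.comap_mono (hK.lt.le.trans hM.lt.le)
  have hη : IsIrrCharacter (M.comap j) (fun x => θ x) :=
    (hθ.res _).isIrr_of_comp (Subgroup.inclusion hDY) hφ
  let c : M.comap j →* M := j.subgroupComap M
  have hcinj : Function.Injective c := fun x y h => Subtype.ext (hj (congrArg Subtype.val h))
  have hχM : (fun x : M => χ x) = indHom c (fun x => θ x) := by
    ext x
    refine indHom_mackey hj M.subtype_injective (a := (M.comap j).subtype) hcinj (fun _ => rfl)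
      (fun y hy => ?_) (fun g => ?_) hθ.classFun x
    · obtain ⟨z, hz⟩ := hy
      exact ⟨⟨z, by rw [Subgroup.mem_comap, hz]; exact y.2⟩, Subtype.ext hz⟩
    · obtain ⟨a, ha, _, ⟨y, rfl⟩, rfl⟩ := hx g
      exact ⟨⟨a, hM.lt.le ha⟩, y, rfl⟩
  obtain ⟨ζ, a, hζ, ha⟩ := hc M hMn (hK.lt.trans hM.lt)
  let EM : NEmb K M := NEmb.subLe hM.lt.le fun t _ x hx => hKn.conj_mem x hx t
  have hζK := hζ.isCharacter.comp EM.ι
  have h1 : (a : ℂ) • (fun x => ζ (EM.ι x)) = (f : ℂ) • ξ := by
    rw [← hf]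
    ext x
    exact (congrFun ha (EM.ι x)).symm
  have ha0 : (a : ℂ) ≠ 0 := by
    intro h
    have := congrFun h1 1
    simp only [h, Pi.smul_apply, smul_eq_mul, zero_mul] at this
    exact mul_ne_zero hf0 hξ.apply_one_ne_zero this.symm
  have h2 : a * mult (fun x => ζ (EM.ι x)) ξ = f := by
    have := congrArg (fun t => classInner t ξ) h1
    simp only [classInner_smul_left, hξ.classInner_self, mul_one, ← hζK.mult_eq hξ.isCharacter]
      at this
    exact_mod_cast this
  have h3 : (fun x => ζ (EM.ι x)) = (mult (fun x => ζ (EM.ι x)) ξ : ℂ) • ξ := by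
    apply smul_right_injective _ ha0
    simp only
    rw [h1, smul_smul, ← Nat.cast_mul, h2]
  have h4 : mult (fun x => ζ (EM.ι x)) ξ = 1 := by
    have h5 := EM.mult_dvd_index_of_inv hζ hξ h3
    rw [show EM.ι.range = _ from NEmb.subLe_range _ _] at h5
    refine Nat.eq_one_of_dvd_coprimes (a := p ^ k) (b := q ^ r)
      (Nat.coprime_pow_primes k r hp hq hpq) ?_ (hr ▸ h5)
    rw [← hk, ← hf2, ← h2]
    exact Dvd.dvd.pow (Dvd.intro_left _ rfl) two_ne_zero
  rw [h4, mul_one] at h2
  subst h2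
  have h5 : (fun y => ζ (c y)) = (a : ℂ) • fun x : M.comap j => θ x := by
    refine (hζ.isCharacter.comp c).eq_smul_of_degree hη a (le_of_eq ?_) ?_
    · have := (hζ.isCharacter.comp c).mult_eq hη.isCharacter
      rw [← classInner_indHom_right hcinj _ hζ.classFun, ← hχM, ha, classInner_natCast_smul_right,
        hζ.classInner_self, mul_one] at this
      exact_mod_cast this.symm
    · have h6 : χ 1 = a * ζ 1 := congrFun ha 1
      rw [hχ1] at h6
      simp only [map_one, OneMemClass.coe_one]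
      apply mul_left_cancel₀ ha0
      rw [← h6]; ring
  have h6 : ∀ y : H, j y ∈ M → χ (j y) = a ^ 2 * θ y := fun y hy => by
    have h7 : χ (j y) = a * ζ (c ⟨y, hy⟩) := congrFun ha ⟨j y, hy⟩
    have h8 : ζ (c ⟨y, hy⟩) = a * θ y := congrFun h5 ⟨y, hy⟩
    rw [h7, h8]; ring
  have h7 : ∃ y : H, j y ∈ M ∧ j y ∉ L ∧ θ y ≠ 0 := by
    by_contra h
    push Not at h
    have h8 := classInner_res_of_vanish (Subgroup.inclusion_injective hDY)
      (χ := fun x : M.comap j => θ x) (fun x : M.comap j => θ x) fun y hy =>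
        h y y.2 fun hyL => hy ⟨⟨y, hyL⟩, rfl⟩
    rw [hη.classInner_self, mul_one] at h8
    have h9 : (Subgroup.inclusion hDY).range.index = 1 := by
      have := hφ.classInner_self
      exact_mod_cast h8.symm.trans this
    rw [Subgroup.index_eq_one] at h9
    refine hM.lt.not_ge fun m hm => ?_
    obtain ⟨k, hk, _, ⟨y, rfl⟩, rfl⟩ := hx m
    obtain ⟨z, hz⟩ : (⟨y, (M.mul_mem_cancel_left (hM.lt.le hk)).1 hm⟩ : M.comap j) ∈
      (Subgroup.inclusion hDY).range := h9 ▸ Subgroup.mem_top _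
    have : y = z := (congrArg Subtype.val hz).symm
    exact K.mul_mem hk (hK.lt.le (this ▸ z.2))
  obtain ⟨y, hyM, hyL, hy0⟩ := h7
  have h8 : ∀ x : G, Function.extend j θ 0 (x⁻¹ * j y * x) =
      θ y - if x⁻¹ * j y * x ∈ j.range then 0 else θ y := by
    intro x
    split_ifs with h
    · obtain ⟨z, hz⟩ := h
      rw [← hz, hj.extend_apply, sub_zero]
      apply mul_left_cancel₀ (pow_ne_zero 2 ha0)
      rw [← h6 y hyM, ← h6 z (hz ▸ hMn.conj_mem' _ hyM x), hz, hχ.classFun.conj_apply']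
    · rw [Function.extend_apply' _ _ _ h, sub_self]; rfl
  have h9 := h6 y hyM
  rw [hχdef, indHom] at h9
  simp only [h8, Finset.sum_sub_distrib, Finset.sum_const, Finset.card_univ, nsmul_eq_mul,
    Finset.sum_ite, smul_zero, zero_add] at h9
  have h10 : (Fintype.card G : ℂ) = Nat.card H * a ^ 2 := by
    rw [← hidx, ← Nat.card_eq_fintype_card, ← card_mul_index_range hj, Nat.cast_mul]
  have hH0 := natCard_ne_zero' (G := H)
  rw [h10] at h9
  field_simp at h9
  have h11 : ((Finset.univ.filter fun x : G => ¬ x⁻¹ * j y * x ∈ j.range).card : ℂ) = 0 := by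
    linear_combination -h9
  rw [Nat.cast_eq_zero, Finset.card_eq_zero, Finset.filter_eq_empty_iff] at h11
  refine hyL (hcore _ inferInstance j.range.normalCore_le fun g => ?_)
  simpa using h11 (Finset.mem_univ g⁻¹)

end

section
variable {G : Type u} [Group G] [Fintype G]

/-- The irreducible constituent of a homogeneous restriction of an induced character. -/
theorem Homog.exists_res {L H : Subgroup G} (hLH : L ≤ H) {θ : H → ℂ}
    (hθ : IsIrrCharacter H θ) (h : Homog L (indFun H θ)) : ∃ (φ : L → ℂ) (e e' : ℕ),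
      IsIrrCharacter L φ ∧ (fun x : L => indFun H θ x) = (e : ℂ) • φ ∧
        (fun x : L => θ ⟨x, hLH x.2⟩) = (e' : ℂ) • φ ∧ (e : ℂ) ≠ 0 ∧ (e' : ℂ) ≠ 0 := by
  have := Fintype.ofFinite H
  have := Fintype.ofFinite L
  obtain ⟨φ, e, hφ, he⟩ := h
  have h1 := (hθ.res_indHom_sub H.subtype_injective).resLe hLH
  have h2 := (hθ.isCharacter.resLe hLH).eq_smul_of_add h1 hφ (c := e) (by
    rw [← he]; ext x; simp [indHom_subtype])
  refine ⟨φ, e, _, hφ, he, h2, fun h => ?_, fun h => ?_⟩
  · have := congrFun he 1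
    simp only [h, OneMemClass.coe_one, CfH5.indFun_one, Pi.smul_apply, smul_eq_mul,
      zero_mul] at this
    exact mul_ne_zero (by exact_mod_cast Subgroup.FiniteIndex.index_ne_zero)
      hθ.apply_one_ne_zero this
  · have := congrFun h2 1
    simp only [h, Pi.smul_apply, smul_eq_mul, zero_mul] at this
    exact hθ.apply_one_ne_zero this

theorem exists_not_homog_of_coatom (L H : Subgroup G) [L.Normal] (hLH : L ≤ H) (hmax : IsCoatom H)
    (hs : Group.IsSolvable (G ⧸ L)) {θ : H → ℂ} (hθ : IsIrrCharacter H θ)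
    (hθL : IsIrrCharacter L (fun x : L => θ ⟨x, hLH x.2⟩))
    (hχ : IsIrrCharacter G (indFun H θ)) :
    ∃ M : Subgroup G, M.Normal ∧ L ≤ M ∧ ¬ Homog M (indFun H θ) := by
  have := Fintype.ofFinite H
  have hLC : L ≤ H.normalCore := Subgroup.normal_le_normalCore.2 hLH
  by_cases h : Homog H.normalCore (indFun H θ)
  swap
  · exact ⟨_, inferInstance, hLC, h⟩
  obtain ⟨φ, e, e', hφ, he, he', he0, -⟩ := h.exists_res H.normalCore_le hθ
  have hi := (NEmb.sub H.normalCore).inv_of_smul hχ.classFun he0 he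
  obtain ⟨M, hM, h1, h2⟩ := exists_not_homog_of_core (j := H.subtype) H.subtype_injective
    (by rwa [H.range_subtype]) H.normalCore (by rw [H.range_subtype]; exact H.normalCore_le)
    (fun M hM h => Subgroup.normal_le_normalCore.2 (by rwa [H.range_subtype] at h))
    (isSolvable_quotient_of_le hLC hs) hθ.isCharacter
    ((hθ.isCharacter.res _).isIrr_of_comp (((Subgroup.inclusion hLH).codRestrict
      (H.normalCore.comap H.subtype) fun x => hLC x.2)) hθL)
    (fun g x y hx hy => by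
      have h3 := congrFun he' ⟨x, hx⟩
      have h4 := congrFun he' ((NEmb.sub H.normalCore).act g ⟨x, hx⟩)
      simp only [Pi.smul_apply, hi g ⟨x, hx⟩] at h3 h4
      rw [← h3] at h4
      rw [← h4]
      congr 1
      exact Subtype.ext hy) hχ
  exact ⟨M, hM, hLC.trans h1.le, h2⟩

theorem Homog.comap {G' : Type v} [Group G'] [Fintype G'] (π : G' →* G)
    {M : Subgroup G'} {χ : G → ℂ} (h : Homog (M.map π) χ) : Homog M (fun x => χ (π x)) := by
  obtain ⟨φ, e, hφ, he⟩ := h
  refine ⟨fun x => φ (π.subgroupMap M x), e,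
    hφ.comp_surjective _ (π.subgroupMap_surjective M), ?_⟩
  ext x
  exact congrFun he (π.subgroupMap M x)

theorem RelPrim.of_mul {N : Subgroup G} {Ψ γ : G → ℂ} (h : RelPrim N (Ψ * γ))
    (hγ : IsCharacter G γ) : RelPrim N Ψ := by
  intro T hT hNT ψ hψ he
  refine h T hT hNT (ψ * fun t : T => γ t) (hψ.mul (hγ.res T)) ?_
  rw [← he]
  exact indHom_mul_res T.subtype_injective ψ hγ.classFun

end

/-- Berger's theorem, relative form. -/
theorem berger_aux (n : ℕ) : ∀ (G : Type u) [Group G] [Fintype G] (N : Subgroup G) [N.Normal],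
    N.index = n → Group.IsSolvable (G ⧸ N) → ∀ χ : G → ℂ, IsIrrCharacter G χ →
      (∀ M : Subgroup G, M.Normal → N ≤ M → Homog M χ) → RelPrim N χ := by
  induction n using Nat.strong_induction_on with
  | _ n ih =>
  intro G _ _ N _ hn hs χ hχ hh T hT hNT ψ hψ he
  classical
  obtain ⟨H, hmax, hTH⟩ := (eq_top_or_exists_le_coatom T).resolve_left hT
  have := Fintype.ofFinite H
  let θ : H → ℂ := indHom (Subgroup.inclusion hTH) ψ
  have hθχ : indFun H θ = χ := by
    rw [← he]
    exact indHom_indHom H.subtype_injective (Subgroup.inclusion_injective hTH) ψ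
  have hθ : IsIrrCharacter H θ := by
    have := Fintype.ofFinite T
    exact (hψ.indHom (Subgroup.inclusion_injective hTH)).isIrr_of_indHom H.subtype_injective
      (by rw [indHom_subtype, hθχ]; exact hχ)
  clear_value θ
  subst hθχ
  set L := H.normalCore with hLdef
  have hNL : N ≤ L := Subgroup.normal_le_normalCore.2 (hNT.trans hTH)
  have hLH : L ≤ H := H.normalCore_le
  have hcore : ∀ M : Subgroup G, M.Normal → M ≤ H → M ≤ L := fun M hM h =>
    Subgroup.normal_le_normalCore.2 h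
  have hL : L.Normal := inferInstance
  clear_value L
  have hsL := isSolvable_quotient_of_le hNL hs
  obtain ⟨φ, e, e', hφ, he, he', he0, he0'⟩ := (hh L hL hNL).exists_res hLH hθ
  have hi := (NEmb.sub L).inv_of_smul hχ.classFun he0 he
  obtain ⟨K, -, hK⟩ := exists_isChief_above hL (inferInstance : (⊤ : Subgroup G).Normal)
    (lt_of_le_of_lt hLH hmax.lt_top)
  have hKn := hK.normal_right
  obtain ⟨hx, hKH⟩ := hK.inf_le_of_core (hK.commutator_le hsL) hmax hLH hcore
  let E : NEmb L H := NEmb.subLe hLH fun t _ x hx => hL.conj_mem x hx t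
  obtain ⟨X⟩ := E.nonempty_ext hφ (fun g n => hi g n)
  have := Fintype.ofFinite X.Γ
  have := Fintype.ofFinite L
  have hφ' : IsIrrCharacter L (fun n => X.θ' (X.F.ι n)) := by rw [X.res_eq]; exact hφ
  obtain ⟨γ, hγ, hγL, hγθ⟩ := X.F.gallagher_surj X.irr.isCharacter hφ'
    (hθ.comp_surjective X.π X.surj) (by
      simp only [X.comm, X.res_eq]
      change classInner (fun x : L => θ ⟨x, hLH x.2⟩) φ ≠ 0
      rw [he', classInner_smul_left, hφ.classInner_self, mul_one]
      exact he0')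
  obtain ⟨γ', hγ', hγγ'⟩ := hγ.exists_quotient X.F.ι.range (by rintro _ ⟨n, rfl⟩; exact hγL n)
  let σ : X.Γ →* G := H.subtype.comp X.π
  have hσι : ∀ l : L, σ (X.F.ι l) = l := fun l => congrArg Subtype.val (X.comm l)
  let ρ : X.Γ ⧸ X.F.ι.range →* G ⧸ K := QuotientGroup.map _ K σ (by
    rintro _ ⟨l, rfl⟩
    rw [Subgroup.mem_comap, hσι]
    exact hK.lt.le l.2)
  let G' : Subgroup (G × (X.Γ ⧸ X.F.ι.range)) := MonoidHom.eqLocus
    ((QuotientGroup.mk' K).comp (MonoidHom.fst _ _)) (ρ.comp (MonoidHom.snd _ _))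
  have := Fintype.ofFinite G'
  let pr1 : G' →* G := (MonoidHom.fst _ _).comp G'.subtype
  let pr2 : G' →* X.Γ ⧸ X.F.ι.range := (MonoidHom.snd _ _).comp G'.subtype
  let j : X.Γ →* G' := (σ.prod (QuotientGroup.mk' _)).codRestrict G' fun _ => rfl
  have hj : Function.Injective j := by
    rw [injective_iff_map_eq_one]
    intro x hx
    have h1 : σ x = 1 := congrArg pr1 hx
    have h2 : (x : X.Γ ⧸ X.F.ι.range) = 1 := congrArg pr2 hx
    obtain ⟨l, rfl⟩ := (QuotientGroup.eq_one_iff x).1 h2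
    rw [hσι] at h1
    rw [show l = 1 from Subtype.ext h1, map_one]
  have hpr1 : Function.Surjective pr1 := by
    intro g
    obtain ⟨k, hk, y, hy, rfl⟩ := hx g
    obtain ⟨u, hu⟩ := X.surj ⟨y, hy⟩
    refine ⟨⟨(k * y, u), ?_⟩, rfl⟩
    change ((k * y : G) : G ⧸ K) = (σ u : G)
    rw [QuotientGroup.mk_mul, (QuotientGroup.eq_one_iff k).2 hk, one_mul]
    exact congrArg (fun t : H => ((t : G) : G ⧸ K)) hu.symm
  have hmk : ∀ (u : X.Γ) (l : L), ((u * X.F.ι l : X.Γ) : X.Γ ⧸ X.F.ι.range) = u :=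
    fun u l => QuotientGroup.mk_mul_of_mem u ⟨_, rfl⟩
  have hjr : j.range = H.comap pr1 := by
    ext x
    constructor
    · rintro ⟨u, rfl⟩; exact (X.π u).2
    · intro hxH
      obtain ⟨⟨g, u⟩, hgu⟩ := x
      obtain ⟨u, rfl⟩ := QuotientGroup.mk_surjective u
      have h1 : (g : G ⧸ K) = (σ u : G) := hgu
      have h2 : (σ u)⁻¹ * g ∈ L :=
        hKH ⟨QuotientGroup.eq.1 h1.symm, H.mul_mem (H.inv_mem (X.π u).2) hxH⟩
      refine ⟨u * X.F.ι ⟨_, h2⟩, Subtype.ext (Prod.ext ?_ ?_)⟩
      · change σ (u * _) = g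
        rw [map_mul, hσι, mul_inv_cancel_left]
      · exact QuotientGroup.mk_mul_of_mem u ⟨_, rfl⟩
  have hχ' : (fun x => indFun H θ (pr1 x)) = indHom j X.θ' * fun x => γ' (pr2 x) := by
    rw [← indHom_mul_res hj _ (hγ'.isCharacter.comp pr2).classFun]
    ext x
    rw [← indHom_subtype, ← indHom_pullback H.subtype_injective hj pr1 hpr1 X.π (fun _ => rfl)
      (fun g hg => by rw [hjr]; rwa [H.range_subtype] at hg), ← hγθ, mul_comm]
    congr 2
    exact funext hγγ'
  have hχ'irr := hχ.comp_surjective pr1 hpr1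
  have hΨ : IsIrrCharacter G' (indHom j X.θ') :=
    (X.irr.isCharacter.indHom hj).isIrr_of_mul (hγ'.isCharacter.comp pr2) (hχ' ▸ hχ'irr)
  have hsL' : Group.IsSolvable (G' ⧸ L.comap pr1) := isSolvable_quotient_comap pr1 le_rfl hsL
  obtain ⟨M, hM, hLM, hnh⟩ := exists_not_homog_of_core hj
    (by rw [hjr]; exact Subgroup.isCoatom_comap_of_surjective hpr1 hmax) (L.comap pr1)
    (by rw [hjr]; exact Subgroup.comap_mono hLH)
    (fun M hM h => Subgroup.map_le_iff_le_comap.1 (hcore _ (hM.map _ hpr1)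
      (Subgroup.map_le_iff_le_comap.2 (hjr ▸ h)))) hsL' X.irr.isCharacter
    ((X.irr.isCharacter.res _).isIrr_of_comp (X.F.ι.codRestrict ((L.comap pr1).comap j) fun l => by
      change σ _ ∈ L
      rw [hσι]; exact l.2) hφ')
    (fun g x y hx hy => by
      have hx' : σ x ∈ L := hx
      have hz : x * (X.F.ι ⟨_, hx'⟩)⁻¹ ∈ X.π.ker := by
        rw [MonoidHom.mem_ker, map_mul, map_inv, X.comm, mul_inv_eq_one]
        rfl
      have h1 : x = (⟨_, hz⟩ : X.π.ker) * X.F.ι ⟨_, hx'⟩ := by simp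
      have h2 : y = (⟨_, hz⟩ : X.π.ker) * X.F.ι ((NEmb.sub L).act (pr1 g) ⟨_, hx'⟩) := by
        apply hj
        rw [hy]
        refine Subtype.ext (Prod.ext ?_ ?_)
        · change pr1 (g * j x * g⁻¹) = σ (_ * _)
          rw [map_mul, map_mul, map_inv, map_mul, hσι, map_mul, map_inv, hσι]
          change _ = σ x * (σ x)⁻¹ * _
          rw [mul_inv_cancel, one_mul]
          rfl
        · change pr2 (g * j x * g⁻¹) = ((_ * _ : X.Γ) : X.Γ ⧸ X.F.ι.range)
          rw [hmk, map_mul, map_mul, map_inv]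
          obtain ⟨u, hu⟩ := QuotientGroup.mk_surjective (pr2 g)
          rw [← hu]
          change (u : X.Γ ⧸ X.F.ι.range) * (x : X.Γ ⧸ X.F.ι.range) * _ = _
          conv_lhs => rw [h1]
          rw [hmk, ← QuotientGroup.mk_mul, X.ker_comm,
            QuotientGroup.mk_mul, mul_inv_cancel_right]
      rw [h2, X.lam_spec, X.ext, hi]
      conv_rhs => rw [h1, X.lam_spec, X.ext]) hΨ
  apply hnh
  have hlt : M.index < n := by
    refine lt_of_lt_of_le (Subgroup.index_strictAnti hLM) ?_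
    rw [Subgroup.index_comap_of_surjective _ hpr1, ← hn]
    exact Subgroup.index_antitone hNL
  have hrp := ih _ hlt G' M rfl (isSolvable_quotient_of_le hLM.le hsL') _ hχ'irr
    fun M' hM' h => Homog.comap pr1 (hh _ (hM'.map _ hpr1) (hNL.trans
      ((Subgroup.map_comap_eq_self_of_surjective hpr1 L).ge.trans
        (Subgroup.map_mono (hLM.le.trans h)))))
  rw [hχ'] at hrp
  exact (hrp.of_mul (hγ'.isCharacter.comp pr2)).homog hΨ M le_rfl

/-- Berger's theorem, relative form. -/
theorem berger {G : Type u} [Group G] [Fintype G] (N : Subgroup G) [N.Normal]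
    (hs : Group.IsSolvable (G ⧸ N)) {χ : G → ℂ} (hχ : IsIrrCharacter G χ)
    (h : ∀ M : Subgroup G, M.Normal → N ≤ M → Homog M χ) : RelPrim N χ :=
  berger_aux _ G N rfl hs χ hχ h

end CfH4
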