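import Cfsg.Agent.OD.Pre
import Cfsg.Agent.H4.DegRatio
import Cfsg.Agent.H4.Ramified
import Cfsg.Agent.H5.BrauerInd

/-! Dade's detection of invariant characters on elementary subgroups. -/

open Cfsg Module CfH4
open scoped ComplexConjugate commutatorElement

namespace CfH4

universe u v w

/-- A fixed point with weight prime to `p`. -/
theorem exists_fixed_of_not_dvd_sum {E : Type u} {X : Type v} [Group E] [Fintype X]
    [MulAction E X] {p : ℕ} (hp : p.Prime) (h : ∀ g : E, ∃ k, ∀ x : X, g ^ p ^ k • x = x)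
    (F : X → ℕ) (hF : ∀ (g : E) x, F (g • x) = F x) (hs : ¬ p ∣ ∑ x, F x) :
    ∃ x, (∀ g : E, g • x = x) ∧ ¬ p ∣ F x := by
  classical
  have := Fact.mk hp
  by_contra hc
  push Not at hc
  apply hs
  have hP : IsPGroup p (MulAction.toPermHom E X).range := by
    rintro ⟨_, g, rfl⟩
    obtain ⟨k, hk⟩ := h g
    refine ⟨k, Subtype.ext ?_⟩
    rw [SubgroupClass.coe_pow, ← map_pow]
    exact Equiv.ext hk
  have h1 := Finset.sum_comp (s := Finset.univ) (fun v : ℕ => v) F
  rw [h1]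
  refine Finset.dvd_sum fun v _ => ?_
  rw [smul_eq_mul]
  by_cases hv : p ∣ v
  · exact hv.mul_left _
  refine Dvd.dvd.mul_right ?_ _
  by_contra hd
  let S : SubMulAction (MulAction.toPermHom E X).range X :=
    { carrier := {x | F x = v}
      smul_mem' := by
        rintro ⟨_, g, rfl⟩ x hx
        exact (hF g x).trans hx }
  have hcard : Nat.card S = (Finset.univ.filter fun a => F a = v).card := by
    rw [← Fintype.card_subtype, ← Nat.card_eq_fintype_card]
    rfl
  obtain ⟨⟨x, hx⟩, hfix⟩ := hP.nonempty_fixed_point_of_prime_not_dvd_card S (by rwa [hcard])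
  apply hv
  have hx' : F x = v := hx
  rw [← hx']
  refine hc x fun g => ?_
  exact congrArg Subtype.val (hfix ⟨_, g, rfl⟩)

namespace NEmb

variable {N : Type u} {G : Type v} [Group N] [Group G] (E : NEmb N G)

/-- The conjugation action on irreducible characters. -/
@[reducible] def irrAction [Finite N] : MulAction G (IrrCharacter N) where
  smul g φ := ⟨E.cj g⁻¹ φ, E.cj_irr φ.2 _⟩
  one_smul φ := Subtype.ext (show E.cj 1⁻¹ φ = φ by rw [inv_one, cj_one])
  mul_smul g h φ := Subtype.ext (show E.cj (g * h)⁻¹ φ = E.cj g⁻¹ (E.cj h⁻¹ φ) by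
    rw [mul_inv_rev, cj_mul])

/-- If the quotient is a `p`-group, an invariant weight function with total weight prime to `p`
has an invariant irreducible character of weight prime to `p`. -/
theorem exists_inv_of_not_dvd_sum [Finite N] {p : ℕ} (hp : p.Prime)
    (h : ∀ g : G, ∃ k, g ^ p ^ k ∈ E.ι.range) (F : (N → ℂ) → ℕ)
    (hF : ∀ (g : G) φ, IsIrrCharacter N φ → F (E.cj g φ) = F φ)
    (hs : ¬ p ∣ ∑ φ : IrrCharacter N, F φ) :
    ∃ φ, IsIrrCharacter N φ ∧ E.Inv φ ∧ ¬ p ∣ F φ := by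
  letI := E.irrAction
  obtain ⟨φ, h1, h2⟩ := exists_fixed_of_not_dvd_sum (E := G) hp (fun g => by
    obtain ⟨k, n, hn⟩ := h g
    refine ⟨k, fun φ => Subtype.ext ?_⟩
    change E.cj (g ^ p ^ k)⁻¹ φ = φ
    rw [← hn, ← map_inv, E.cj_ι φ.2.classFun]) (fun φ : IrrCharacter N => F φ)
    (fun g φ => hF g⁻¹ φ φ.2) hs
  refine ⟨φ, φ.2, fun g n => ?_, h2⟩
  have := congrArg Subtype.val (h1 g⁻¹)
  change E.cj g⁻¹⁻¹ φ = φ at this
  rw [inv_inv] at this
  exact congrFun this n

namespace Ext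

variable {E} {θ : N → ℂ} (X : E.Ext θ)

/-- If `G = HN` and a linear character of `H` occurs in `θ` on `H ∩ N` with multiplicity `m` then
the `m`-th power of the obstruction character extends. -/
theorem pow_mem_of_sub {D : Type w} [Group D] [Fintype D] (H : Subgroup G) (a : D →* H)
    (b : D →* N) (hb : Function.Injective b) (hsq : ∀ d, (a d : G) = E.ι (b d))
    (hint : ∀ n, E.ι n ∈ H → n ∈ b.range) (hx : ∀ g : G, ∃ n, ∃ h ∈ H, g = E.ι n * h)
    (μ : H →* ℂˣ) {m : ℕ} (hm : classInner (fun d => θ (b d)) (fun d => μ (a d)) = m) :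
    X.lam2 ^ m ∈ X.E2.extHoms := by
  classical
  have := Fintype.ofFinite X.Γ
  let H' := H.comap X.π
  let π' : H' →* H := X.π.subgroupComap H
  have hmem : ∀ d, X.F.ι (b d) ∈ H' := fun d => by
    change X.π _ ∈ H
    rw [X.comm, ← hsq]; exact (a d).2
  let ι' : D →* H' := (X.F.ι.comp b).codRestrict H' hmem
  have hι' : Function.Injective ι' := fun x y h => hb (X.F.inj (congrArg Subtype.val h))
  have hr : ι'.range = X.F.ι.range.subgroupOf H' := by
    ext x
    simp only [MonoidHom.mem_range, Subgroup.mem_subgroupOf]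
    constructor
    · rintro ⟨d, rfl⟩; exact ⟨b d, rfl⟩
    · rintro ⟨n, hn⟩
      obtain ⟨d, rfl⟩ := hint n (by rw [← X.comm, hn]; exact x.2)
      exact ⟨d, Subtype.ext hn⟩
  let E' : NEmb D H' := ofRange ι' hι' (by rw [hr]; infer_instance)
  have hπι : ∀ d, π' (ι' d) = a d := fun d => Subtype.ext ((X.comm _).trans (hsq d).symm)
  let η : H' → ℂ := (fun x : H' => X.θ' x) * fun x => conj (homFun H μ (π' x))
  have hη : IsCharacter H' η :=
    (X.irr.isCharacter.res H').mul ((homFun_char μ).comp π').conj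
  let η0 : H' → ℂ := fun g => (Nat.card D : ℂ)⁻¹ * ∑ d : D, η (ι' d * g)
  have hη0 : IsCharacter H' η0 := by
    have h1 : η0 = ∑ β : IrrCharacter H', if ∀ n, (β : H' → ℂ) (E'.ι n) = (β : H' → ℂ) 1
        then (mult η β : ℂ) • (β : H' → ℂ) else 0 := by
      ext g
      rw [Finset.sum_apply]
      refine (E'.avg_classFun hη.classFun g).trans (Finset.sum_congr rfl fun β _ => ?_)
      split_ifs
      · rw [hη.mult_eq β.2.isCharacter]; rfl
      · rfl
    rw [h1]
    refine isCharacter_sum _ _ fun β _ => ?_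
    split_ifs
    · exact β.2.isCharacter.natCast_smul _
    · exact isCharacter_zero
  have h1 : η0 1 = m := by
    rw [← hm, classInner_def]
    simp only [η0, η, mul_one, Pi.mul_apply, hπι, homFun_apply]
    congr 1
    refine Finset.sum_congr rfl fun d _ => ?_
    congr 1
    exact X.ext _
  have h2 : ∀ d, η0 (ι' d) = 1 * η0 1 := fun d => by
    simp only [η0, one_mul, mul_one, ← map_mul]
    congr 1
    exact Fintype.sum_equiv (Equiv.mulRight d) _ _ fun _ => rfl
  have hz : ∀ z : X.π.ker, (z : X.Γ) ∈ H' := fun z => by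
    change X.π _ ∈ H
    rw [z.2]; exact H.one_mem
  have h3 : ∀ z : X.π.ker, η0 ⟨z, hz z⟩ = X.lam z * η0 1 := fun z => by
    simp only [η0, mul_one]
    rw [mul_left_comm, Finset.mul_sum Finset.univ _ (X.lam z : ℂ)]
    congr 1
    refine Finset.sum_congr rfl fun d _ => ?_
    have h4 : π' ⟨z, hz z⟩ = 1 := Subtype.ext z.2
    simp only [η, Pi.mul_apply, map_mul, h4, mul_one, Subgroup.coe_mul]
    rw [X.ker_comm, X.lam_spec, mul_assoc]
  obtain ⟨δ, hδ⟩ := hη0.exists_detHom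
  have hδ1 : ∀ d, δ (ι' d) = 1 := fun d => by
    ext
    rw [← homFun_apply, ← hδ, hη0.detChar_of_scalar h1 norm_one (h2 d)]
    simp
  have hδ2 : ∀ z : X.π.ker, δ ⟨z, hz z⟩ = X.lam z ^ m := fun z => by
    ext
    rw [← homFun_apply, ← hδ, hη0.detChar_of_scalar h1
      ((homFun_char X.lam).norm_eq_one_of_apply_one (homFun_one _) z) (h3 z)]
    simp [homFun_apply]
  let q : H' →* X.Γ ⧸ X.F.ι.range := (QuotientGroup.mk' _).comp H'.subtype
  have hq : Function.Surjective q := by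
    intro y
    obtain ⟨y, rfl⟩ := QuotientGroup.mk_surjective y
    obtain ⟨n, h, hh, hy⟩ := hx (X.π y)
    refine ⟨⟨(X.F.ι n)⁻¹ * y, ?_⟩, ?_⟩
    · change X.π _ ∈ H
      rw [map_mul, map_inv, X.comm, hy, inv_mul_cancel_left]; exact hh
    · change (((X.F.ι n : X.Γ) : X.Γ ⧸ X.F.ι.range)⁻¹ * y : X.Γ ⧸ X.F.ι.range) = y
      rw [(QuotientGroup.eq_one_iff (N := X.F.ι.range) (X.F.ι n)).2 ⟨n, rfl⟩, inv_one, one_mul]
  have hker : q.ker ≤ δ.ker := by
    intro x hx
    have : x ∈ ι'.range := by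
      rw [hr]
      exact (QuotientGroup.eq_one_iff (N := X.F.ι.range) (x : X.Γ)).1 hx
    obtain ⟨d, rfl⟩ := this
    exact hδ1 d
  let f := q.liftOfSurjective hq ⟨δ, hker⟩
  have hf : ∀ x, f (q x) = δ x := fun x => q.liftOfRightInverse_comp_apply _ _ ⟨δ, hker⟩ x
  refine (mem_extHoms _).2 ⟨f.comp (QuotientGroup.mk' _), ?_⟩
  rintro ⟨z, n⟩
  rw [MonoidHom.comp_apply, E2_ι, map_mul, QuotientGroup.mk'_apply _ (X.F.ι n),
    (QuotientGroup.eq_one_iff (N := X.F.ι.range) (X.F.ι n)).2 ⟨n, rfl⟩, mul_one]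
  exact (hf ⟨z, hz z⟩).trans (hδ2 z)

end Ext

/-- Extension criterion through a supplement. -/
theorem extends_of_sub [Finite G] {θ : N → ℂ} (hθ : IsIrrCharacter N θ) (hi : E.Inv θ)
    {D : Type w} [Group D] [Fintype D] (H : Subgroup G) (a : D →* H)
    (b : D →* N) (hb : Function.Injective b) (hsq : ∀ d, (a d : G) = E.ι (b d))
    (hint : ∀ n, E.ι n ∈ H → n ∈ b.range) (hx : ∀ g : G, ∃ n, ∃ h ∈ H, g = E.ι n * h)
    (μ : H →* ℂˣ) {m : ℕ} (hm : classInner (fun d => θ (b d)) (fun d => μ (a d)) = m)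
    (hc : E.ι.range.index.Coprime m) : ∃ χ : G → ℂ, IsIrrCharacter G χ ∧ ∀ n, χ (E.ι n) = θ n := by
  obtain ⟨X⟩ := E.nonempty_ext hθ hi
  refine X.extends_of_mem (X.E2.mem_extHoms_of_coprime X.lam2_inv (d := m) ?_
    (X.pow_mem_of_sub H a b hb hsq hint hx μ hm))
  rwa [X.E2_index]

end NEmb

/-- Dade's theorem. -/
theorem dade {G : Type u} [Group G] [Fintype G] {p : ℕ} (hp : p.Prime) (N : Subgroup G)
    [hN : N.Normal] (hind : ∃ k : ℕ, N.index = p ^ k) {θ : N → ℂ} (hθ : IsIrrCharacter N θ)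
    (hinv : (NEmb.sub N).Inv θ) : ∃ (E : Subgroup G) (φ : ↥(E ⊓ N) → ℂ) (_ : Fintype ↥(E ⊓ N)),
      IsElementary p E ∧ E ⊔ N = ⊤ ∧ IsIrrCharacter ↥(E ⊓ N) φ ∧
      (∀ (g : G) (hg : g ∈ E) (x : ↥(E ⊓ N)), φ ⟨g * x * g⁻¹, ⟨(E.mul_mem (E.mul_mem hg x.2.1)
        (E.inv_mem hg)), hN.conj_mem (x : G) x.2.2 g⟩⟩ = φ x) ∧ ∃ m : ℕ, ¬ p ∣ m ∧
        classInner (fun x : ↥(E ⊓ N) => θ ⟨x, x.2.2⟩) φ = m := by
  classical
  obtain ⟨k, hk⟩ := hind
  have := Fintype.ofFinite N
  let τ : N → ℂ := θ * fun n => conj (θ n)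
  have hτ : IsCharacter N τ := hθ.isCharacter.mul hθ.isCharacter.conj
  have hτi : (NEmb.sub N).Inv τ := hinv.mul fun g n => congrArg conj (hinv g n)
  let A := indHom (NEmb.sub N).ι τ
  have hA : IsCharacter G A := hτ.indHom (NEmb.sub N).inj
  obtain ⟨m, hm, hmem⟩ := CfH5.brauer_local (G := G) p hp
  have h1 : ∃ (E : Subgroup G) (ψ : E → ℂ), IsElementary p E ∧ IsCharacter E ψ ∧
      ¬ p ∣ mult (indFun E ψ) A := by
    by_contra hc
    push Not at hc
    have key : ∀ f ∈ CfH5.indSpan (G := G) ⊥ (fun E : Subgroup G => IsElementary p E),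
        ∃ z : ℤ, classInner f A = p * z := by
      intro f hf
      induction hf using Submodule.span_induction with
      | mem x hx =>
        obtain ⟨E, ψ, hE, hψ, rfl⟩ := hx
        obtain ⟨c, hc⟩ := hc E ψ hE hψ
        exact ⟨c, by rw [← hψ.ind.mult_eq hA, hc]; simp⟩
      | zero => exact ⟨0, by simp [classInner_zero_left]⟩
      | add x y _ _ hx hy =>
        obtain ⟨a, ha⟩ := hx
        obtain ⟨b, hb⟩ := hy
        exact ⟨a + b, by rw [classInner_add_left, ha, hb]; push_cast; ring⟩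
      | smul a x _ hx =>
        obtain ⟨c, hc⟩ := hx
        obtain ⟨a', ha'⟩ := Subring.mem_bot.1 a.2
        refine ⟨a' * c, ?_⟩
        rw [show a • x = (a : ℂ) • x from rfl, classInner_smul_left, hc, ← ha']
        push_cast; ring
    obtain ⟨z, hz⟩ := key _ hmem
    rw [classInner_indHom_right (NEmb.sub N).inj τ (isClassFunction_const _),
      classInner_mul_right] at hz
    have h2 : ((fun _ : N => (m : ℂ)) * fun g => conj (conj (θ g))) = (m : ℂ) • θ := by
      ext; simp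
    rw [h2, classInner_smul_left, hθ.classInner_self, mul_one] at hz
    exact hm ⟨z, by exact_mod_cast hz⟩
  obtain ⟨E, ψ, hE, hψ, hn⟩ := h1
  have := Fintype.ofFinite E
  have := Fintype.ofFinite ↥(E ⊓ N)
  let F : NEmb ↥(E ⊓ N) E := NEmb.subLe inf_le_left fun t ht x hx =>
    ⟨E.mul_mem (E.mul_mem ht hx.1) (E.inv_mem ht), hN.conj_mem x hx.2 t⟩
  let θD : ↥(E ⊓ N) → ℂ := fun x => θ ⟨x, x.2.2⟩
  have hθD : IsCharacter _ θD := hθ.isCharacter.resLe inf_le_right
  have hθDi : F.Inv θD := fun g x => hinv g ⟨x, x.2.2⟩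
  let ψD : ↥(E ⊓ N) → ℂ := fun x => ψ (F.ι x)
  have hψD : IsCharacter _ ψD := hψ.comp F.ι
  have hFr : F.ι.range.index = N.relIndex E := by
    rw [show F.ι.range = _ from NEmb.subLe_range _ _, ← Subgroup.inf_relIndex_left]; rfl
  have h2 := classInner_res_of_vanish F.inj (χ := fun x : E => A x) ψ fun g hg =>
    (NEmb.sub N).ind_apply_of_not_mem τ (by
      rw [NEmb.sub_range]
      intro h
      exact hg ⟨⟨g, g.2, h⟩, rfl⟩)
  have h3 : (fun x : ↥(E ⊓ N) => A (F.ι x)) =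
      (N.index : ℂ) • (θD * fun x => conj (θD x)) := by
    ext x
    have := congrFun hτi.res_ind ⟨x, x.2.2⟩
    rw [NEmb.sub_range] at this
    exact this
  have h4 : classInner (fun x : E => A x) ψ = mult (indFun E ψ) A := by
    rw [hψ.ind.mult_eq hA, ← indHom_subtype, classInner_indHom_left E.subtype_injective ψ
      hA.classFun]
    exact (hA.res E).classInner_comm hψ
  have hκ := hθD.mul hθD.conj
  rw [h3, classInner_smul_left, h4, hFr, ← hκ.mult_eq hψD] at h2
  have h5 : N.index * mult (θD * fun x => conj (θD x)) ψD = N.relIndex E * mult (indFun E ψ) A := by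
    exact_mod_cast h2
  have h6 : N.relIndex E * (E ⊔ N).index = N.index := by
    rw [← Subgroup.relIndex_sup_right, Subgroup.relIndex_mul_index le_sup_right]
  have hr0 : N.relIndex E ≠ 0 := Subgroup.FiniteIndex.index_ne_zero
  rw [← h6, mul_assoc] at h5
  have h7 := mul_left_cancel₀ hr0 h5
  rw [← h7] at hn
  have h8 : E ⊔ N = ⊤ := by
    rw [← Subgroup.index_eq_one]
    have : (E ⊔ N).index ∣ p ^ k := hk ▸ Subgroup.index_dvd_of_le le_sup_right
    obtain ⟨j, -, hj⟩ := (Nat.dvd_prime_pow hp).1 this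
    rcases j with _ | j
    · simpa using hj
    · exact absurd (Dvd.dvd.mul_right (hj ▸ dvd_pow_self p j.succ_ne_zero) _) hn
  have h9 : ¬ p ∣ mult (θD * fun x => conj (θD x)) ψD := fun h => hn (h.mul_left _)
  have h10 : mult (θD * fun x => conj (θD x)) ψD =
      ∑ φ : IrrCharacter ↥(E ⊓ N), mult θD φ * mult (ψD * θD) φ := by
    have := hθD.classInner_eq_sum_mult (hψD.mul hθD)
    rw [classInner_mul_right, ← hκ.mult_eq hψD] at this
    exact_mod_cast this
  rw [h10] at h9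
  have hmult : ∀ {η : ↥(E ⊓ N) → ℂ}, F.Inv η → ∀ g φ, mult η (F.cj g φ) = mult η φ := by
    intro η hη g φ
    unfold mult
    conv_lhs => rw [← hη.cj_eq g]
    rw [F.classInner_cj]
  obtain ⟨φ, hφ, hφi, hφp⟩ := F.exists_inv_of_not_dvd_sum hp (fun g => ⟨k, by
      refine ⟨⟨(g : G) ^ p ^ k, E.pow_mem g.2 _, ?_⟩, rfl⟩
      rw [← hk]; exact N.pow_index_mem g⟩)
    (fun φ => mult θD φ * mult (ψD * θD) φ)
    (fun g φ _ => by rw [hmult hθDi, hmult ((F.inv_res hψ.classFun).mul hθDi)]) h9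
  exact ⟨E, φ, inferInstance, hE, h8, hφ, fun g hg x => hφi ⟨g, hg⟩ x, mult θD φ,
    fun h => hφp (h.mul_right _), (hθD.mult_eq hφ.isCharacter).symm⟩

end CfH4
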