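import Cfsg.Agent.OD.Pre
import Cfsg.Agent.H4.Extra2
import Cfsg.Agent.H1.Frattini

/-! Existence of the extensions `2^{1+2n}.K` for `K` a group of isometries. -/

set_option autoImplicit false
open Cfsg Matrix
open scoped commutatorElement

namespace CfH4

universe u v w

theorem ES2.isExtraspecial {Q : Type u} [Group Q] [Finite Q] {z : Q} (h : ES2 z) {x y : Q}
    (hxy : x * y ≠ y * x) : IsExtraspecial 2 Q := by
  have := Fact.mk Nat.prime_two
  have hP : IsPGroup 2 Q := fun g => ⟨2, by
    rw [show 2 ^ 2 = 2 * 2 from rfl, pow_mul, pow_two g, pow_two]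
    rcases h.sq_eq g with h1 | h1
    · rw [h1, one_mul]
    · rw [h1, h.sq]⟩
  have hc : commutator Q = Subgroup.center Q := by
    apply le_antisymm
    · rw [commutator_def, Subgroup.commutator_le]
      intro a _ b _
      rw [h.mem_center_iff, commutatorElement_def]
      refine (h.comm a b).imp (fun h1 => ?_) fun h1 => ?_ <;> rw [h1] <;> group
    · intro a ha
      rcases h.mem_center_iff.1 ha with h1 | h1
      · rw [h1]; exact one_mem _
      · have : a = ⁅x, y⁆ := by rw [h1, commutatorElement_def, h.anti hxy]; group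
        rw [this]
        exact Subgroup.commutator_mem_commutator (Subgroup.mem_top _) (Subgroup.mem_top _)
  refine ⟨⟨hP, le_antisymm ?_ ?_, hc⟩, h.card_center⟩
  · exact CfH1.frattini_le_of_commutator_le_of_pow_mem (p := 2) hc.le fun a => by
      rw [pow_two]; exact h.mem_center_iff.2 (h.sq_eq a)
  · have := hP.isNilpotent
    exact hc ▸ CfH1.commutator_le_frattini

theorem zmod2_cases (t : ZMod 2) : t = 0 ∨ t = 1 := by revert t; decide

section
variable {U : Type v} [AddCommGroup U] [Module (ZMod 2) U]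

theorem add_self_zmod2 (u : U) : u + u = 0 := by
  rw [← two_smul (ZMod 2), show (2 : ZMod 2) = 0 from rfl, zero_smul]

theorem eq_add_iff_zmod2 {u v w : U} : v = u + w ↔ w = u + v := by
  constructor <;> rintro rfl <;> rw [← add_assoc, add_self_zmod2, zero_add]

theorem exists_of_alt [Module.Finite (ZMod 2) U] (γ : LinearMap.BilinForm (ZMod 2) U)
    (hγ : ∀ u, γ u u = 0) : ∃ f : U → ZMod 2, f 0 = 0 ∧ ∀ u v, f (u + v) = f u + f v + γ u v := by
  let b := Module.finBasis (ZMod 2) U
  let γ' : LinearMap.BilinForm (ZMod 2) U := b.constr (ZMod 2) fun i => b.constr (ZMod 2) fun j =>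
    if i < j then γ (b i) (b j) else 0
  have hs : ∀ u v, γ u v = γ v u := fun u v => by
    have := hγ (u + v)
    simp only [map_add, LinearMap.add_apply, hγ, zero_add, add_zero] at this
    rw [eq_neg_of_add_eq_zero_right this, ZMod.neg_eq_self_mod_two]
  have h1 : γ' + γ'.flip = γ := by
    refine LinearMap.ext_basis b b fun i j => ?_
    simp only [γ', LinearMap.add_apply, LinearMap.BilinForm.flip_apply, Module.Basis.constr_basis]
    rcases lt_trichotomy i j with h | h | h
    · simp [h, h.not_gt]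
    · simp [h, hγ]
    · simp [h, h.not_gt, hs (b i)]
  refine ⟨fun u => γ' u u, by simp, fun u v => ?_⟩
  rw [← h1]
  simp only [map_add, LinearMap.add_apply, LinearMap.BilinForm.flip_apply]
  ring

/-- The sign of an element of the field with two elements. -/
noncomputable def sg2 (t : ZMod 2) : ℝ := if t = 0 then 1 else -1

theorem sg2_zero : sg2 0 = 1 := if_pos rfl

theorem sg2_one : sg2 1 = -1 := if_neg (by decide)

theorem sg2_add (s t : ZMod 2) : sg2 (s + t) = sg2 s * sg2 t := by
  rcases zmod2_cases s with rfl | rfl <;> rcases zmod2_cases t with rfl | rfl <;>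
    simp [sg2_zero, sg2_one, show (1 + 1 : ZMod 2) = 0 from rfl]

theorem sg2_mul_self (s : ZMod 2) : sg2 s * sg2 s = 1 := by
  rcases zmod2_cases s with rfl | rfl <;> simp [sg2_zero, sg2_one]

variable [Fintype U] [DecidableEq U]

/-- Twisted translation matrices. -/
noncomputable def twL (β : LinearMap.BilinForm (ZMod 2) U) (u : U) : Matrix U U ℝ :=
  fun v w => if v = u + w then sg2 (β u w) else 0

variable (β : LinearMap.BilinForm (ZMod 2) U)

theorem twL_mul_apply (u : U) (T : Matrix U U ℝ) (a c : U) :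
    (twL β u * T) a c = sg2 (β u (u + a)) * T (u + a) c := by
  simp only [Matrix.mul_apply, twL, eq_add_iff_zmod2 (v := a), ite_mul, zero_mul]
  rw [Finset.sum_ite_eq']
  simp

theorem mul_twL_apply (u : U) (T : Matrix U U ℝ) (a c : U) :
    (T * twL β u) a c = T a (u + c) * sg2 (β u c) := by
  simp only [Matrix.mul_apply, twL, mul_ite, mul_zero]
  rw [Finset.sum_ite_eq']
  simp

theorem twL_mul (u v : U) : twL β u * twL β v = sg2 (β u v) • twL β (u + v) := by
  ext a c
  rw [mul_twL_apply]
  simp only [twL, Matrix.smul_apply, smul_eq_mul, add_assoc, map_add, LinearMap.add_apply, sg2_add]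
  split_ifs <;> ring

theorem twL_zero : twL β 0 = 1 := by
  ext a c
  simp [twL, Matrix.one_apply, sg2_zero]

theorem twL_transpose (u : U) : (twL β u)ᵀ = sg2 (β u u) • twL β u := by
  ext a c
  simp only [twL, Matrix.transpose_apply, Matrix.smul_apply, smul_eq_mul,
    eq_add_iff_zmod2 (v := c)]
  split_ifs with h
  · rw [h, map_add, sg2_add]
  · rw [mul_zero]

theorem twL_mul_transpose (u : U) : twL β u * (twL β u)ᵀ = 1 := by
  rw [twL_transpose, Matrix.mul_smul, twL_mul, smul_smul, sg2_mul_self, one_smul, add_self_zmod2,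
    twL_zero]

theorem twL_comm (u v : U) : twL β u * twL β.flip v = twL β.flip v * twL β u := by
  ext a c
  rw [mul_twL_apply, mul_twL_apply]
  simp only [twL, map_add, sg2_add, LinearMap.BilinForm.flip_apply, add_left_comm u v c]
  split_ifs <;> ring

theorem eq_smul_of_comm (hnd : ∀ w, (∀ v, β v w + β w v = 0) → w = 0) {T : Matrix U U ℝ}
    (h1 : ∀ u, T * twL β u = twL β u * T) (h2 : ∀ u, T * twL β.flip u = twL β.flip u * T) :
    T = T 0 0 • (1 : Matrix U U ℝ) := by
  have h3 : ∀ a v, T a v = sg2 (β v (v + a)) * T (v + a) 0 := fun a v => by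
    have := congrFun (congrFun (h1 v) a) 0
    rwa [mul_twL_apply, twL_mul_apply, add_zero, map_zero, sg2_zero, mul_one] at this
  have h4 : ∀ a v, T a v = sg2 (β (v + a) v) * T (v + a) 0 := fun a v => by
    have := congrFun (congrFun (h2 v) a) 0
    rwa [mul_twL_apply, twL_mul_apply, add_zero, map_zero, sg2_zero, mul_one] at this
  have h5 : ∀ w, w ≠ 0 → T w 0 = 0 := fun w hw => by
    obtain ⟨v, hv⟩ := not_forall.1 (mt (hnd w) hw)
    have h6 := (h3 (v + w) v).symm.trans (h4 (v + w) v)
    rw [← add_assoc, add_self_zmod2, zero_add] at h6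
    rcases zmod2_cases (β v w) with h7 | h7 <;> rcases zmod2_cases (β w v) with h8 | h8
    · exact absurd (by rw [h7, h8]; rfl) hv
    · rw [h7, h8, sg2_zero, sg2_one] at h6; linarith
    · rw [h7, h8, sg2_zero, sg2_one] at h6; linarith
    · exact absurd (by rw [h7, h8]; rfl) hv
  ext a v
  rw [h3, Matrix.smul_apply, Matrix.one_apply]
  split_ifs with h
  · simp [h, add_self_zmod2, sg2_zero]
  · rw [h5, mul_zero, smul_zero]
    intro h6
    exact h (by rw [eq_add_iff_zmod2.1 h6.symm, add_zero])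

theorem exists_intertwiner [Module.Finite (ZMod 2) U]
    (hnd : ∀ w, (∀ v, β v w + β w v = 0) → w = 0) (g : U →ₗ[ZMod 2] U)
    (hg : Function.Surjective g) (hq : ∀ u, β (g u) (g u) = β u u) :
    ∃ T : Matrix U U ℝ, T * Tᵀ = 1 ∧ (∀ u, T * twL β.flip u = twL β.flip u * T) ∧
      ∀ u, ∃ t, T * twL β u = sg2 t • (twL β (g u) * T) := by
  obtain ⟨f, hf0, hf⟩ := exists_of_alt (β.compl₁₂ g g + β) fun u => by
    simp [hq, add_self_zmod2]
  simp only [LinearMap.add_apply, LinearMap.compl₁₂_apply] at hf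
  let Φ : U → Matrix U U ℝ := fun b => ∑ u, sg2 (f u) • (twL β (g u) * twL β b * (twL β u)ᵀ)
  have hΦ1 : ∀ b u, Φ b * twL β.flip u = twL β.flip u * Φ b := fun b u => by
    simp only [Φ, Matrix.sum_mul, Matrix.mul_sum, Matrix.smul_mul, Matrix.mul_smul, twL_transpose]
    refine Finset.sum_congr rfl fun v _ => ?_
    rw [Matrix.mul_assoc, twL_comm, ← Matrix.mul_assoc, Matrix.mul_assoc (twL β (g v)), twL_comm,
      ← Matrix.mul_assoc, twL_comm]
    simp only [Matrix.mul_assoc]
  have hΦ2 : ∀ b x, Φ b * twL β x = sg2 (f x) • (twL β (g x) * Φ b) := fun b x => by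
    simp only [Φ, Matrix.sum_mul, Matrix.mul_sum, Finset.smul_sum]
    rw [← Equiv.sum_comp (Equiv.addLeft x)]
    refine Finset.sum_congr rfl fun v _ => ?_
    simp only [Equiv.coe_addLeft, twL_transpose, Matrix.smul_mul, Matrix.mul_smul, twL_mul,
      smul_smul, map_add, LinearMap.add_apply, hf, sg2_add]
    have h1 : g x + g v + b + (x + v) + x = g x + (g v + b + v) := by
      have := add_self_zmod2 x
      calc _ = g x + (g v + b + v) + (x + x) := by abel
        _ = _ := by rw [this, add_zero]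
    rw [h1]
    congr 1
    have h2 := sg2_mul_self (β x x)
    have h3 := sg2_mul_self (β x v)
    have h4 := sg2_mul_self (β v x)
    have h5 := sg2_mul_self (β (g x) x)
    have h6 := sg2_mul_self (β (g v) x)
    have h7 := sg2_mul_self (β b x)
    grind
  have hΦ3 : ∃ b, Φ b ≠ 0 := by
    by_contra hc
    push Not at hc
    have h1 : ∑ b, Φ b b 0 = 0 := by simp [hc]
    simp only [Φ, Matrix.sum_apply, twL_transpose, Matrix.smul_mul, Matrix.mul_smul, twL_mul,
      smul_smul, Matrix.smul_apply, smul_eq_mul] at h1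
    rw [Finset.sum_comm, Finset.sum_eq_single 0] at h1
    · simp [twL, hf0, sg2_zero] at h1
    · intro u _ hu
      by_cases hgu : g u = u
      · obtain ⟨v, hv⟩ := not_forall.1 (mt (hnd u) hu)
        have h2 : ∀ b, b = u + b + u + 0 := fun b => by
          rw [add_zero, add_comm u b, add_assoc, add_self_zmod2, add_zero]
        simp only [twL, hgu, ← h2, if_true, map_zero, sg2_zero, mul_one, map_add,
          LinearMap.add_apply, sg2_add]
        have h3 := Equiv.sum_comp (Equiv.addLeft v) fun b =>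
          sg2 (f u) * (sg2 (β u u) * (sg2 (β u b) * (sg2 (β u u) * sg2 (β b u))))
        simp only [Equiv.coe_addLeft, map_add, LinearMap.add_apply, sg2_add] at h3
        have h4 : sg2 (β u v) * sg2 (β v u) = -1 := by
          rw [← sg2_add, add_comm, (zmod2_cases _).resolve_left hv, sg2_one]
        have h5 : ∀ b, sg2 (f u) * (sg2 (β u u) * (sg2 (β u v) * sg2 (β u b) *
            (sg2 (β u u) * (sg2 (β v u) * sg2 (β b u))))) =
            -(sg2 (f u) * (sg2 (β u u) * (sg2 (β u b) * (sg2 (β u u) * sg2 (β b u))))) := by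
          intro b
          linear_combination
            (sg2 (f u) * (sg2 (β u u) * (sg2 (β u b) * (sg2 (β u u) * sg2 (β b u))))) * h4
        simp only [h5, Finset.sum_neg_distrib] at h3
        linarith
      · refine Finset.sum_eq_zero fun b _ => ?_
        rw [twL, if_neg, mul_zero]
        intro h2
        apply hgu
        rw [add_zero, add_comm (g u) b, add_assoc, left_eq_add] at h2
        exact ((eq_add_iff_zmod2.1 h2.symm).trans (add_zero _)).symm
    · simp
  obtain ⟨b, hb⟩ := hΦ3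
  set T := Φ b
  have h1 : T * Tᵀ = (T * Tᵀ) 0 0 • (1 : Matrix U U ℝ) := by
    refine eq_smul_of_comm β hnd (fun u => ?_) fun u => ?_
    · obtain ⟨x, rfl⟩ := hg u
      have h2 := congrArg Matrix.transpose (hΦ2 b x)
      rw [transpose_mul, transpose_smul, transpose_mul, twL_transpose, twL_transpose, hq,
        Matrix.smul_mul, Matrix.mul_smul, smul_comm] at h2
      have h3 : twL β x * Tᵀ = sg2 (f x) • (Tᵀ * twL β (g x)) := by
        have := congrArg (fun M => sg2 (β x x) • M) h2
        simpa only [smul_smul, ← mul_assoc, sg2_mul_self, one_mul, one_smul] using this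
      have h4 : T * (twL β x * Tᵀ) = T * twL β x * Tᵀ := (Matrix.mul_assoc _ _ _).symm
      rw [h3, hΦ2, Matrix.mul_smul, Matrix.smul_mul] at h4
      have := congrArg (fun M => sg2 (f x) • M) h4
      simpa only [smul_smul, sg2_mul_self, one_smul, Matrix.mul_assoc] using this
    · have h2 := congrArg Matrix.transpose (hΦ1 b u)
      rw [transpose_mul, transpose_mul, twL_transpose, Matrix.smul_mul, Matrix.mul_smul] at h2
      have h3 : twL β.flip u * Tᵀ = Tᵀ * twL β.flip u := by
        have := congrArg (fun M => sg2 (β.flip u u) • M) h2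
        simpa only [smul_smul, sg2_mul_self, one_smul] using this
      rw [Matrix.mul_assoc, ← h3, ← Matrix.mul_assoc, hΦ1, Matrix.mul_assoc]
  set c := (T * Tᵀ) 0 0
  have hc : 0 < c := by
    have h2 : 0 ≤ c := Finset.sum_nonneg fun w _ => mul_self_nonneg (T 0 w)
    refine lt_of_le_of_ne h2 fun h3 => hb ?_
    rw [← h3, zero_smul] at h1
    exact Matrix.self_mul_conjTranspose_eq_zero.1 h1
  refine ⟨(√c)⁻¹ • T, ?_, fun u => ?_, fun u => ⟨f u, ?_⟩⟩
  · rw [transpose_smul, Matrix.smul_mul, Matrix.mul_smul, h1, smul_smul, smul_smul, ← mul_inv,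
      Real.mul_self_sqrt hc.le, inv_mul_cancel₀ hc.ne', one_smul]
  · rw [Matrix.smul_mul, Matrix.mul_smul, hΦ1]
  · rw [Matrix.smul_mul, Matrix.mul_smul, hΦ2, smul_comm]

end

section
variable {U : Type v} [AddCommGroup U] [Module (ZMod 2) U] {O : Type w} [Group O]

/-- An abstract model of the extraspecial group attached to `β`, self-centralising up to sign. -/
structure TwData (β : LinearMap.BilinForm (ZMod 2) U) (O : Type w) [Group O] where
  mp : Multiplicative (ZMod 2) →* O
  l : U → O
  inj : Function.Injective mp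
  cent : ∀ t x, mp t * x = x * mp t
  mul : ∀ u v, l u * l v = mp (Multiplicative.ofAdd (β u v)) * l (u + v)
  zero : l 0 = 1
  comm : ∀ x, (∀ u, x * l u = l u * x) → ∃ t, x = mp t

namespace TwData

variable {β : LinearMap.BilinForm (ZMod 2) U} (D : TwData β O)

theorem mp_mul_self (t : Multiplicative (ZMod 2)) : D.mp t * D.mp t = 1 := by
  rw [← map_mul, show t * t = 1 from by revert t; decide, map_one]

theorem conj_l (a u : U) :
    D.l a * D.l u * (D.l a)⁻¹ = D.mp (Multiplicative.ofAdd (β a u + β u a)) * D.l u := by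
  rw [mul_inv_eq_iff_eq_mul, mul_assoc, D.mul, D.mul, ← mul_assoc, ← map_mul, add_comm u a,
    ← ofAdd_add, add_assoc, add_self_zmod2, add_zero]

theorem conj_mp_l (t : Multiplicative (ZMod 2)) (a u : U) :
    D.mp t * D.l a * D.l u * (D.mp t * D.l a)⁻¹ =
      D.mp (Multiplicative.ofAdd (β a u + β u a)) * D.l u := by
  rw [← D.conj_l, _root_.mul_inv_rev, mul_assoc (D.mp t), mul_assoc (D.mp t), D.cent]
  group

theorem eq_of_eq (hnd : ∀ w, (∀ v, β v w + β w v = 0) → w = 0) {t t' : Multiplicative (ZMod 2)}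
    {a a' : U} (h : D.mp t * D.l a = D.mp t' * D.l a') : a = a' := by
  have h1 : a + a' = 0 := hnd _ fun v => by
    have h2 := D.conj_mp_l t a v
    rw [h, D.conj_mp_l] at h2
    have h3 := Multiplicative.ofAdd.injective (D.inj (mul_right_cancel h2))
    have h4 := add_self_zmod2 (β a v + β v a)
    simp only [map_add, LinearMap.add_apply]
    linear_combination h3 + h4
  rw [eq_add_iff_zmod2.1 h1.symm, add_zero]

theorem exists_eq [Module.Finite (ZMod 2) U] (hnd : (β + β.flip).Nondegenerate) {x : O}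
    (hx : ∀ u, ∃ t, x * D.l u * x⁻¹ = D.mp t * D.l u) : ∃ t a, x = D.mp t * D.l a := by
  choose s hs using hx
  have hadd : ∀ u v, s (u + v) = s u * s v := fun u v => by
    have h1 : x * (D.l u * D.l v) * x⁻¹ = (x * D.l u * x⁻¹) * (x * D.l v * x⁻¹) := by group
    rw [hs, hs, D.mul, ← mul_assoc, ← D.cent, mul_assoc, mul_assoc, ← mul_assoc x, hs,
      mul_assoc (D.mp (s u)), ← mul_assoc (D.l u), ← D.cent, mul_assoc, D.mul, ← mul_assoc,
      ← mul_assoc, ← mul_assoc, ← map_mul, ← map_mul, ← map_mul, mul_comm] at h1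
    exact mul_right_cancel (D.inj (mul_right_cancel h1))
  let f : U →+ ZMod 2 := AddMonoidHom.mk' (fun u => (s u).toAdd) fun u v => by
    rw [hadd, toAdd_mul]
  let a := (LinearMap.BilinForm.toDual _ hnd).symm (f.toZModLinearMap 2)
  have ha : ∀ u, β a u + β u a = (s u).toAdd := fun u =>
    LinearMap.BilinForm.apply_toDual_symm_apply (hB := hnd) (f.toZModLinearMap 2) u
  obtain ⟨t, ht⟩ := D.comm ((D.l a)⁻¹ * x) fun u => by
    have h1 := D.conj_l a u
    rw [ha, ofAdd_toAdd, ← hs] at h1
    calc (D.l a)⁻¹ * x * D.l u = (D.l a)⁻¹ * (x * D.l u * x⁻¹) * x := by group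
      _ = _ := by rw [← h1]; group
  exact ⟨t, a, by rw [D.cent, ← ht, mul_inv_cancel_left]⟩

open Classical in
/-- The vector attached to an element of the extraspecial group. -/
noncomputable def vec (x : O) : U :=
  if h : ∃ a t, x = D.mp t * D.l a then h.choose else 0

theorem vec_eq (hnd : ∀ w, (∀ v, β v w + β w v = 0) → w = 0) (t : Multiplicative (ZMod 2))
    (a : U) : D.vec (D.mp t * D.l a) = a := by
  have h : ∃ a' t', D.mp t * D.l a = D.mp t' * D.l a' := ⟨a, t, rfl⟩
  rw [vec, dif_pos h]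
  obtain ⟨t', ht'⟩ := h.choose_spec
  exact (D.eq_of_eq hnd ht').symm

theorem mul_mul (t t' : Multiplicative (ZMod 2)) (a a' : U) :
    D.mp t * D.l a * (D.mp t' * D.l a') =
      D.mp (t * t' * Multiplicative.ofAdd (β a a')) * D.l (a + a') := by
  rw [map_mul, map_mul, mul_assoc, ← mul_assoc (D.l a), ← D.cent, mul_assoc, D.mul]
  group

theorem main [Module.Finite (ZMod 2) U] (hnd : (β + β.flip).Nondegenerate) {K : Type u} [Group K]
    {n : ℕ} (hn1 : 1 ≤ n) (hn : Module.finrank (ZMod 2) U = 2 * n)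
    (ρ : Representation (ZMod 2) K U) {R : Type} [Group R] [Finite R] (π : R →* K) (τ : R →* O)
    (hπ : Function.Surjective π) (hinj : ∀ r, π r = 1 → τ r = 1 → r = 1)
    (hact : ∀ r u, ∃ t, τ r * D.l u * (τ r)⁻¹ = D.mp t * D.l (ρ (π r) u))
    (hex : ∀ t a, ∃ r, π r = 1 ∧ τ r = D.mp t * D.l a) :
    ∃ (Q : Subgroup R) (hN : Q.Normal) (e : R ⧸ Q ≃* K) (χ : ↥Q →* Multiplicative U),
      IsExtraspecial 2 ↥Q ∧ Nat.card ↥Q = 2 ^ (2 * n + 1) ∧ Function.Surjective χ ∧
      χ.ker = Subgroup.center ↥Q ∧ (∀ (r : R) (a : ↥Q),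
        χ ⟨r * a * r⁻¹, hN.conj_mem (a : R) a.2 r⟩ =
          Multiplicative.ofAdd (ρ (e (r : R ⧸ Q)) (Multiplicative.toAdd (χ a)))) ∧
      ∀ a : ↥Q, a * a = 1 ↔ β (χ a).toAdd (χ a).toAdd = 0 := by
  have hnd' : ∀ w, (∀ v, β v w + β w v = 0) → w = 0 := fun w hw => hnd.2 w hw
  have hform : ∀ x : π.ker, ∃ t a, τ x = D.mp t * D.l a := fun x => D.exists_eq hnd fun u => by
    simpa [MonoidHom.mem_ker.1 x.2] using hact x u
  have hinj' : ∀ x y : π.ker, τ x = τ y → x = y := fun x y h => by
    rw [← mul_inv_eq_one]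
    exact Subtype.ext (hinj _ (x * y⁻¹).2 (by simp [h]))
  let χ : π.ker →* Multiplicative U := MonoidHom.mk' (fun x => Multiplicative.ofAdd (D.vec (τ x)))
    fun x y => by
      obtain ⟨t, a, h1⟩ := hform x
      obtain ⟨t', a', h2⟩ := hform y
      rw [Subgroup.coe_mul, map_mul, h1, h2, D.mul_mul, D.vec_eq hnd', D.vec_eq hnd',
        D.vec_eq hnd', ofAdd_add]
  have hχ : ∀ (x : π.ker) t a, τ x = D.mp t * D.l a → χ x = Multiplicative.ofAdd a :=
    fun x t a h => by
      change Multiplicative.ofAdd (D.vec (τ x)) = _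
      rw [h, D.vec_eq hnd']
  have hsurj : Function.Surjective χ := fun a => by
    obtain ⟨r, h1, h2⟩ := hex 1 a.toAdd
    exact ⟨⟨r, h1⟩, hχ _ _ _ h2⟩
  obtain ⟨z, hz1, hz2⟩ := hex (Multiplicative.ofAdd 1) 0
  rw [D.zero, mul_one] at hz2
  have hcomm : ∀ (x y : π.ker) t a t' a', τ x = D.mp t * D.l a → τ y = D.mp t' * D.l a' →
      τ (x * y : π.ker) = D.mp (Multiplicative.ofAdd (β a a' + β a' a)) * τ (y * x : π.ker) := by
    intro x y t a t' a' h1 h2
    simp only [Subgroup.coe_mul, map_mul, h1, h2, D.mul_mul]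
    rw [← map_mul, ← map_mul, ← map_mul, ← map_mul, ← mul_assoc, ← map_mul, add_comm a' a]
    congr 2
    generalize β a a' = c
    generalize β a' a = d
    clear h1 h2
    revert t t' c d
    decide
  have hker : ∀ x : π.ker, χ x = 1 → x = 1 ∨ x = ⟨z, hz1⟩ := fun x hx => by
    obtain ⟨t, a, h1⟩ := hform x
    rw [hχ x t a h1] at hx
    rw [show a = 0 from hx, D.zero, mul_one] at h1
    refine (zmod2_cases t.toAdd).imp (fun h2 => hinj' _ _ ?_) fun h2 => hinj' _ _ ?_
    · rw [h1, show t = 1 from h2]; simp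
    · rw [h1, hz2, show t = Multiplicative.ofAdd 1 from h2]
  have hES : ES2 (⟨z, hz1⟩ : π.ker) :=
    { ne := fun h => by
        have h1 : τ z = 1 := by rw [show z = 1 from congrArg Subtype.val h, map_one]
        rw [hz2, ← map_one D.mp] at h1
        exact absurd (D.inj h1) (by decide)
      cent := fun x => hinj' _ _ (by simp only [Subgroup.coe_mul, map_mul, hz2, D.cent])
      sq := hinj' _ _ (by simp only [Subgroup.coe_mul, map_mul, hz2, D.mp_mul_self]; simp)
      comm := fun x y => by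
        obtain ⟨t, a, h1⟩ := hform x
        obtain ⟨t', a', h2⟩ := hform y
        have h3 := hcomm x y t a t' a' h1 h2
        refine (zmod2_cases (β a a' + β a' a)).imp (fun h4 => hinj' _ _ ?_) fun h4 => hinj' _ _ ?_
        · rw [h3, h4]; simp
        · rw [h3, h4, ← hz2, ← map_mul]; rfl
      center := fun x hx => hker x (by
        obtain ⟨t, a, h1⟩ := hform x
        rw [hχ x t a h1, hnd' a fun v => ?_]
        · rfl
        obtain ⟨y, hy1, hy2⟩ := hex 1 v
        have h3 := hcomm ⟨y, hy1⟩ x _ _ _ _ hy2 h1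
        rw [hx, eq_comm, mul_eq_right, ← map_one D.mp] at h3
        exact D.inj h3) }
  have hkerc : χ.ker = Subgroup.center π.ker := by
    ext x
    rw [hES.mem_center_iff]
    refine ⟨hker x, ?_⟩
    rintro (rfl | rfl)
    · exact one_mem _
    · exact hχ _ _ 0 (by rw [D.zero, mul_one]; exact hz2)
  have hcard : Nat.card π.ker = 2 ^ (2 * n + 1) := by
    rw [← χ.ker.card_mul_index, Subgroup.index_ker, hkerc, hES.card_center,
      MonoidHom.range_eq_top.2 hsurj, Subgroup.card_top, Nat.card_congr Multiplicative.toAdd,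
      Module.natCard_eq_pow_finrank (K := ZMod 2), hn, Nat.card_zmod, pow_succ']
  refine ⟨π.ker, inferInstance, QuotientGroup.quotientKerEquivOfSurjective π hπ, χ, ?_, hcard,
    hsurj, hkerc, fun r x => ?_, fun x => ?_⟩
  · by_contra hc
    have h1 : Subgroup.center π.ker = ⊤ := by
      rw [eq_top_iff]
      intro x _
      rw [Subgroup.mem_center_iff]
      intro y
      by_contra h
      exact hc (hES.isExtraspecial h)
    have h2 := hES.card_center
    rw [h1, Subgroup.card_top, hcard] at h2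
    have := Nat.pow_right_injective le_rfl (h2.trans (pow_one 2).symm)
    omega
  · obtain ⟨t, a, h1⟩ := hform x
    obtain ⟨t', h2⟩ := hact r a
    rw [hχ x t a h1]
    refine hχ _ (t * t') _ ?_
    rw [map_mul, map_mul, map_inv, h1, ← mul_assoc, ← D.cent, map_mul, mul_assoc, mul_assoc,
      mul_assoc, ← mul_assoc (τ r), h2]
    rfl
  · obtain ⟨t, a, h1⟩ := hform x
    have h2 : τ (x * x : π.ker) = D.mp (Multiplicative.ofAdd (β a a)) := by
      rw [Subgroup.coe_mul, map_mul, h1, D.mul_mul, add_self_zmod2, D.zero, mul_one,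
        show t * t = 1 from by clear h1; revert t; decide, one_mul]
    rw [hχ x t a h1, toAdd_ofAdd]
    constructor
    · intro h3
      rw [h3, OneMemClass.coe_one, map_one, ← map_one D.mp] at h2
      exact (D.inj h2).symm
    · intro h3
      refine hinj' _ _ ?_
      rw [h2, h3]; simp

theorem main' [Module.Finite (ZMod 2) U] (hnd : (β + β.flip).Nondegenerate) {K : Type u} [Group K]
    [Finite K] {n : ℕ} (hn1 : 1 ≤ n) (hn : Module.finrank (ZMod 2) U = 2 * n)
    (ρ : Representation (ZMod 2) K U)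
    (hlift : ∀ k, ∃ T : O, ∀ u, ∃ t, T * D.l u * T⁻¹ = D.mp t * D.l (ρ k u)) :
    ∃ (R : Type) (_ : Group R) (_ : Finite R) (Q : Subgroup R) (hN : Q.Normal) (e : R ⧸ Q ≃* K)
      (χ : ↥Q →* Multiplicative U),
      IsExtraspecial 2 ↥Q ∧ Nat.card ↥Q = 2 ^ (2 * n + 1) ∧ Function.Surjective χ ∧
      χ.ker = Subgroup.center ↥Q ∧ (∀ (r : R) (a : ↥Q),
        χ ⟨r * a * r⁻¹, hN.conj_mem (a : R) a.2 r⟩ =
          Multiplicative.ofAdd (ρ (e (r : R ⧸ Q)) (Multiplicative.toAdd (χ a)))) ∧
      ∀ a : ↥Q, a * a = 1 ↔ β (χ a).toAdd (χ a).toAdd = 0 := by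
  have hconj : ∀ (x : O) t y, x * (D.mp t * y) * x⁻¹ = D.mp t * (x * y * x⁻¹) := fun x t y => by
    rw [← mul_assoc, ← D.cent]; group
  let G : Subgroup (O × K) :=
    { carrier := {x | ∀ u, ∃ t, x.1 * D.l u * x.1⁻¹ = D.mp t * D.l (ρ x.2 u)}
      one_mem' := fun u => ⟨1, by simp⟩
      mul_mem' := fun {x y} hx hy u => by
        obtain ⟨t, ht⟩ := hy u
        obtain ⟨t', ht'⟩ := hx (ρ y.2 u)
        refine ⟨t * t', ?_⟩
        rw [Prod.snd_mul, map_mul, map_mul, Module.End.mul_apply, mul_assoc (D.mp t), ← ht',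
          ← hconj, ← ht, Prod.fst_mul]
        group
      inv_mem' := fun {x} hx u => by
        obtain ⟨t, ht⟩ := hx (ρ x.2⁻¹ u)
        refine ⟨t, ?_⟩
        rw [← Module.End.mul_apply, ← map_mul, mul_inv_cancel, map_one, Module.End.one_apply] at ht
        have h1 : D.l u = D.mp t * (x.1 * D.l (ρ x.2⁻¹ u) * x.1⁻¹) := by
          rw [ht, ← mul_assoc, D.mp_mul_self, one_mul]
        rw [h1, hconj, Prod.fst_inv, Prod.snd_inv]
        group }
  let π : G →* K := (MonoidHom.snd _ _).comp G.subtype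
  have hU : Finite U := Module.finite_of_finite (ZMod 2)
  have hfin : Finite G := by
    refine π.finite_iff_finite_ker_range.2 ⟨?_, inferInstance⟩
    have hform : ∀ x : π.ker, ∃ s : Multiplicative (ZMod 2) × U, x.1.1.1 = D.mp s.1 * D.l s.2 :=
      fun x => by
        have h1 : x.1.1.2 = 1 := x.2
        obtain ⟨t, a, h⟩ := D.exists_eq hnd (x := x.1.1.1) fun u => by simpa [h1] using x.1.2 u
        exact ⟨(t, a), h⟩
    choose s hs using hform
    refine Finite.of_injective s fun x y h => Subtype.ext (Subtype.ext (Prod.ext ?_ ?_))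
    · rw [hs, hs, h]
    · exact (show x.1.1.2 = 1 from x.2).trans (show y.1.1.2 = 1 from y.2).symm
  let φ : Shrink.{0} G ≃* G := Shrink.mulEquiv
  have : Finite (Shrink.{0} G) := Finite.of_equiv _ φ.symm.toEquiv
  refine ⟨Shrink.{0} G, inferInstance, this, D.main hnd hn1 hn ρ (π.comp φ.toMonoidHom)
    (((MonoidHom.fst _ _).comp G.subtype).comp φ.toMonoidHom) (fun k => ?_) (fun r h1 h2 => ?_)
    (fun r => (φ r).2) fun t a => ?_⟩
  · obtain ⟨T, hT⟩ := hlift k
    exact ⟨φ.symm ⟨(T, k), hT⟩, by simp [π]⟩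
  · exact φ.injective (Subtype.ext (Prod.ext h2 h1) |>.trans (map_one φ).symm)
  · refine ⟨φ.symm ⟨(D.mp t * D.l a, 1), fun u => ⟨Multiplicative.ofAdd (β a u + β u a), by
      simpa using D.conj_mp_l t a u⟩⟩, ?_, ?_⟩
    · simp [π]
    · simp

end TwData

end

theorem exists_twData {U : Type v} [AddCommGroup U] [Module (ZMod 2) U]
    [Module.Finite (ZMod 2) U] (β : LinearMap.BilinForm (ZMod 2) U)
    (hnd : ∀ w, (∀ v, β v w + β w v = 0) → w = 0) :
    ∃ (O : Type v) (_ : Group O) (D : TwData β O), ∀ g : U →ₗ[ZMod 2] U, Function.Surjective g →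
      (∀ u, β (g u) (g u) = β u u) → ∃ T : O, ∀ u, ∃ t, T * D.l u * T⁻¹ = D.mp t * D.l (g u) := by
  classical
  have hU : Finite U := Module.finite_of_finite (ZMod 2)
  have := Fintype.ofFinite U
  have hmem : ∀ {A : Matrix U U ℝ}, A ∈ Matrix.unitaryGroup U ℝ ↔ A * Aᵀ = 1 := fun {A} => by
    rw [Matrix.mem_unitaryGroup_iff, Matrix.star_eq_conjTranspose,
      Matrix.conjTranspose_eq_transpose_of_trivial]
  let r : U → Matrix.unitaryGroup U ℝ := fun u => ⟨twL β.flip u, hmem.2 (twL_mul_transpose _ u)⟩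
  let O := Subgroup.centralizer (Set.range r)
  have hO : ∀ x : Matrix.unitaryGroup U ℝ, x ∈ O ↔ ∀ u, x.1 * twL β.flip u = twL β.flip u * x.1 :=
    fun x => by
      simp only [O, Subgroup.mem_centralizer_iff, Set.forall_mem_range]
      exact forall_congr' fun u => by rw [eq_comm, Subtype.ext_iff]; rfl
  have hext : ∀ {x y : O}, x.1.1 = y.1.1 → x = y := fun h => Subtype.ext (Subtype.ext h)
  let mp0 : ZMod 2 → O := fun t => ⟨⟨sg2 t • 1, hmem.2 (by simp [smul_smul, sg2_mul_self])⟩,
    (hO _).2 fun u => by simp⟩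
  let D : TwData β O :=
    { mp := MonoidHom.mk' (fun t => mp0 t.toAdd) fun s t => hext (by
        simp [mp0, smul_smul, sg2_add, mul_comm])
      l := fun u => ⟨⟨twL β u, hmem.2 (twL_mul_transpose _ u)⟩, (hO _).2 (twL_comm β u)⟩
      inj := by
        rw [injective_iff_map_eq_one]
        intro t ht
        have h1 : (sg2 t.toAdd • (1 : Matrix U U ℝ)) 0 0 = (1 : Matrix U U ℝ) 0 0 :=
          congrArg (fun x : O => x.1.1 0 0) ht
        rcases zmod2_cases t.toAdd with h | h
        · exact h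
        · rw [h, sg2_one] at h1; norm_num at h1
      cent := fun t x => hext (by simp [mp0])
      mul := fun u v => hext (by simp [mp0, twL_mul])
      zero := hext (twL_zero β)
      comm := fun x hx => by
        have h1 := eq_smul_of_comm β hnd (T := x.1.1)
          (fun u => congrArg (fun x : O => x.1.1) (hx u)) ((hO _).1 x.2)
        have h2 := hmem.1 x.1.2
        rw [h1, transpose_smul, Matrix.smul_mul, Matrix.mul_smul, smul_smul, transpose_one,
          Matrix.mul_one] at h2
        have h3 : x.1.1 0 0 * x.1.1 0 0 = 1 := by simpa using congrFun (congrFun h2 0) 0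
        rcases mul_self_eq_one_iff.1 h3 with h4 | h4
        · exact ⟨Multiplicative.ofAdd 0, hext (by rw [h1, h4]; simp [mp0, sg2_zero])⟩
        · exact ⟨Multiplicative.ofAdd 1, hext (by rw [h1, h4]; simp [mp0, sg2_one])⟩ }
  refine ⟨O, inferInstance, D, fun g hg hq => ?_⟩
  obtain ⟨T, h1, h2, h3⟩ := exists_intertwiner β hnd g hg hq
  refine ⟨⟨⟨T, hmem.2 h1⟩, (hO _).2 h2⟩, fun u => ?_⟩
  obtain ⟨t, ht⟩ := h3 u
  refine ⟨Multiplicative.ofAdd t, ?_⟩
  rw [mul_inv_eq_iff_eq_mul]
  exact hext (by simp [D, mp0, ht])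

end CfH4
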