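import Cfsg.Agent.H4.JU3
import Cfsg.Agent.H6.M22I
/-! The twelve-dimensional orthogonal module of the triple cover of `M₂₂` with its outer automorphism. -/
set_option autoImplicit false
set_option maxRecDepth 100000
set_option linter.unusedSectionVars false
namespace CfH4.JU
open CfH3.J4 CfH3.He CfH6 Equiv

def w3 : List (List ℕ) := [[0, 2, 4, 3, 1], [3, 2, 0, 1, 3, 2, 0, 1, 2, 3, 2], [0, 2, 0, 3, 2, 1, 3, 2, 0, 4, 3, 2]]
def wa (x : ℕ) : List ℕ := [[0, 1, 2, 0, 2, 0, 0, 2, 0, 1, 2, 0, 2, 2, 2], [0, 2, 2, 0, 1, 2, 0, 2, 1, 0, 2, 0, 2, 3],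
  [2, 0, 2, 1, 2, 0, 2, 2, 1, 0, 2], [0, 0, 2, 2, 0, 2, 1, 0, 2, 2, 0, 0, 2],
  [0, 2, 2, 2, 0, 2, 0, 1, 2, 2, 2, 0, 0, 2, 2, 2, 3]].getD x []
def wk : List ℕ := [4, 3, 2, 0, 1, 3, 1, 2, 3, 1, 3, 0, 2, 1, 3, 4, 3, 2]
def e3 : ℕ → M22B.G := byW M22B.el w3

theorem m22 : e3 0 ^ 11 = 1 ∧ e3 0 ≠ 1 ∧ e3 1 ^ 5 = 1 ∧ e3 2 ^ 4 = 1 ∧ e3 1 * e3 0 = e3 0 ^ 3 * e3 1 ∧
    e3 2 * e3 1 = e3 1 ^ 2 * e3 2 ∧ (e3 0 * e3 2) ^ 5 = 1 ∧ e3 3 = 1 ∧ ∀ x < 5, evw e3 (wa x) = M22B.el x := by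
  obtain ⟨φ, hφ⟩ := M22I.iso'
  let ψ := (Cfsg.Spor.M22.subtype).comp φ.toMonoidHom
  have i : Function.Injective ψ := Subtype.val_injective.comp φ.injective
  have e : ∀ x < 5, ψ (M22B.el x) = M22I.ev x := hφ
  have e' : ∀ x < 4, ψ (e3 x) = byW M22I.ev w3 x := fun x hx => hom_evw e _ (by revert x; decide)
  have a0 := e' 0 (by norm_num)
  have a1 := e' 1 (by norm_num)
  have a2 := e' 2 (by norm_num)
  refine ⟨i ?_, fun n => ?_, i ?_, i ?_, i ?_, i ?_, i ?_, rfl, fun x hx => i ?_⟩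
  any_goals (simp only [map_pow, map_mul, map_one, a0, a1, a2]; decide +kernel)
  · rw [n, map_one] at a0; revert a0; decide +kernel
  · rw [hom_evw e' _ (by revert x; decide), e x hx]; revert x; decide +kernel

theorem syl11 {x : M22B.G} (h : x ^ 11 = 1) : ∃ t : M22B.G, ∃ i : ℕ, t * x * t⁻¹ = e3 0 ^ i := by
  classical
  have := M22O.finG.1
  have : Fact (Nat.Prime 11) := ⟨by norm_num⟩
  have c : Nat.card (Subgroup.zpowers (e3 0)) = 11 ^ (Nat.card M22B.G).factorization 11 := by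
    rw [Nat.card_zpowers, orderOf_eq_prime m22.1 m22.2.1, M22G.card, show 443520 = 11 ^ 1 * 40320 from rfl,
      Nat.factorization_mul_apply_of_coprime (by norm_num), Nat.Prime.factorization_pow (by norm_num),
      Nat.factorization_eq_zero_of_not_dvd (by norm_num)]
    simp
  obtain ⟨Q, hQ⟩ := (IsPGroup.of_card (p := 11) (n := if x = 1 then 0 else 1) (G := Subgroup.zpowers x) (by
    rw [Nat.card_zpowers]; split_ifs with e
    · rw [e, orderOf_one]; rfl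
    · exact orderOf_eq_prime h e)).exists_le_sylow
  obtain ⟨t, ht⟩ := MulAction.exists_smul_eq M22B.G Q (Sylow.ofCard _ c)
  have : t * x * t⁻¹ ∈ (Sylow.ofCard _ c : Subgroup M22B.G) := by
    rw [← ht]; exact ⟨x, hQ (Subgroup.mem_zpowers x), rfl⟩
  obtain ⟨i, hi⟩ := (mem_powers_iff_mem_zpowers.2 this)
  exact ⟨t, i, hi.symm⟩

noncomputable def wm (ms : ℕ → List ℕ) : List ℕ → List ℕ
  | [] => mE
  | x :: w => (wm ms w).map (ext (ms x))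

theorem qq_inj {a b : ℕ} (h : ((qq a : ℕ) : ZMod 2) = qq b) : qq a = qq b := by
  have l : ∀ a, qq a < 2 := fun a => Nat.and_lt_two_pow (n := 1) _ one_lt_two
  rwa [ZMod.natCast_eq_natCast_iff', Nat.mod_eq_of_lt (l a), Nat.mod_eq_of_lt (l b)] at h

variable {Γ U : Type*} [Group Γ] [AddCommGroup U] [Finite U]

theorem Rp.evw {φ : ℕ → U} {a : ℕ → Perm U} {ms : ℕ → List ℕ} {k : ℕ}
    (h : ∀ x < k, Rp φ (a x) (ext (ms x)) ∧ ∀ c ∈ ms x, c < 4096) (w : List ℕ) (hw : ∀ x ∈ w, x < k) :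
    Rp φ (evw a w) (ext (wm ms w)) ∧ ∀ c ∈ wm ms w, c < 4096 := by
  induction w with
  | nil => exact ⟨Rp.one.congr fun c hc => (extE c hc).symm, (by decide : ∀ c ∈ mE, c < 4096)⟩
  | cons x w ih =>
    obtain ⟨h1, h2⟩ := ih fun y hy => hw y (List.mem_cons_of_mem _ hy)
    obtain ⟨h3, h4⟩ := h x (hw x List.mem_cons_self)
    refine ⟨evw_cons a x w ▸ h3.mm h1 h4 h2, fun c hc => ?_⟩
    obtain ⟨d, -, rfl⟩ := List.mem_map.1 hc
    exact elt h4 d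

def Lf (μ : Γ →* Perm U) {M : Subgroup Γ} (π : M →* M22B.G) (x : M22B.G) (α : Perm U) : Prop :=
  ∃ m : M, π m = x ∧ μ m = α

structure Hy (μ : Γ →* Perm U) (q : U → ZMod 2) (B : U →+ U →+ ZMod 2) (M : Subgroup Γ) (π : M →* M22B.G)
    (r : Γ) : Prop where
  add : ∀ g, Ad (μ g)
  hU : Nat.card U = 4096
  hq : ∀ u v, q (u + v) = q u + q v + B u v
  h2 : ∀ u : U, u + u = 0
  nd : ∀ u, (∀ v, B u v = 0) → u = 0
  inv : ∀ g u, q (μ g u) = q u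
  sur : Function.Surjective π
  rM : r ∈ M
  r3 : r ^ 3 = 1
  rc : ∀ m ∈ M, m * r = r * m
  ker : ∀ m : M, π m = 1 ↔ ∃ j : ℕ, μ m = μ r ^ j

variable {μ : Γ →* Perm U} {q : U → ZMod 2} {B : U →+ U →+ ZMod 2} {M : Subgroup Γ} {π : M →* M22B.G} {r : Γ}
  {x y : M22B.G} {α β : Perm U}

theorem Lf.mul (a : Lf μ π x α) (b : Lf μ π y β) : Lf μ π (x * y) (α * β) := by
  obtain ⟨m, rfl, rfl⟩ := a
  obtain ⟨n, rfl, rfl⟩ := b
  exact ⟨m * n, map_mul _ _ _, map_mul _ _ _⟩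
theorem Lf.inv (a : Lf μ π x α) : Lf μ π x⁻¹ α⁻¹ := by
  obtain ⟨m, rfl, rfl⟩ := a
  exact ⟨m⁻¹, map_inv _ _, map_inv _ _⟩
theorem Lf.pow (a : Lf μ π x α) (n : ℕ) : Lf μ π (x ^ n) (α ^ n) := by
  obtain ⟨m, rfl, rfl⟩ := a
  exact ⟨m ^ n, map_pow _ _ _, map_pow _ _ _⟩
theorem Lf.one : Lf μ π 1 1 := ⟨1, map_one _, map_one _⟩
theorem Lf.evw {a : ℕ → M22B.G} {b : ℕ → Perm U} {k : ℕ} (h : ∀ x < k, Lf μ π (a x) (b x)) (w : List ℕ)
    (hw : ∀ x ∈ w, x < k) : Lf μ π (evw a w) (evw b w) := by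
  induction w with
  | nil => exact Lf.one
  | cons x w ih =>
    rw [evw_cons, evw_cons]
    exact (h x (hw x List.mem_cons_self)).mul (ih fun y hy => hw y (List.mem_cons_of_mem _ hy))

namespace Hy
variable (h : Hy μ q B M π r)
include h

theorem rinv : r⁻¹ = r ^ 2 := inv_eq_of_mul_eq_one_right ((pow_succ' r 2).symm.trans h.r3)
theorem p3 : μ r ^ 3 = 1 := by rw [← map_pow, h.r3, map_one]

theorem flip : Hy μ q B M π r⁻¹ :=
  { h with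
    rM := M.inv_mem h.rM
    r3 := by rw [inv_pow, h.r3, inv_one]
    rc := fun m hm => (Commute.inv_right (h.rc m hm)).eq
    ker := fun m => (h.ker m).trans ⟨fun ⟨j, e⟩ => ⟨2 * j, by
      rw [e, h.rinv, map_pow, ← pow_mul, show 2 * (2 * j) = 3 * j + j by ring, pow_add, pow_mul, h.p3, one_pow, one_mul]⟩,
      fun ⟨j, e⟩ => ⟨2 * j, by rw [e, h.rinv, map_pow, pow_mul]⟩⟩ }

theorem lr : Lf μ π 1 (μ r) := ⟨⟨r, h.rM⟩, (h.ker _).2 ⟨1, (pow_one _).symm⟩, rfl⟩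

theorem uq (a : Lf μ π x α) (b : Lf μ π x β) : ∃ j : ℕ, α = β * μ r ^ j := by
  obtain ⟨m, e, e'⟩ := b.inv.mul a
  obtain ⟨j, hj⟩ := (h.ker m).1 (e.trans (inv_mul_cancel x))
  exact ⟨j, by rw [← hj, e', mul_inv_cancel_left]⟩

theorem cm (a : Lf μ π x α) : α * μ r = μ r * α := by
  obtain ⟨m, -, rfl⟩ := a
  rw [← map_mul, ← map_mul, h.rc _ m.2]

theorem ad (a : Lf μ π x α) : Ad α ∧ ∀ u, q (α u) = q u := by
  obtain ⟨m, -, rfl⟩ := a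
  exact ⟨h.add _, h.inv _⟩

theorem exa {n : ℕ} (c : Nat.Coprime n 3) (a : Lf μ π x α) (b : Lf μ π x β) (ha : α ^ n = 1) (hb : β ^ n = 1) :
    α = β := by
  obtain ⟨j, e⟩ := h.uq a b
  rw [e, (Commute.pow_right (h.cm b) j).mul_pow, hb, one_mul] at ha
  rw [e, (pow_eq_one_iff_of_coprime c).1 ⟨ha, by rw [← pow_mul, mul_comm, pow_mul, h.p3, one_pow]⟩, mul_one]

theorem exl {n k : ℕ} (hx : x ^ n = 1) (e : 3 * k % n = 1) : ∃ α, Lf μ π x α ∧ α ^ n = 1 := by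
  obtain ⟨m, rfl⟩ := h.sur x
  have a : Lf μ π (π m) (μ m) := ⟨m, rfl, rfl⟩
  obtain ⟨j, hj⟩ := h.uq (hx ▸ a.pow n) Lf.one
  refine ⟨μ m ^ (3 * k), ?_, ?_⟩
  · have := a.pow (3 * k)
    rwa [pow_eq_pow_mod _ hx, e, pow_one] at this
  · rw [← pow_mul, mul_comm, pow_mul, hj, one_mul, ← pow_mul, show j * (3 * k) = 3 * (j * k) by ring, pow_mul, h.p3,
      one_pow]

theorem cj {n k : ℕ} (c : Nat.Coprime n 3) (a : Lf μ π x α) (b : Lf μ π y β) (hb : β ^ n = 1)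
    (e : x * y = y ^ k * x) : α * β = β ^ k * α := by
  have := h.exa c ((a.mul b).mul a.inv) (by rw [e, mul_inv_cancel_right]; exact b.pow k)
    (by rw [conj_pow, hb, mul_one, mul_inv_cancel]) (by rw [← pow_mul, mul_comm, pow_mul, hb, one_pow])
  rw [← this, inv_mul_cancel_right]

variable {σ τ η : Perm U} (ls : Lf μ π (e3 0) σ) (lt : Lf μ π (e3 1) τ) (s11 : σ ^ 11 = 1) (t5 : τ ^ 5 = 1)
include ls lt s11 t5

theorem fr : Fr q B σ τ :=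
  ⟨h.hU, h.hq, h.h2, h.nd, (h.ad ls).1, (h.ad lt).1, (h.ad ls).2, (h.ad lt).2, s11, fun e => by
    obtain ⟨m, e1, e2⟩ := ls
    exact m22.2.1 (e1 ▸ (h.ker m).2 ⟨0, e2.trans e⟩), t5, h.cj (by norm_num) lt ls s11 m22.2.2.2.2.1⟩

theorem rho {φ : ℕ → U} (co : Co φ) (rS : Rp φ σ S) (rT : Rp φ τ T) : ∃ f, Rp φ (μ r) f ∧
    (∀ c < 4096, f c = ext (it S 10 (f 1) ++ [f 1024, f 2048]) c) ∧ f 1024 ∈ U0 ∧ f 2048 ∈ U0 ∧
      (f 1 = 1 ∨ f 1 = 571 ∨ f (f 1) = 571) ∧ (f 1024 = 2048 → f 2048 = 3072) := by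
  obtain ⟨f, rR⟩ := co.ex (μ r)
  exact ⟨f, rR, rhoC (rR.li co (h.add r)) ((rR.mul rS).eq (rS.mul rR) co (h.cm ls).symm)
    ((rR.mul rT).eq (rT.mul rR) co (h.cm lt).symm) ((rR.pow 3).eq Rp.one co h.p3)⟩

theorem sel {v : U} (hN : (h.fr ls lt s11 t5).N v = 0) (v0 : v ≠ 0) (hv : τ v = v) :
    ∃ φ : ℕ → U, ∃ p ∈ PP, Co φ ∧ Rp φ σ S ∧ Rp φ τ T ∧ (∀ c < 1024, φ c = ph σ v 0 0 c ∧ q (φ c) = Q0 c) ∧
      (p.1 = 2048 → ∀ c < 4096, q (φ c) = Q0 c) ∧ φ 1 = v ∧ ∃ f, Rp φ (μ r) f ∧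
      (∀ c < 4096, f c = ext (it S 10 (f 1) ++ [p.1, p.2]) c) ∧ (f 1 = 1 ∨ f 1 = 571 ∨ f (f 1) = 571) := by
  have F := h.fr ls lt s11 t5
  by_cases e : ∃ y, σ y = y ∧ μ r y ≠ y
  · obtain ⟨y, hy, ne⟩ := e
    have r0 := add_zero' (h.add r)
    obtain ⟨co, rS, rT, q1, q2, p0, p1, p2⟩ := F.base hN y (μ r y) v0 hv hy
      ((congrArg (· y) (h.cm ls)).trans (congrArg (μ r) hy)) (fun e => ne (by rw [e, r0]))
      (fun e => ne (by rw [(μ r).injective (e.trans r0.symm), r0])) ne.symm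
    obtain ⟨f, rR, a, -, -, b, c⟩ := h.rho ls lt s11 t5 co rS rT
    have f1 : f 1024 = 2048 := co.inj _ (rR _ (by norm_num)).1 _ (by norm_num) (by
      rw [← (rR _ (by norm_num)).2, p1, p2])
    refine ⟨_, (2048, 3072), by decide, co, rS, rT, fun c hc => ⟨ph_lo _ _ _ _ c hc, q1 c hc⟩,
      fun _ => q2 (h.inv _ _).symm ?_, p0, f, rR, by rwa [f1, c f1] at a, b⟩
    have := (rR 2048 (by norm_num)).2
    rw [c f1, show 3072 = 1024 ^^^ 2048 by decide, co.add _ (by norm_num) _ (by norm_num), p1, p2] at this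
    rw [← this, h.inv, h.inv]
  · push Not at e
    obtain ⟨y, hy, y', hy', a, b, c⟩ := (four h.h2 F.cZ).1
    rw [F.memZ] at hy hy'
    obtain ⟨co, rS, rT, q1, -, p0, p1, p2⟩ := F.base hN y y' v0 hv hy hy' a b c
    obtain ⟨f, rR, a, -, -, b, -⟩ := h.rho ls lt s11 t5 co rS rT
    have f1 : f 1024 = 1024 := co.inj _ (rR _ (by norm_num)).1 _ (by norm_num) (by
      rw [← (rR _ (by norm_num)).2, p1, e y hy])
    have f2 : f 2048 = 2048 := co.inj _ (rR _ (by norm_num)).1 _ (by norm_num) (by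
      rw [← (rR _ (by norm_num)).2, p2, e y' hy'])
    exact ⟨_, (1024, 2048), by decide, co, rS, rT, fun c hc => ⟨ph_lo _ _ _ _ c hc, q1 c hc⟩,
      fun e => absurd e (by decide), p0, f, rR, by rwa [f1, f2] at a, b⟩

theorem nfix (r1 : μ r ≠ 1) (perf : ∃ c ∈ ⁅M, M⁆, μ c = μ r) {v : U} (hN : (h.fr ls lt s11 t5).N v = 0) (v0 : v ≠ 0)
    (hv : τ v = v) : μ r v = ph σ v 0 0 571 ∨ μ r⁻¹ v = ph σ v 0 0 571 := by
  obtain ⟨φ, p, hp, co, rS, rT, q1, -, p0, f, rR, a, b | b | b⟩ := h.sel ls lt s11 t5 hN v0 hv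
  · exfalso
    rw [b] at a
    simp only [PP, List.mem_cons, List.not_mem_nil, or_false] at hp
    rcases hp with rfl | rfl
    swap
    · exact r1 ((rR.congr fun c hc => (a c hc).trans (basS c hc)).ext' Rp.one co)
    replace rR := rR.congr a
    have k : ∀ c < 4096, c ^^^ ext (it S 10 1 ++ [2048, 3072]) c ≠ 0 →
        ∃ j < 3, c ^^^ ext (it S 10 1 ++ [2048, 3072]) c = (ext (it S 10 1 ++ [2048, 3072]))^[j] 1024 :=
      ald (by decide +kernel)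
    have k2 : ∀ m ∈ M, ∃ j, μ m (φ 1024) = (μ r ^ j) (φ 1024) := fun m hm => by
      obtain ⟨g, rg⟩ := co.ex (μ m)
      have lg := rg.li co (h.add m)
      have e := lg.xor 2048 (by norm_num) 3072 (by norm_num)
      have e2 := (rg.mul rR).eq (rR.mul rg) co (h.cm ⟨⟨m, hm⟩, rfl, rfl⟩) 2048 (by norm_num)
      rw [show ext (it S 10 1 ++ [2048, 3072]) 2048 = 3072 by decide +kernel] at e2
      rw [e2, show 2048 ^^^ 3072 = 1024 by decide] at e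
      obtain ⟨j, -, hj⟩ := k _ (lg.lt 2048 (by norm_num)) (fun z => by
        have := (rg 1024 (by norm_num)).2
        rw [e, z, ← lg.zero, ← (rg 0 (by norm_num)).2] at this
        exact absurd (co.inj _ (by norm_num) _ (by norm_num) ((μ m).injective this)) (by norm_num))
      exact ⟨j, by rw [(rg _ (by norm_num)).2, ((rR.pow j) _ (by norm_num)).2, e, hj]⟩
    obtain ⟨c, hc, e⟩ := perf
    have k3 : ⁅M, M⁆ ≤ (MulAction.stabilizer (Perm U) (φ 1024)).comap μ := Subgroup.commutator_le.2 fun m hm n hn => by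
      obtain ⟨i, hi⟩ := k2 m hm
      obtain ⟨j, hj⟩ := k2 n hn
      have c1 : ∀ m ∈ M, ∀ i u, μ m ((μ r ^ i) u) = (μ r ^ i) (μ m u) := fun m hm i u =>
        congrArg (· u) (Commute.pow_right (h.cm ⟨⟨m, hm⟩, rfl, rfl⟩) i).eq
      have : μ (m * n * m⁻¹ * n⁻¹) (μ n (μ m (φ 1024))) = μ m (μ n (φ 1024)) := by simp
      rw [hi, hj, c1 n hn, c1 m hm, hi, hj, ← Perm.mul_apply (μ r ^ i), ← Perm.mul_apply (μ r ^ j), ← pow_add,
        ← pow_add, add_comm j, c1 _ (M.mul_mem (M.mul_mem (M.mul_mem hm hn) (M.inv_mem hm)) (M.inv_mem hn))] at this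
      exact (μ r ^ (i + j)).injective this
    have : μ c (φ 1024) = φ 1024 := k3 hc
    rw [e, (rR _ (by norm_num)).2] at this
    exact absurd (co.inj _ (rR _ (by norm_num)).1 _ (by norm_num) this) (by decide +kernel)
  · exact Or.inl (by rw [← (q1 _ (by norm_num)).1, ← b, ← (rR _ (by norm_num)).2, p0])
  · exact Or.inr (by rw [← (q1 _ (by norm_num)).1, ← b, h.rinv, map_pow, ← p0]; exact ((rR.pow 2) 1 (by norm_num)).2)

theorem mid (lh : Lf μ π (e3 2) η) (h4 : η ^ 4 = 1) {v : U} (hN : (h.fr ls lt s11 t5).N v = 0) (v0 : v ≠ 0)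
    (hv : τ v = v) (hr : μ r v = ph σ v 0 0 571) : ∃ φ : ℕ → U, Co φ ∧ (∀ c < 4096, q (φ c) = qq c) ∧
      Rp φ σ (ext jS) ∧ Rp φ τ (ext jT) ∧ Rp φ η (ext jH) ∧ Rp φ (μ r) (ext mR) := by
  obtain ⟨φ, p, hp, co, rS, rT, q1, q2, p0, f, rR, a, -⟩ := h.sel ls lt s11 t5 hN v0 hv
  rw [co.inj _ (rR 1 (by norm_num)).1 571 (by norm_num) (by
    rw [← (rR _ (by norm_num)).2, p0, hr, (q1 _ (by norm_num)).1]), itP] at a
  replace rR := rR.congr a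
  obtain ⟨g, rH⟩ := co.ex η
  obtain ⟨p1, m, hm, e⟩ := hC hp (rH.li co (h.ad lh).1) ((rH.mul rR).eq (rR.mul rH) co (h.cm lh))
    ((rH.mul rT).eq ((rT.pow 2).mul rH) co (h.cj (by norm_num) lh lt t5 m22.2.2.2.2.2.1))
    (fun c hc hc' => qq_inj (by
      have := (h.ad lh).2 (φ c)
      rwa [(rH c (by omega)).2, (q1 c hc).2, (q1 _ hc').2] at this))
    ((rH.pow 4).eq Rp.one co h4 1 (by norm_num)) (fun c hc => by
      obtain ⟨j, hj⟩ := h.uq (m22.2.2.2.2.2.2.1 ▸ (ls.mul lh).pow 5) Lf.one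
      rw [one_mul, pow_eq_pow_mod j h.p3] at hj
      rw [((rS.mul rH).pow 5).eq (rR.pow _) co hj c hc]
      have := Nat.mod_lt j three_pos
      interval_cases j % 3 <;> simp)
  replace rH := rH.congr e
  replace q2 := q2 p1
  obtain rfl : p = (2048, 3072) := (by decide : ∀ p ∈ PP, p.1 = 2048 → p = (2048, 3072)) p hp p1
  have k : ∀ m ∈ good, ∃ P ∈ [(mB 334 967, mBi),
      (mB 649 334, [1103, 2475, 1483, 2141, 887, 356, 2116, 1415, 1145, 3477, 1004, 776]),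
      (mB 967 649, [2127, 3499, 2507, 3165, 887, 356, 3140, 2439, 2169, 1429, 1004, 776])],
      ((∀ a ∈ P.1, a < 4096) ∧ (∀ a ∈ P.2, a < 4096) ∧ P.1.map (ext P.2) = mE ∧ P.2.map (ext P.1) = mE) ∧
      (∀ x ∈ [(mS, jS), (mT, jT), (m, jH), (mP 2048 3072, mR)], (∀ a ∈ x.1, a < 4096) ∧ (∀ a ∈ x.2, a < 4096) ∧
        (∀ a ∈ P.2, a < 4096) ∧ P.2.map (ext x.1) = x.2.map (ext P.2)) ∧
      al (fun c => decide (Q0 (ext P.2 c) = qq c)) 4096 = true := by decide +kernel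
  obtain ⟨P, -, ⟨a1, a2, a3, a4⟩, b, c⟩ := k m hm
  simp only [List.mem_cons, List.not_mem_nil, or_false, forall_eq_or_imp, forall_eq] at b
  exact ⟨_, co.chg a1 a2 a3 a4, fun d hd => by rw [q2 _ (elt a2 d), ald c d hd], rS.chg b.1, rT.chg b.2.1,
    rH.chg b.2.2.1, rR.chg b.2.2.2⟩

theorem fin [M.Normal] (lh : Lf μ π (e3 2) η) {φ : ℕ → U} (co : Co φ) (hq : ∀ c < 4096, q (φ c) = qq c)
    (rS : Rp φ σ (ext jS)) (rT : Rp φ τ (ext jT)) (rH : Rp φ η (ext jH)) (rR : Rp φ (μ r) (ext mR))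
    (hM : M.index = 2) (out : ∀ g, μ g = 1 → g ∈ M) :
    (∀ x < 5, ∃ α, Lf μ π (M22B.el x) α ∧ Rp φ α (ext (mA x))) ∧ ∃ k, k ∉ M ∧ Rp φ (μ k) (ext mK) := by
  have F := h.fr ls lt s11 t5
  have A : ∀ x < 5, ∃ α, Lf μ π (M22B.el x) α ∧ Rp φ α (ext (mA x)) := fun x hx => by
    have hw : ∀ y ∈ wa x, y < 4 := by revert x; decide
    refine ⟨evw (fun i => [σ, τ, η, μ r].getD i 1) (wa x), m22.2.2.2.2.2.2.2.2 x hx ▸ Lf.evw (fun i hi => ?_) _ hw, ?_⟩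
    · interval_cases i
      exacts [ls, lt, lh, h.lr]
    · have := (Rp.evw (φ := φ) (a := fun i => [σ, τ, η, μ r].getD i 1) (ms := fun i => [jS, jT, jH, mR].getD i [])
        (fun i hi => by interval_cases i; exacts [⟨rS, by decide⟩, ⟨rT, by decide⟩, ⟨rH, by decide⟩, ⟨rR, by decide⟩])
        _ hw).1
      rwa [show wm _ (wa x) = mA x by clear * - hx; revert x; decide +kernel] at this
  refine ⟨A, ?_⟩
  choose! a la ra using A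
  let Y : Subgroup (Perm U) := ⟨⟨⟨{α | ∀ c < 4096, ∀ d < 4096, α (φ c) = φ d → Ob d = Ob c}, by
    intro α β ha hb c hc d hd e
    obtain ⟨c', hc', e'⟩ := co.sur (β (φ c))
    rw [← hb c hc c' hc' e'.symm]
    exact ha c' hc' d hd (by rw [e']; exact e)⟩, fun c hc d hd e => by rw [co.inj c hc d hd e]⟩,
    fun {α} ha c hc d hd e => (ha d hd c hc (by rw [← e]; simp)).symm⟩
  have y1 : ∀ {α f}, Rp φ α f → (∀ c < 4096, Ob (f c) = Ob c) → α ∈ Y := fun {α f} ρ e c hc d hd e' => by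
    rw [← e c hc, co.inj _ (ρ c hc).1 d hd ((ρ c hc).2.symm.trans e')]
  have yM : ∀ m : M, μ m ∈ Y := fun m => by
    have : gensub M22B.el 5 ≤ ((Y.comap μ).comap M.subtype).map π := gensub_le fun x hx => by
      obtain ⟨n, e, e'⟩ := la x hx
      exact ⟨n, show μ n ∈ Y from e' ▸ y1 (ra x hx) (Ob_inv.1 x hx), e⟩
    obtain ⟨n, hn, e⟩ := this (M22B.htop ▸ Subgroup.mem_top (π m))
    obtain ⟨j, hj⟩ := h.uq ⟨m, rfl, rfl⟩ ⟨n, e, rfl⟩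
    rw [hj]
    exact Y.mul_mem hn (Y.pow_mem (y1 rR Ob_inv.2) j)
  have up : ∀ {x α k}, Lf μ π x α → k ∉ M → ∃ k' ∉ M, μ k' = α * μ k := fun ⟨m, _, e⟩ hk =>
    ⟨m * _, fun e => hk ((M.mul_mem_cancel_left m.2).1 e), by rw [map_mul, e]⟩
  obtain ⟨k0, hk0⟩ : ∃ k, k ∉ M := by
    by_contra hn
    push Not at hn
    rw [(Subgroup.eq_top_iff' M).2 hn, Subgroup.index_top] at hM
    omega
  obtain ⟨k1, hk1, i, e1⟩ : ∃ k ∉ M, ∃ i : ℕ, μ k * σ * (μ k)⁻¹ = σ ^ i := by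
    obtain ⟨m, em, em'⟩ := id ls
    have l0 : Lf μ π (π ⟨_, ‹M.Normal›.conj_mem _ m.2 k0⟩) (μ k0 * σ * (μ k0)⁻¹) := ⟨_, rfl, by simp [em']⟩
    have p0 : (μ k0 * σ * (μ k0)⁻¹) ^ 11 = 1 := by rw [conj_pow, s11, mul_one, mul_inv_cancel]
    obtain ⟨t, i, e⟩ := syl11 (x := π ⟨_, ‹M.Normal›.conj_mem _ m.2 k0⟩) (by
      rw [← map_pow, h.ker]; exact ⟨0, by simpa [em'] using p0⟩)
    obtain ⟨t, rfl⟩ := h.sur t
    have l1 : Lf μ π (π t) (μ t) := ⟨t, rfl, rfl⟩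
    obtain ⟨k, hk, ek⟩ := up l1 hk0
    refine ⟨k, hk, i, h.exa (n := 11) (by norm_num) ?_ (ls.pow i) (by rw [conj_pow, s11, mul_one, mul_inv_cancel])
      (by rw [← pow_mul, mul_comm, pow_mul, s11, one_pow])⟩
    have := (l1.mul l0).mul l1.inv
    rw [e] at this
    convert this using 1
    rw [ek]; group
  obtain ⟨k2, hk2, j, hj, e2⟩ : ∃ k ∉ M, ∃ j ∈ [1, 10], μ k * σ = σ ^ j * μ k := by
    have t1 : ∀ a : ℕ, SemiconjBy (τ ^ a) σ (σ ^ 3 ^ a) := fun a => by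
      induction a with
      | zero => simp
      | succ a ih =>
        rw [pow_succ' τ, pow_succ' 3, pow_mul]
        exact SemiconjBy.mul_left (SemiconjBy.pow_right F.ts _) ih
    have i0 : i % 11 ≠ 0 := fun z => F.s1 (by
      rw [F.pmod, z, pow_zero] at e1; simpa using e1)
    obtain ⟨b, -, hb⟩ := (show ∀ i < 11, i ≠ 0 → ∃ a < 5, 3 ^ a * i % 11 ∈ [1, 10] by decide) _
      (Nat.mod_lt i (by norm_num)) i0
    obtain ⟨k, hk, ek⟩ := up (lt.pow b) hk1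
    refine ⟨k, hk, _, hb, ?_⟩
    rw [ek, ← F.pmod, pow_mul, ← mul_assoc, ← ((t1 b).pow_right _).eq, ← F.pmod, ← e1]
    group
  obtain ⟨s, hs, rs⟩ : ∃ s ∈ [jS, jI], Rp φ (σ ^ j) (ext s) := by
    simp only [List.mem_cons, List.not_mem_nil, or_false] at hj
    rcases hj with rfl | rfl
    · exact ⟨jS, by simp, by rwa [pow_one]⟩
    · refine ⟨jI, by simp, ?_⟩
      have := (Rp.evw (φ := φ) (a := fun _ => σ) (ms := fun _ => jS) (k := 1) (fun _ _ => ⟨rS, by decide⟩)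
        (List.replicate 10 0) (by decide)).1
      rwa [show wm _ _ = jI by decide +kernel, evw, List.map_replicate, List.prod_replicate] at this
  obtain ⟨f2, r2⟩ := co.ex (μ k2)
  obtain ⟨b, -, c, -, e3⟩ := kC1 hs (r2.li co (h.add _)) ((r2.mul rS).eq (rs.mul r2) co e2) fun c hc => qq_inj (by
    rw [← hq c hc, ← hq _ (r2 c hc).1, ← (r2 c hc).2, h.inv])
  obtain ⟨k3, hk3, ek3⟩ := up ((ls.pow b).mul (h.lr.pow c)) hk2
  have r3 := ((rS.pow b).mul (rR.pow c)).mul r2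
  rw [← ek3] at r3
  have e4 : μ k3 * σ = σ ^ j * μ k3 := by
    have c1 : Commute (σ ^ j) (σ ^ b * μ r ^ c) :=
      ((Commute.refl σ).pow_pow j b).mul_right (Commute.pow_pow (h.cm ls) j c)
    rw [ek3, mul_assoc, e2, ← mul_assoc, ← c1.eq, mul_assoc]
  have ra0 := ra 0 (by norm_num)
  rcases kC2 hs (r3.li co (h.add _)) ((r3.mul rS).eq (rs.mul r3) co e4) e3 (fun d hd => by
    obtain ⟨m, -, em⟩ := la 0 (by norm_num)
    have hd' : d < 4096 := by omega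
    refine yM ⟨_, ‹M.Normal›.conj_mem _ m.2 k3⟩ _ (r3 d hd').1 _ ((r3.mul ra0) d hd').1 ?_
    rw [← (r3 d hd').2, ← ((r3.mul ra0) d hd').2]
    simp [em]) with g | g
  · exact absurd (out _ ((r3.congr g).ext' Rp.one co)) hk3
  · have hw : ∀ y ∈ wk, y < 5 := by decide
    obtain ⟨k4, hk4, ek4⟩ := up ((Lf.evw la wk hw).mul h.lr) hk3
    obtain ⟨w1, w2⟩ := Rp.evw (φ := φ) (ms := mA) (fun x hx => ⟨ra x hx, by clear * - hx; revert x; decide⟩) wk hw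
    have w4 := (w1.mm rR w2 (by decide)).mm (r3.congr g) (fun a ha => by
      obtain ⟨d, -, rfl⟩ := List.mem_map.1 ha
      exact elt w2 d) (by decide)
    exact ⟨k4, hk4, by rwa [← ek4, show List.map _ mK0 = mK by decide +kernel] at w4⟩
end Hy

theorem umod {Γ U : Type*} [Group Γ] [Finite Γ] [AddCommGroup U] [Finite U] (μ : Γ →* Equiv.Perm U)
    (hadd : ∀ g u v, μ g (u + v) = μ g u + μ g v) (hU : Nat.card U = 4096) (q : U → ZMod 2) (B : U →+ U →+ ZMod 2)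
    (hq : ∀ u v, q (u + v) = q u + q v + B u v) (h2 : ∀ u : U, u + u = 0) (nd : ∀ u, (∀ v, B u v = 0) → u = 0)
    (inv : ∀ g u, q (μ g u) = q u) (M : Subgroup Γ) [M.Normal] (hM : M.index = 2) (π : M →* M22B.G)
    (hπ : Function.Surjective π) (r : Γ) (rM : r ∈ M) (r3 : r ^ 3 = 1) (r1 : μ r ≠ 1) (rc : ∀ m ∈ M, m * r = r * m)
    (_rn : ∀ g, g * r * g⁻¹ = r ∨ g * r * g⁻¹ = r⁻¹) (ker : ∀ m : M, π m = 1 ↔ ∃ j : ℕ, μ m = μ r ^ j)
    (perf : ∃ c ∈ ⁅M, M⁆, μ c = μ r)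
    (out : ∀ g, (∀ m ∈ M, ∃ j : ℕ, μ (g * m * g⁻¹ * m⁻¹) = μ r ^ j) → g ∈ M) :
    ∃ φ : ℕ → U, (∀ a < 4096, ∀ b < 4096, φ (a ^^^ b) = φ a + φ b) ∧ (∀ u, ∃ c < 4096, φ c = u) ∧
      (∀ c < 4096, q (φ c) = (qq c : ℕ)) ∧
      (∃ r', (r' = r ∨ r' = r⁻¹) ∧ ∀ c < 4096, μ r' (φ c) = φ (ext mR c)) ∧
      (∀ x < 5, ∀ m : M, π m = M22B.el x → ∃ j : ℕ, ∀ c < 4096, μ (m * r ^ j) (φ c) = φ (ext (mA x) c)) ∧
      ∃ k, k ∉ M ∧ ∀ c < 4096, μ k (φ c) = φ (ext mK c) := by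
  have h : Hy μ q B M π r := ⟨hadd, hU, hq, h2, nd, inv, hπ, rM, r3, rc, ker⟩
  obtain ⟨σ, ls, s11⟩ := h.exl (k := 4) m22.1 rfl
  obtain ⟨τ, lt, t5⟩ := h.exl (k := 2) m22.2.2.1 rfl
  obtain ⟨η, lh, h4⟩ := h.exl (k := 3) m22.2.2.2.1 rfl
  obtain ⟨v, hN, v0, hv⟩ := (h.fr ls lt s11 t5).exv
  obtain ⟨r', e, h', hr⟩ : ∃ r', (r' = r ∨ r' = r⁻¹) ∧ Hy μ q B M π r' ∧ μ r' v = ph σ v 0 0 571 :=
    (h.nfix ls lt s11 t5 r1 perf hN v0 hv).elim (fun e => ⟨_, Or.inl rfl, h, e⟩) fun e => ⟨_, Or.inr rfl, h.flip, e⟩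
  obtain ⟨φ, co, hq', rS, rT, rH, rR⟩ := h'.mid ls lt s11 t5 lh h4 hN v0 hv hr
  obtain ⟨A, k, hk, rk⟩ := h'.fin ls lt s11 t5 lh co hq' rS rT rH rR hM fun g e => out g fun m _ => ⟨0, by simp [e]⟩
  refine ⟨φ, co.add, co.sur, hq', ⟨r', e, fun c hc => (rR c hc).2⟩, fun x hx m em => ?_, k, hk, fun c hc => (rk c hc).2⟩
  obtain ⟨α, la, ra⟩ := A x hx
  obtain ⟨j, hj⟩ := h.uq la ⟨m, em, rfl⟩
  exact ⟨j, fun c hc => by rw [map_mul, map_pow, ← hj, (ra c hc).2]⟩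

end CfH4.JU
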