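import Cfsg.Agent.H4.JU1
/-! Coordinates on an elementary abelian group of order `4096`. -/
set_option autoImplicit false
set_option maxRecDepth 100000
namespace CfH4.JU
open CfH3.J4 CfH3.He Equiv

variable {U : Type*} [AddCommGroup U]

def lin : List U → ℕ → U
  | [], _ => 0
  | a :: l, c => (if c % 2 = 1 then a else 0) + lin l (c / 2)

theorem lin_zero (l : List U) : lin l 0 = 0 := by
  induction l with
  | nil => rfl
  | cons a l ih => simp [lin, ih]

theorem lin_xor (h2 : ∀ u : U, u + u = 0) (l : List U) (a b : ℕ) : lin l (a ^^^ b) = lin l a + lin l b := by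
  induction l generalizing a b with
  | nil => simp [lin]
  | cons x l ih =>
    rw [lin, lin, lin, Nat.xor_div_two, ih, Nat.xor_mod_two_eq]
    rcases Nat.mod_two_eq_zero_or_one a with h | h <;> rcases Nat.mod_two_eq_zero_or_one b with h' | h' <;>
      simp only [Nat.add_mod a b, h, h', Nat.reduceAdd, Nat.reduceMod, if_true, zero_ne_one, if_false]
    · abel
    · abel
    · abel
    · rw [add_add_add_comm, h2]

theorem add_zero' {V : Type*} [AddCommGroup V] {f : U → V} (hf : ∀ u v, f (u + v) = f u + f v) : f 0 = 0 :=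
  (AddMonoidHom.mk' f hf).map_zero

theorem lin_map {V : Type*} [AddCommGroup V] {f : U → V} (hf : ∀ u v, f (u + v) = f u + f v) (l : List U) (c : ℕ) :
    f (lin l c) = lin (l.map f) c := by
  induction l generalizing c with
  | nil => exact add_zero' hf
  | cons x l ih =>
    rw [List.map_cons, lin, lin, hf, ih]
    split_ifs
    · rfl
    · rw [add_zero' hf]

theorem lin_ext {φ : ℕ → U} (h : ∀ a b, φ (a ^^^ b) = φ a + φ b) (m : List ℕ) (c : ℕ) :
    φ (ext m c) = lin (m.map φ) c := by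
  have h0 : φ 0 = 0 := by simpa using h 0 0
  induction m generalizing c with
  | nil => exact h0
  | cons x l ih =>
    rw [List.map_cons, lin, ext_cons, h, ih]
    rcases Nat.mod_two_eq_zero_or_one c with e | e <;> simp [e, h0]

theorem cast_xor (a b : ℕ) : ((a ^^^ b : ℕ) : ZMod 2) = a + b := by
  rw [← Nat.cast_add, ZMod.natCast_eq_natCast_iff', Nat.xor_mod_two_eq]

noncomputable def QN (qv : ℕ → ℕ) (G : ℕ → ℕ → ℕ) (L : List ℕ) : ℕ → ℕ :=
  List.rec (fun _ => 0) (fun i L ih c => Nat.xor (Nat.mul (Nat.xor (qv i) (ext (L.map (G i)) (Nat.shiftRight c 1)))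
    (Nat.land c 1)) (ih (Nat.shiftRight c 1))) L

theorem QN_cons (qv : ℕ → ℕ) (G : ℕ → ℕ → ℕ) (i : ℕ) (L : List ℕ) (c : ℕ) : QN qv G (i :: L) c =
    ((qv i ^^^ ext (L.map (G i)) (c / 2)) * (c % 2)) ^^^ QN qv G L (c / 2) := by
  show ((qv i ^^^ ext (L.map (G i)) (c >>> 1)) * (c &&& 1)) ^^^ QN qv G L (c >>> 1) = _
  rw [Nat.and_one_is_mod, Nat.shiftRight_one]

section
variable {q : U → ZMod 2} {B : U →+ U →+ ZMod 2} (hq : ∀ u v, q (u + v) = q u + q v + B u v)
include hq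

theorem q_zero : q 0 = 0 := by simpa using hq 0 0

theorem q_lin (b : ℕ → U) {qv : ℕ → ℕ} {G : ℕ → ℕ → ℕ} (L : List ℕ) (h1 : ∀ i ∈ L, q (b i) = qv i)
    (h2 : ∀ i ∈ L, ∀ j ∈ L, B (b i) (b j) = G i j) (c : ℕ) : q (lin (L.map b) c) = QN qv G L c := by
  induction L generalizing c with
  | nil => exact (q_zero hq).trans (by simp [QN])
  | cons i L ih =>
    rw [List.map_cons, lin, hq, QN_cons, cast_xor, ih (fun j hj => h1 j (List.mem_cons_of_mem _ hj))
      (fun j hj k hk => h2 j (List.mem_cons_of_mem _ hj) k (List.mem_cons_of_mem _ hk))]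
    rcases Nat.mod_two_eq_zero_or_one c with e | e <;> rw [e]
    · simp [q_zero hq]
    · rw [if_pos rfl, mul_one, cast_xor, lin_ext cast_xor, lin_map (B (b i)).map_add, List.map_map, List.map_map,
        h1 i List.mem_cons_self, List.map_congr_left (f := B (b i) ∘ b) (g := Nat.cast ∘ G i) fun j hj =>
          h2 i List.mem_cons_self j (List.mem_cons_of_mem _ hj)]
      ring

theorem B_sym (u v : U) : B u v = B v u := by
  have := hq v u
  rw [add_comm v u, hq, add_comm (q v)] at this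
  exact add_left_cancel this

theorem B_self (h2 : ∀ u : U, u + u = 0) (u : U) : B u u = 0 := by
  have := hq u u
  rwa [h2, q_zero hq, CharTwo.add_self_eq_zero, zero_add, eq_comm] at this

theorem B_inv {f : U → U} (hf : ∀ u v, f (u + v) = f u + f v) (i : ∀ u, q (f u) = q u) (u v : U) :
    B (f u) (f v) = B u v := by
  have := hq (f u) (f v)
  rw [← hf, i, i, i, hq] at this
  exact (add_left_cancel this).symm
end

structure Co (φ : ℕ → U) : Prop where
  add : ∀ a < 4096, ∀ b < 4096, φ (a ^^^ b) = φ a + φ b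
  sur : ∀ u, ∃ c < 4096, φ c = u
  inj : ∀ a < 4096, ∀ b < 4096, φ a = φ b → a = b

theorem Co.mk' [Finite U] {φ : ℕ → U} (hU : Nat.card U = 4096) (add : ∀ a < 4096, ∀ b < 4096, φ (a ^^^ b) = φ a + φ b)
    (sur : ∀ u, ∃ c < 4096, φ c = u) : Co φ := by
  refine ⟨add, sur, fun a ha b hb e => ?_⟩
  have : Function.Bijective fun c : Fin 4096 => φ c :=
    (Nat.bijective_iff_surjective_and_card _).2 ⟨fun u => let ⟨c, hc, e⟩ := sur u; ⟨⟨c, hc⟩, e⟩, by simp [hU]⟩
  exact congrArg Fin.val (this.1 (a₁ := ⟨a, ha⟩) (a₂ := ⟨b, hb⟩) e)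

def Rp (φ : ℕ → U) (α : Perm U) (f : ℕ → ℕ) : Prop := ∀ c < 4096, f c < 4096 ∧ α (φ c) = φ (f c)
def Ad (α : Perm U) : Prop := ∀ u v, α (u + v) = α u + α v

variable {φ : ℕ → U} {α β : Perm U} {f g : ℕ → ℕ}

theorem Co.ex (h : Co φ) (α : Perm U) : ∃ f, Rp φ α f := by
  choose f h1 h2 using fun c => h.sur (α (φ c))
  exact ⟨f, fun c _ => ⟨h1 c, (h2 c).symm⟩⟩

theorem Rp.li (r : Rp φ α f) (h : Co φ) (a : Ad α) : Li f :=
  ⟨fun c hc => (r c hc).1, fun x hx y hy => h.inj _ (r _ (xlt hx hy)).1 _ (xlt (r x hx).1 (r y hy).1) (by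
    rw [← (r _ (xlt hx hy)).2, h.add _ hx _ hy, a, h.add _ (r x hx).1 _ (r y hy).1, (r x hx).2, (r y hy).2])⟩

theorem Rp.mul (r : Rp φ α f) (s : Rp φ β g) : Rp φ (α * β) fun c => f (g c) := fun c hc =>
  ⟨(r _ (s c hc).1).1, by rw [Perm.mul_apply, (s c hc).2, (r _ (s c hc).1).2]⟩

theorem Rp.one : Rp φ 1 fun c => c := fun _ hc => ⟨hc, rfl⟩

theorem Rp.pow (r : Rp φ α f) (n : ℕ) : Rp φ (α ^ n) f^[n] := by
  induction n with
  | zero => rw [pow_zero]; exact Rp.one
  | succ n ih => rw [pow_succ]; exact ih.mul r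

theorem Rp.eq (r : Rp φ α f) (s : Rp φ β g) (h : Co φ) (e : α = β) : ∀ c < 4096, f c = g c := fun c hc =>
  h.inj _ (r c hc).1 _ (s c hc).1 (by rw [← (r c hc).2, ← (s c hc).2, e])

theorem Rp.congr (r : Rp φ α f) (e : ∀ c < 4096, f c = g c) : Rp φ α g := fun c hc => e c hc ▸ r c hc

theorem Rp.ext' (r : Rp φ α f) (s : Rp φ β f) (h : Co φ) : α = β := Equiv.ext fun u => by
  obtain ⟨c, hc, rfl⟩ := h.sur u
  rw [(r c hc).2, (s c hc).2]

theorem Rp.mm {m n : List ℕ} (r : Rp φ α (ext m)) (s : Rp φ β (ext n)) (hm : ∀ a ∈ m, a < 4096)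
    (hn : ∀ a ∈ n, a < 4096) : Rp φ (α * β) (ext (n.map (ext m))) :=
  (r.mul s).congr fun c _ => (li_ext hm).map hn c

theorem Co.chg (h : Co φ) {P Pi : List ℕ} (h1 : ∀ a ∈ P, a < 4096) (h2 : ∀ a ∈ Pi, a < 4096)
    (e1 : P.map (ext Pi) = mE) (e2 : Pi.map (ext P) = mE) : Co fun c => φ (ext Pi c) := by
  refine ⟨fun a _ b _ => by rw [ext_xor, h.add _ (elt h2 _) _ (elt h2 _)], fun u => ?_, fun a ha b hb e => ?_⟩
  · obtain ⟨c, hc, rfl⟩ := h.sur u
    exact ⟨_, elt h1 c, by rw [(li_ext h2).map h1, e1, extE c hc]⟩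
  · have := congrArg (ext P) (h.inj _ (elt h2 _) _ (elt h2 _) e)
    rwa [(li_ext h1).map h2, (li_ext h1).map h2, e2, extE a ha, extE b hb] at this

theorem Rp.chg {m n Pi : List ℕ} (r : Rp φ α (ext m)) (h : (∀ a ∈ m, a < 4096) ∧ (∀ a ∈ n, a < 4096) ∧
    (∀ a ∈ Pi, a < 4096) ∧ Pi.map (ext m) = n.map (ext Pi)) : Rp (fun c => φ (ext Pi c)) α (ext n) := fun c _ =>
  ⟨elt h.2.1 c, by
    show α (φ _) = φ _
    rw [(r _ (elt h.2.2.1 c)).2, (li_ext h.1).map h.2.2.1, (li_ext h.2.2.1).map h.2.1, h.2.2.2]⟩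

theorem Ad.pow (a : Ad α) (n : ℕ) : Ad (α ^ n) := by
  induction n with
  | zero => exact fun _ _ => rfl
  | succ n ih => intro u v; rw [pow_succ, Perm.mul_apply, a, ih]; rfl

omit [AddCommGroup U] in
theorem fixmod [Finite U] {p : ℕ} [Fact p.Prime] (S : Set U) (hS : ∀ s ∈ S, α s ∈ S) (hp : α ^ p = 1) {z : U}
    (hz : z ∈ S) (h : ∀ s ∈ S, α s = s ↔ s = z) : Nat.card S ≡ 1 [MOD p] := by
  classical
  have := Fintype.ofFinite S
  let F : Function.End S := fun s => ⟨α s, hS _ s.2⟩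
  have hF : ∀ n (s : S), ((F ^ n) s : U) = (α ^ n) s := fun n => by
    induction n with
    | zero => exact fun _ => rfl
    | succ n ih => intro s; rw [pow_succ, pow_succ]; exact ih _
  have h1 := Perm.card_fixedPoints_modEq (f := F) (p := p) (n := 1) (funext fun s => Subtype.ext (by
    rw [hF, pow_one, hp]; rfl))
  rw [show Fintype.card F.fixedPoints = 1 from Fintype.card_eq_one_iff.2 ⟨⟨⟨z, hz⟩, Subtype.ext ((h z hz).2 rfl)⟩,
    fun s => Subtype.ext (Subtype.ext ((h _ s.1.2).1 (congrArg Subtype.val s.2)))⟩] at h1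
  rwa [Nat.card_eq_fintype_card]

theorem four [Finite U] (h2 : ∀ u : U, u + u = 0) {Z : AddSubgroup U} (h : Nat.card Z = 4) :
    (∃ y ∈ Z, ∃ y' ∈ Z, y ≠ 0 ∧ y' ≠ 0 ∧ y ≠ y') ∧ ∀ y ∈ Z, ∀ y' ∈ Z, y ≠ 0 → y' ≠ 0 → y ≠ y' →
      ∀ z ∈ Z, z = 0 ∨ z = y ∨ z = y' ∨ z = y + y' := by
  classical
  have hc : (Z : Set U).ncard = 4 := h
  constructor
  · by_contra hn
    push Not at hn
    by_cases h0 : ∃ y ∈ Z, y ≠ 0
    · obtain ⟨y, hy, y0⟩ := h0
      have : (Z : Set U) ⊆ {0, y} := fun z hz => by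
        by_cases e : z = 0
        · exact Or.inl e
        · exact Or.inr (hn z hz y hy e y0)
      have := (Set.ncard_le_ncard this).trans (Set.ncard_insert_le _ _)
      rw [Set.ncard_singleton] at this; omega
    · push Not at h0
      have := Set.ncard_le_ncard (show (Z : Set U) ⊆ {0} from h0)
      rw [Set.ncard_singleton] at this; omega
  · intro y hy y' hy' a b c z hz
    have d : y + y' ≠ 0 := fun e => c (add_right_cancel (e.trans (h2 y').symm))
    have e : ({0, y, y', y + y'} : Set U) = Z := Set.eq_of_subset_of_ncard_le (by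
      rintro _ (rfl | rfl | rfl | rfl)
      exacts [Z.zero_mem, hy, hy', Z.add_mem hy hy']) (by
      rw [hc, Set.ncard_insert_of_notMem (by simp [a.symm, b.symm, d.symm]),
        Set.ncard_insert_of_notMem (by simp [b, c]), Set.ncard_pair (by simp [a])])
    exact (show z ∈ ({0, y, y', y + y'} : Set U) from e ▸ hz)

end CfH4.JU
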