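import Cfsg.Agent.H4.JU2
import Cfsg.Agent.OD.Helper4x18489e1c71
/-! The module of a Frobenius group of order `55` on an orthogonal space of order `4096`. -/
set_option autoImplicit false
set_option maxRecDepth 100000
set_option linter.unusedSectionVars false
set_option linter.unusedSimpArgs false
namespace CfH4.JU
open CfH3.J4 CfH3.He Equiv Finset

variable {U : Type*} [AddCommGroup U] [Finite U]

structure Fr (q : U → ZMod 2) (B : U →+ U →+ ZMod 2) (σ τ : Perm U) : Prop where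
  hU : Nat.card U = 4096
  hq : ∀ u v, q (u + v) = q u + q v + B u v
  h2 : ∀ u : U, u + u = 0
  nd : ∀ u, (∀ v, B u v = 0) → u = 0
  aS : Ad σ
  aT : Ad τ
  qS : ∀ u, q (σ u) = q u
  qT : ∀ u, q (τ u) = q u
  s11 : σ ^ 11 = 1
  s1 : σ ≠ 1
  t5 : τ ^ 5 = 1
  ts : τ * σ = σ ^ 3 * τ

def bs (σ : Perm U) (v y y' : U) (i : ℕ) : U := if i < 10 then (σ ^ i) v else if i = 10 then y else y'
def ph (σ : Perm U) (v y y' : U) : ℕ → U := lin ((List.range 12).map (bs σ v y y'))
def Gm (b i j : ℕ) : ℕ := if i = j then 0 else b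
def Gq (i j : ℕ) : ℕ := if i = j then 0 else if i < 10 ↔ j < 10 then 1 else 0
def qv (t t' i : ℕ) : ℕ := if i < 10 then 1 else if i = 10 then t else t'

theorem QN1 : ∀ t < 2, ∀ t' < 2, ∀ c < 1024, QN (qv t t') Gq (List.range 12) c = Q0 c := by
  intro t ht t' ht'
  interval_cases t <;> interval_cases t' <;> exact ald (by decide +kernel)
theorem QN2 : ∀ c < 4096, QN (qv 1 1) Gq (List.range 12) c = Q0 c := ald (by decide +kernel)

theorem ph_lo (σ : Perm U) (v y y' : U) : ∀ c < 1024, ph σ v y y' c = ph σ v 0 0 c := fun c hc => by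
  simp [ph, lin, bs, List.range_succ, Nat.div_div_eq_div_mul, Nat.div_eq_of_lt hc,
    Nat.div_eq_of_lt (hc.trans (show 1024 < 2048 by norm_num))]

variable {q : U → ZMod 2} {B : U →+ U →+ ZMod 2} {σ τ : Perm U}

namespace Fr
variable (h : Fr q B σ τ)
include h

def N : U →+ U := AddMonoidHom.mk' (fun u => ∑ i ∈ range 11, (σ ^ i) u) fun u v => by
  rw [← sum_add_distrib]; exact sum_congr rfl fun i _ => h.aS.pow i u v

theorem N_def (u : U) : h.N u = ∑ i ∈ range 11, (σ ^ i) u := rfl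

theorem NS (u : U) : h.N (σ u) = h.N u := by
  have e : ∀ i, (σ ^ i) (σ u) = (σ ^ (i + 1)) u := fun i => by rw [pow_succ]; rfl
  simp only [N_def, e]
  rw [sum_range_succ, sum_range_succ' _ 10, show σ ^ (10 + 1) = σ ^ 0 from h.s11]

theorem SN (u : U) : σ (h.N u) = h.N u := by
  refine Eq.trans ?_ (h.NS u)
  rw [N_def, N_def]
  refine (map_sum (AddMonoidHom.mk' σ h.aS) _ _).trans (sum_congr rfl fun i _ => ?_)
  show (σ * σ ^ i) u = (σ ^ i * σ) u
  rw [← pow_succ, ← pow_succ']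

theorem N_fix {y : U} (e : σ y = y) : h.N y = y := by
  simp only [N_def, Perm.pow_apply_eq_self_of_apply_eq_self e, sum_const, card_range]
  rw [show (11 : ℕ) = 5 * 2 + 1 from rfl, add_smul, one_smul, mul_smul, two_smul, h.h2, smul_zero, zero_add]

theorem pmod (n : ℕ) : σ ^ n = σ ^ (n % 11) := pow_eq_pow_mod n h.s11

theorem tsp (j : ℕ) (u : U) : τ ((σ ^ j) u) = (σ ^ (3 * j % 11)) (τ u) := by
  have : SemiconjBy τ σ (σ ^ 3) := h.ts
  rw [← h.pmod, pow_mul]
  exact congrArg (· u) (this.pow_right j).eq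

theorem NT (u : U) : h.N (τ u) = τ (h.N u) := by
  rw [N_def, N_def]
  refine Eq.trans ?_ (map_sum (AddMonoidHom.mk' τ h.aT) _ _).symm
  show _ = ∑ i ∈ range 11, τ ((σ ^ i) u)
  simp only [h.tsp, sum_range_succ, sum_range_zero, Nat.reduceMul, Nat.reduceMod]
  abel

theorem cardW (S : AddSubgroup U) (hS : ∀ s ∈ S, σ s ∈ S) (hW : S ≤ h.N.ker) (ne : S ≠ ⊥) : Nat.card S = 1024 := by
  have : Fact (Nat.Prime 11) := ⟨by norm_num⟩
  have h1 := fixmod (S : Set U) hS h.s11 S.zero_mem fun s hs =>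
    ⟨fun e => (h.N_fix e).symm.trans (hW hs), fun e => by rw [e]; exact add_zero' h.aS⟩
  have h2 := S.card_addSubgroup_dvd_card
  rw [h.hU, show 4096 = 2 ^ 12 from rfl] at h2
  obtain ⟨k, hk, e⟩ := (Nat.dvd_prime_pow Nat.prime_two).1 h2
  have h3 : Nat.card S ≠ 1 := fun e => ne (AddSubgroup.card_eq_one.1 e)
  change Nat.card S ≡ 1 [MOD 11] at h1
  rw [e] at h1 h3 ⊢
  interval_cases k <;> simp_all [Nat.ModEq]

theorem SW (s : U) (hs : s ∈ h.N.ker) : σ s ∈ h.N.ker := (h.NS s).trans hs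

theorem cW : Nat.card h.N.ker = 1024 := by
  refine h.cardW _ h.SW le_rfl fun e => h.s1 (Equiv.ext fun u => ?_)
  have : u + σ u ∈ h.N.ker := by rw [AddMonoidHom.mem_ker, map_add, h.NS, h.h2]
  rw [e, AddSubgroup.mem_bot] at this
  exact (add_left_cancel (this.trans (h.h2 u).symm))

theorem cZ : Nat.card h.N.range = 4 := by
  have := h.N.ker.index_mul_card
  rw [AddSubgroup.index_ker, h.cW, h.hU] at this
  omega

theorem memZ {y : U} : y ∈ h.N.range ↔ σ y = y := ⟨fun ⟨u, e⟩ => e ▸ h.SN u, fun e => ⟨y, h.N_fix e⟩⟩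

theorem exv : ∃ v, h.N v = 0 ∧ v ≠ 0 ∧ τ v = v := by
  by_contra hn
  push Not at hn
  have : Fact (Nat.Prime 5) := ⟨by norm_num⟩
  have h1 := fixmod (h.N.ker : Set U) (fun s hs => (h.NT s).trans (by rw [show h.N s = 0 from hs, add_zero' h.aT]))
    h.t5 h.N.ker.zero_mem fun s hs => ⟨fun e => by_contra fun s0 => hn s hs s0 e, fun e => by
      rw [e]; exact add_zero' h.aT⟩
  change Nat.card h.N.ker ≡ 1 [MOD 5] at h1
  rw [h.cW] at h1
  exact absurd h1 (by decide)

theorem qP (n : ℕ) (u : U) : q ((σ ^ n) u) = q u := by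
  induction n with
  | zero => rfl
  | succ n ih => rw [pow_succ', Perm.mul_apply, h.qS, ih]

theorem BP (n : ℕ) (u w : U) : B ((σ ^ n) u) ((σ ^ n) w) = B u w := B_inv h.hq (h.aS.pow n) (h.qP n) u w

theorem BWZ {w y : U} (hw : h.N w = 0) (hy : σ y = y) : B w y = 0 := by
  have : B (h.N w) y = ∑ i ∈ range 11, B w y := by
    rw [N_def, map_sum, AddMonoidHom.finsetSum_apply]
    refine sum_congr rfl fun i _ => ?_
    rw [← h.BP i w y, Perm.pow_apply_eq_self_of_apply_eq_self hy]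
  rw [hw, map_zero, AddMonoidHom.zero_apply, sum_const, card_range] at this
  revert this; generalize B w y = t; revert t; decide

theorem Bij {v : U} (hv : τ v = v) : ∀ i < 11, ∀ j < 11, i ≠ j → B ((σ ^ i) v) ((σ ^ j) v) = B v (σ v) := by
  have a : ∀ i, B v ((σ ^ (3 * i % 11)) v) = B v ((σ ^ i) v) := fun i => by
    have := B_inv h.hq h.aT h.qT v ((σ ^ i) v)
    rwa [h.tsp, hv] at this
  have b : ∀ i ≤ 11, B v ((σ ^ (11 - i)) v) = B v ((σ ^ i) v) := fun i hi => by
    rw [← h.BP i, ← Perm.mul_apply, ← pow_add, Nat.add_sub_cancel' hi, h.s11, B_sym h.hq]; rfl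
  have c : ∀ i < 11, i ≠ 0 → B v ((σ ^ i) v) = B v ((σ ^ 1) v) := by
    have a1 := a 1; have a3 := a 3; have a9 := a 9; have a5 := a 5
    have b1 := b 1 (by norm_num); have b3 := b 3 (by norm_num); have b9 := b 9 (by norm_num)
    have b5 := b 5 (by norm_num); have b4 := b 4 (by norm_num)
    simp only [Nat.reduceMul, Nat.reduceMod, Nat.reduceSub] at a1 a3 a9 a5 b1 b3 b9 b5 b4
    intro i hi i0
    interval_cases i <;> simp_all only [ne_eq, not_true_eq_false]
  have d : ∀ i < 11, ∀ j < 11, i < j → B ((σ ^ i) v) ((σ ^ j) v) = B v (σ v) := fun i _ j hj ij => by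
    rw [← Nat.add_sub_cancel' ij.le, pow_add, Perm.mul_apply, h.BP, c _ (by omega) (by omega), pow_one]
  intro i hi j hj ne
  rcases ne.lt_or_gt with l | l
  · exact d i hi j hj l
  · rw [B_sym h.hq, d j hj i hi l]

section
variable {v : U} (hN : h.N v = 0) (y y' : U)
include hN

theorem phS (hy : σ y = y) (hy' : σ y' = y') (c : ℕ) : σ (ph σ v y y' c) = ph σ v y y' (S c) := by
  rw [S, lin_ext (φ := ph σ v y y') (lin_xor h.h2 _), ph, lin_map h.aS]
  congr 1
  have e : ∀ i, σ ((σ ^ i) v) = (σ ^ (i + 1)) v := fun i => by rw [pow_succ']; rfl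
  rw [N_def, sum_range_succ] at hN
  have := add_left_cancel (hN.trans (h.h2 _).symm)
  simp only [sum_range_succ, sum_range_zero] at this
  simp [mS, lin, bs, List.range_succ, e, hy, hy', this, add_assoc, show σ (σ v) = (σ ^ 2) v from rfl]

theorem phW (v0 : v ≠ 0) (w : U) (hw : h.N w = 0) : ∃ c < 1024, ph σ v y y' c = w := by
  have e := ph_lo σ v y y'
  let Z : AddSubgroup U := ⟨⟨⟨{u | ∃ c < 1024, ph σ v 0 0 c = u}, by
    rintro _ _ ⟨a, ha, rfl⟩ ⟨b, hb, rfl⟩
    exact ⟨_, Nat.xor_lt_two_pow (n := 10) ha hb, lin_xor h.h2 _ _ _⟩⟩, 0, by norm_num, lin_zero _⟩, by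
    intro u hu
    rwa [neg_eq_of_add_eq_zero_right (h.h2 u)]⟩
  have l : Z ≤ h.N.ker := by
    rintro _ ⟨c, -, rfl⟩
    have e : ∀ i, h.N ((σ ^ i) v) = 0 := fun i => by
      induction i with
      | zero => exact hN
      | succ i ih => rw [pow_succ', Perm.mul_apply, h.NS, ih]
    rw [AddMonoidHom.mem_ker, ph, lin_map h.N.map_add]
    simp [lin, bs, List.range_succ, e, hN, h.NS]
  have k : ∀ c < 1024, S c < 1024 := ald (by decide +kernel)
  have c := h.cardW Z (by
    rintro _ ⟨c, hc, rfl⟩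
    exact ⟨_, k c hc, (h.phS hN 0 0 (add_zero' h.aS) (add_zero' h.aS) c).symm⟩) l
    fun b => v0 (show v ∈ (⊥ : AddSubgroup U) from b ▸ ⟨1, by norm_num, by simp [ph, lin, bs, List.range_succ]⟩)
  obtain ⟨c, hc, rfl⟩ : w ∈ Z := (AddSubgroup.eq_of_le_of_card_ge l (by rw [c, h.cW])).ge hw
  exact ⟨c, hc, e c hc⟩

theorem split (u : U) : h.N (u + h.N u) = 0 ∧ u = (u + h.N u) + h.N u :=
  ⟨by rw [map_add, h.N_fix (h.SN u), h.h2], by rw [add_assoc, h.h2, add_zero]⟩

theorem qv1 (v0 : v ≠ 0) (hv : τ v = v) : B v (σ v) = 1 ∧ q v = 1 := by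
  have z : ∀ t : ZMod 2, t = 0 ∨ t = 1 := by decide
  have b1 : B v (σ v) = 1 := (z _).resolve_left fun b0 => v0 (h.nd v fun u => by
    obtain ⟨c, -, e⟩ := h.phW hN 0 0 v0 _ (h.split hN u).1
    rw [(h.split hN u).2, map_add, h.BWZ hN (h.SN u), add_zero, ← e, ph, lin_map (B v).map_add]
    have e : ∀ j < 11, j ≠ 0 → B v ((σ ^ j) v) = 0 := fun j hj j0 => b0 ▸ h.Bij hv 0 (by norm_num) j hj j0.symm
    simp [lin, bs, List.range_succ, e, b0, B_self h.hq h.h2])
  refine ⟨b1, (z _).resolve_left fun q0 => ?_⟩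
  have := q_lin h.hq (fun i => (σ ^ i) v) (qv := fun _ => 0) (G := Gm 1) (List.range 11)
    (fun i _ => by rw [h.qP, q0]; rfl) (fun i hi j hj => by
      rw [Gm]; split_ifs with e
      · rw [e, B_self h.hq h.h2]; rfl
      · rw [h.Bij hv i (List.mem_range.1 hi) j (List.mem_range.1 hj) e, b1]; rfl) 2047
  rw [show lin ((List.range 11).map fun i => (σ ^ i) v) 2047 = h.N v by
    simp [N_def, lin, List.range_succ, sum_range_succ, add_assoc], hN, q_zero h.hq] at this
  revert this; decide +kernel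

theorem base (v0 : v ≠ 0) (hv : τ v = v) (hy : σ y = y) (hy' : σ y' = y') (a : y ≠ 0) (b : y' ≠ 0) (c : y ≠ y') :
    Co (ph σ v y y') ∧ Rp (ph σ v y y') σ S ∧ Rp (ph σ v y y') τ T ∧ (∀ c < 1024, q (ph σ v y y' c) = Q0 c) ∧
      (q y = q y' → q (y + y') = q y → ∀ c < 4096, q (ph σ v y y' c) = Q0 c) ∧ ph σ v y y' 1 = v ∧
      ph σ v y y' 1024 = y ∧ ph σ v y y' 2048 = y' := by
  have p0 : ph σ v y y' 1 = v := by simp [ph, lin, bs, List.range_succ]
  have p1 : ph σ v y y' 1024 = y := by simp [ph, lin, bs, List.range_succ]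
  have p2 : ph σ v y y' 2048 = y' := by simp [ph, lin, bs, List.range_succ]
  have p3 : ph σ v y y' 3072 = y + y' := by simp [ph, lin, bs, List.range_succ]
  have f4 := fun u => (four h.h2 h.cZ).2 y (h.memZ.2 hy) y' (h.memZ.2 hy') a b c (h.N u) ⟨u, rfl⟩
  have co : Co (ph σ v y y') := Co.mk' h.hU (fun a _ b _ => lin_xor h.h2 _ a b) fun u => by
    obtain ⟨c, hc, e⟩ := h.phW hN y y' v0 _ (h.split hN u).1
    obtain ⟨d, hd, e'⟩ : ∃ d < 4096, ph σ v y y' d = h.N u := by
      rcases f4 u with e | e | e | e <;> rw [e]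
      exacts [⟨0, by norm_num, lin_zero _⟩, ⟨_, by norm_num, p1⟩, ⟨_, by norm_num, p2⟩, ⟨_, by norm_num, p3⟩]
    exact ⟨_, xlt (by omega) hd, (lin_xor h.h2 _ _ _).trans ((congrArg₂ (· + ·) e e').trans (h.split hN u).2.symm)⟩
  have rS : Rp (ph σ v y y') σ S := fun c hc => ⟨liS.lt c hc, h.phS hN y y' hy hy' c⟩
  obtain ⟨f, rT⟩ := co.ex τ
  have z : ∀ t : ZMod 2, t = 0 ∨ t = 1 := by decide
  have b1 : B y y' = 1 := (z _).resolve_left fun b0 => a (h.nd y fun u => by
    rw [(h.split hN u).2, map_add, B_sym h.hq, h.BWZ (h.split hN u).1 hy, zero_add]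
    rcases f4 u with e | e | e | e <;> simp [e, b0, B_self h.hq h.h2])
  obtain ⟨b2, q1⟩ := h.qv1 hN v0 hv
  have e : ∀ i, h.N ((σ ^ i) v) = 0 := fun i => by
    induction i with
    | zero => exact hN
    | succ i ih => rw [pow_succ', Perm.mul_apply, h.NS, ih]
  have ql := q_lin h.hq (bs σ v y y') (qv := qv (q y).val (q y').val) (G := Gq) (List.range 12)
    (fun i _ => by
      rw [bs, qv]; split_ifs
      · rw [h.qP, q1]; rfl
      · simp
      · simp)
    (fun i hi j hj => by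
      rw [List.mem_range] at hi hj
      rw [Gq]
      by_cases ij : i = j
      · rw [if_pos ij, ij, B_self h.hq h.h2]; rfl
      rw [if_neg ij, bs, bs]
      by_cases i1 : i < 10 <;> by_cases j1 : j < 10 <;> simp only [i1, j1, if_true, if_false, iff_true, iff_false,
        not_true_eq_false, not_false_eq_true, Nat.cast_one, Nat.cast_zero]
      · rw [h.Bij hv i (by omega) j (by omega) ij, b2]
      · split_ifs
        exacts [h.BWZ (e i) hy, h.BWZ (e i) hy']
      · rw [B_sym h.hq]; split_ifs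
        exacts [h.BWZ (e j) hy, h.BWZ (e j) hy']
      · by_cases i2 : i = 10
        · rw [if_pos i2, if_neg (by omega), b1]
        · rw [if_neg i2, if_pos (by omega), B_sym h.hq, b1])
  refine ⟨co, rS, rT.congr (tauC (rT.li co h.aT) (co.inj _ (rT 1 (by norm_num)).1 _ (by norm_num)
    (by rw [← (rT 1 (by norm_num)).2, p0, hv])) ((rT.mul rS).eq ((rS.pow 3).mul rT) co h.ts)
    ((rT.pow 5).eq Rp.one co h.t5)), fun c hc => ?_, fun e1 e2 c hc => ?_, p0, p1, p2⟩
  · rw [ph, ql, QN1 _ (ZMod.val_lt _) _ (ZMod.val_lt _) c hc]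
  · have : q y = 1 := by
      rw [h.hq, ← e1, CharTwo.add_self_eq_zero, zero_add, b1] at e2; exact e2.symm
    rw [ph, ql, ← e1, this, show (1 : ZMod 2).val = 1 from rfl, QN2 c hc]
end
end Fr
end CfH4.JU
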