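import Cfsg.Agent.H4.Blk5
import Cfsg.Agent.H5.Integral
import Mathlib.Analysis.SpecialFunctions.Complex.CircleAddChar
/-! The principal block for a Sylow subgroup of prime order: integer vectors and their Gram matrix. -/
set_option autoImplicit false
set_option linter.unusedSectionVars false
set_option linter.unusedSimpArgs false
open Cfsg CfH4 CfH4.GA CfH9 CfH7 Subgroup Finset
open scoped ComplexConjugate
namespace CfH4.D1
universe u
variable {G : Type u} [Group G] [Finite G] {p : ℕ} [hp : Fact p.Prime] {x : G}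

structure Syl (p : ℕ) (x : G) : Prop where
  ord : orderOf x = p
  syl : SylIn p (zpowers x) ⊤

noncomputable abbrev ψ : AddChar (ZMod p) ℂ := ZMod.stdAddChar (N := p)
def xp (x : G) (a : ZMod p) : G := x ^ a.val
noncomputable def κ (j a : ZMod p) : ℂ := conj (ψ (j * a)) - 1
noncomputable def F (x : G) (χ : G → ℂ) (j : ZMod p) : ℂ := ∑ a : ZMod p, χ (xp x a) * conj (ψ (j * a))
/-- multiplicity of the `j`-th eigenvalue -/
noncomputable def m (x : G) (χ : G → ℂ) (j : ZMod p) : ℕ := ⌊(F x χ j / p).re⌋₊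
open Classical in
noncomputable def u (x : G) (j : ZMod p) (χ : IrrCharacter G) : ℤ :=
  if χ ∈ B0 p G then (m x χ j : ℤ) - m x χ (0 : ZMod p) else 0
def E (x : G) (t : ZMod p) : Prop := IsConj x (xp x t)
noncomputable def e (p : ℕ) (x : G) : ℕ := Nat.card {t : ZMod p // IsConj x (x ^ t.val)}

theorem pne : (p : ℂ) ≠ 0 := Nat.cast_ne_zero.2 hp.out.ne_zero
theorem conjψ (a : ZMod p) : conj (ψ a) = ψ (-a) := (AddChar.map_neg_eq_conj _ a).symm
theorem sumψ (b : ZMod p) : ∑ a, ψ (a * b) = if b = 0 then (p : ℂ) else 0 := by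
  classical
  have := AddChar.sum_mulShift b (ZMod.isPrimitive_stdAddChar p)
  rw [ZMod.card] at this
  convert this using 1
  split_ifs <;> simp
theorem κ_zero (j : ZMod p) : κ j 0 = 0 := by simp [κ]
theorem sumκ {j : ZMod p} (hj : j ≠ 0) : ∑ a, κ j a = -p := by
  simp only [κ, sum_sub_distrib, conjψ, show ∀ a : ZMod p, -(j * a) = a * -j from fun a => by ring]
  rw [sumψ, if_neg (neg_ne_zero.2 hj)]; simp

theorem sumω {ω : ℂ} (h : ω ^ p = 1) (j : ZMod p) :
    ∑ a : ZMod p, ω ^ a.val * conj (ψ (j * a)) = if ω = ψ j then (p : ℂ) else 0 := by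
  have e1 : ∀ a : ZMod p, ω ^ a.val * conj (ψ (j * a)) = (ω * ψ (-j)) ^ a.val := fun a => by
    rw [conjψ, mul_pow, ← AddChar.map_nsmul_eq_pow, nsmul_eq_mul, ZMod.natCast_zmod_val]; congr 2; ring
  have e2 : ψ j * ψ (-j) = 1 := by rw [← AddChar.map_add_eq_mul]; simp
  have e3 : ∑ a : ZMod p, (ω * ψ (-j)) ^ a.val = ∑ i ∈ range p, (ω * ψ (-j)) ^ i := by
    obtain ⟨n, rfl⟩ : ∃ n, p = n + 1 := ⟨p - 1, by have := hp.out.pos; omega⟩
    exact Fin.sum_univ_eq_sum_range (fun i => (ω * ψ (-j)) ^ i) (n + 1)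
  simp only [e1, e3]
  split_ifs with c
  · simp [c, e2]
  · have : (ω * ψ (-j)) ≠ 1 := fun e => c (by rw [← mul_one ω, ← e2, mul_left_comm, e, mul_one])
    rw [geom_sum_eq this, mul_pow, h, ← AddChar.map_nsmul_eq_pow]; simp

namespace Syl
variable (h : Syl p x)
include h

theorem xpp : x ^ p = 1 := h.ord ▸ pow_orderOf_eq_one x
theorem xp_nat (n : ℕ) : xp x (n : ZMod p) = x ^ n := by rw [xp, ZMod.val_natCast, ← pow_eq_pow_mod _ h.xpp]
theorem xp_add (a b : ZMod p) : xp x (a + b) = xp x a * xp x b := by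
  rw [xp, xp, xp, ← pow_add, ZMod.val_add, ← pow_eq_pow_mod _ h.xpp]
theorem xp_mul (a b : ZMod p) : xp x (a * b) = xp x a ^ b.val := by
  rw [xp, xp, ← pow_mul, ZMod.val_mul, ← pow_eq_pow_mod _ h.xpp]
theorem xp_zero : xp x (0 : ZMod p) = 1 := by simp [xp]
theorem xp_one : xp x (1 : ZMod p) = x := by simpa using h.xp_nat 1
theorem xp_neg (a : ZMod p) : xp x (-a) = (xp x a)⁻¹ :=
  eq_inv_of_mul_eq_one_left (by rw [← h.xp_add, neg_add_cancel, h.xp_zero])
theorem xp_inj {a b : ZMod p} (e : xp x a = xp x b) : a = b := ZMod.val_injective p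
  (pow_injOn_Iio_orderOf (h.ord ▸ ZMod.val_lt a) (h.ord ▸ ZMod.val_lt b) e)
theorem xp_ne {a : ZMod p} (ha : a ≠ 0) : xp x a ≠ 1 := fun e => ha (h.xp_inj (e.trans h.xp_zero.symm))
theorem pelt (a : ZMod p) : PElt p (xp x a) := ⟨1, by rw [pow_one, xp, ← pow_mul, mul_comm, pow_mul, h.xpp, one_pow]⟩
theorem back {a : ZMod p} (ha : a ≠ 0) : xp x a ^ (a⁻¹).val = x := by rw [← h.xp_mul, mul_inv_cancel₀ ha, h.xp_one]
theorem cx {a : ZMod p} (ha : a ≠ 0) : Cx(xp x a) = Cx(x) := by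
  ext g
  rw [mem_Cx, mem_Cx]
  exact ⟨fun e => h.back ha ▸ (Commute.pow_right e _).eq, fun e => (Commute.pow_right e _).eq⟩
theorem sylC : SylIn p (zpowers x) Cx(x) :=
  h.syl.mono (zpowers_le.2 (mem_Cx.2 rfl)) le_top
theorem pnil : PNil p Cx(x) := burnside_pNil h.sylC (inf_le_left.trans (Cz_zpowers x).ge)
theorem E_ne {t : ZMod p} (ht : E x t) : t ≠ 0 := by
  rintro rfl
  rw [E, h.xp_zero, isConj_one_left] at ht
  exact h.xp_ne one_ne_zero (h.xp_one.trans ht)
theorem conj_iff {a b : ZMod p} (ha : a ≠ 0) : IsConj (xp x a) (xp x b) ↔ E x (b * a⁻¹) := by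
  refine ⟨fun c => ?_, fun c => ?_⟩
  · have := c.pow (a⁻¹).val
    rwa [h.back ha, ← h.xp_mul] at this
  · have := c.pow a.val
    rwa [← h.xp_mul, inv_mul_cancel_right₀ ha] at this

theorem F_eq {χ : G → ℂ} (hχ : IsCharacter G χ) (j : ZMod p) : F x χ j = p * m x χ j := by
  classical
  obtain ⟨d, μ, -, h1, h2⟩ := CfH5.char_eq_sum_roots hχ x hp.out.ne_zero h.xpp
  have : F x χ j = p * (univ.filter fun i => μ i = ψ j).card := by
    simp only [F, xp, h2, sum_mul]
    rw [sum_comm]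
    simp only [sumω (h1 _), ← sum_filter, sum_const, nsmul_eq_mul, mul_comm]
  rw [m, this, mul_div_cancel_left₀ _ pne]; simp

theorem deg_eq {χ : G → ℂ} (hχ : IsCharacter G χ) : deg χ = ∑ j : ZMod p, m x χ j := by
  have : ∑ j : ZMod p, F x χ j = p * χ 1 := by
    simp only [F, conjψ, show ∀ j a : ZMod p, -(j * a) = j * -a from fun j a => by ring]
    rw [sum_comm]
    simp only [← mul_sum, sumψ, neg_eq_zero, mul_ite, mul_zero, sum_ite_eq', mem_univ, if_true, h.xp_zero]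
    exact mul_comm _ _
  simp only [h.F_eq hχ, ← mul_sum, ← hχ.deg_eq] at this
  exact_mod_cast (mul_left_cancel₀ pne this).symm

theorem m_mul {χ : G → ℂ} (hχ : IsClassFunction G χ) (j : ZMod p) {t : ZMod p} (ht : E x t) :
    m x χ (j * t) = m x χ j := by
  have : F x χ (j * t) = F x χ j := Fintype.sum_equiv (Equiv.mulLeft₀ t (h.E_ne ht)) _ _ fun a => by
    have := hχ.of_isConj (ht.pow a.val)
    rw [← h.xp_mul] at this
    rw [Equiv.mulLeft₀_apply, ← this, mul_assoc]; rfl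
  rw [m, m, this]

open Classical in
theorem pu (j : ZMod p) (χ : IrrCharacter G) :
    (p : ℂ) * u x j χ = if χ ∈ B0 p G then ∑ a, (χ : G → ℂ) (xp x a) * κ j a else 0 := by
  rw [u]; split_ifs
  · push_cast
    rw [mul_sub, ← h.F_eq χ.2.isCharacter, ← h.F_eq χ.2.isCharacter, F, F, ← sum_sub_distrib]
    simp [κ, mul_sub]
  · simp

theorem sum_u (j : ZMod p) (f : IrrCharacter G → ℂ) :
    p * ∑ χ, u x j χ * f χ = ∑ a, κ j a * ∑ χ ∈ B0 p G, (χ : G → ℂ) (xp x a) * f χ := by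
  classical
  simp only [mul_sum, ← mul_assoc, h.pu, ite_mul, zero_mul, ← sum_filter, filter_mem_eq_inter, univ_inter, sum_mul]
  rw [sum_comm]
  simp only [mul_comm (κ j _)]

theorem u_triv {j : ZMod p} (hj : j ≠ 0) : u x j (triv G) = -1 := by
  have := h.pu j (triv G)
  rw [if_pos (triv_mem_B0 hp.out)] at this
  simp only [triv_apply, one_mul, sumκ hj] at this
  exact_mod_cast (mul_left_cancel₀ pne (this.trans (mul_neg_one _).symm) : ((u x j (triv G) : ℤ) : ℂ) = -1)

open Classical in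
theorem col {a : ZMod p} (ha : a ≠ 0) (b : ZMod p) : ∑ χ ∈ B0 p G, (χ : G → ℂ) (xp x a) * conj ((χ : G → ℂ) (xp x b)) =
    if E x (b * a⁻¹) then (p : ℂ) else 0 := by
  rw [← h.conj_iff ha]
  split_ifs with c
  · rw [sum_B0_of_pNil (h.pelt a) (h.cx ha ▸ h.pnil) (h.cx ha ▸ h.sylC) c, Nat.card_zpowers, h.ord]
  · simpa using blk_orth hp.out (h.pelt a) PReg.one (Commute.one_right _) (h.pelt b) PReg.one (Commute.one_right _) c

open Classical in
theorem gram {j l : ZMod p} (hj : j ≠ 0) (hl : l ≠ 0) :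
    ∑ χ, u x j χ * u x l χ = e p x + if E x (j * l⁻¹) then 1 else 0 := by
  have h1 := h.sum_u j fun χ => p * u x l χ
  have h2 : ∀ a, κ j a * ∑ χ ∈ B0 p G, (χ : G → ℂ) (xp x a) * ((p : ℂ) * u x l χ) =
      ∑ t ∈ univ.filter (E x), p * (κ j a * conj (κ l (t * a))) := fun a => by
    by_cases ha : a = 0
    · simp [ha, κ_zero]
    have : ∀ χ ∈ B0 p G, (χ : G → ℂ) (xp x a) * ((p : ℂ) * u x l χ) =
        ∑ b, conj (κ l b) * ((χ : G → ℂ) (xp x a) * conj ((χ : G → ℂ) (xp x b))) := fun χ hχ => by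
      have := congrArg conj (h.pu l χ)
      rw [if_pos hχ, map_mul, map_natCast, map_intCast, map_sum] at this
      rw [this, mul_sum]
      exact sum_congr rfl fun b _ => by rw [map_mul]; ring
    rw [sum_congr rfl this, sum_comm]
    simp only [← mul_sum, h.col ha]
    rw [mul_left_comm, mul_sum, mul_sum, sum_filter, mul_sum]
    refine (Fintype.sum_equiv (Equiv.mulRight₀ a ha) _ _ fun t => ?_).symm
    rw [Equiv.mulRight₀_apply, mul_inv_cancel_right₀ ha]
    split_ifs <;> ring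
  have h3 : ∀ t ∈ univ.filter (E x), ∑ a, (p : ℂ) * (κ j a * conj (κ l (t * a))) =
      p * p * (1 + if t = j * l⁻¹ then 1 else 0) := fun t ht => by
    have t0 := h.E_ne (mem_filter.1 ht).2
    have : ∀ a, κ j a * conj (κ l (t * a)) = ψ (a * (l * t - j)) - ψ (a * -j) - ψ (a * (l * t)) + 1 := fun a => by
      rw [κ, κ, map_sub, Complex.conj_conj, map_one, conjψ, show a * (l * t - j) = -(j * a) + l * (t * a) by ring,
        AddChar.map_add_eq_mul, show a * -j = -(j * a) by ring, show a * (l * t) = l * (t * a) by ring]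
      ring
    simp only [← mul_sum, this, sum_add_distrib, sum_sub_distrib, sumψ, neg_eq_zero, hj, mul_eq_zero, hl, t0,
      if_false, or_self, sum_const, card_univ, ZMod.card, nsmul_eq_mul, sub_eq_zero,
      show l * t = j ↔ t = j * l⁻¹ by rw [eq_mul_inv_iff_mul_eq₀ hl, mul_comm]]
    split_ifs <;> ring
  simp only [h2] at h1
  rw [sum_comm, sum_congr rfl h3, ← mul_sum, sum_add_distrib, sum_ite_eq', sum_const] at h1
  simp only [mul_left_comm _ (p : ℂ), ← mul_sum] at h1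
  rw [← mul_assoc] at h1
  have h4 := mul_left_cancel₀ (mul_ne_zero pne pne) h1
  have h5 : e p x = (univ.filter (E (p := p) x)).card := by rw [e, Nat.card_eq_fintype_card, Fintype.card_subtype]; rfl
  rw [h5]
  simp only [mem_filter, mem_univ, true_and, nsmul_eq_mul, mul_one] at h4
  exact_mod_cast h4

theorem lin (j : ZMod p) {g : G} (hg : PReg p g) : ∑ χ, u x j χ * (χ : G → ℂ) g = 0 := by
  have h1 := h.sum_u j fun χ => conj ((χ : G → ℂ) g)
  rw [sum_eq_zero (s := univ) (f := fun a => κ j a * _) fun a _ => by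
    by_cases ha : a = 0
    · simp [ha, κ_zero]
    · have := blk_orth hp.out (h.pelt a) PReg.one (Commute.one_right _) PElt.one hg (Commute.one_left _)
        (by rw [isConj_one_left]; exact h.xp_ne ha)
      simp only [mul_one, one_mul] at this
      rw [this, mul_zero]] at h1
  simpa using congrArg conj ((mul_eq_zero.1 h1).resolve_left pne)

theorem inK {s : G} (hs : s * s = 1) (hc : Commute x s) (p2 : p ≠ 2) {χ : IrrCharacter G} (hχ : χ ∈ B0 p G)
    (j : ZMod p) : ∃ n ≤ m x χ j, (χ : G → ℂ) 1 - (χ : G → ℂ) s = 2 * p * n := by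
  classical
  obtain ⟨k, hk⟩ := hp.out.odd_of_ne_two p2
  have s2 : s ^ 2 = 1 := by rw [sq, hs]
  have g1 : (x * s) ^ (p + 1) = x := by
    rw [hc.mul_pow, pow_succ, h.xpp, one_mul, hk, show 2 * k + 1 + 1 = 2 * (k + 1) by ring, pow_mul, s2, one_pow, mul_one]
  have g2 : (x * s) ^ p = s := by
    rw [hc.mul_pow, h.xpp, one_mul]; conv_lhs => rw [hk, pow_succ, pow_mul, s2, one_pow, one_mul]
  obtain ⟨d, μ, -, h1, h2⟩ := CfH5.char_eq_sum_roots χ.2.isCharacter (x * s) (n := p * 2)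
    (mul_ne_zero hp.out.ne_zero two_ne_zero) (by rw [pow_mul, g2, s2])
  have a1 : ∀ a : ZMod p, (χ : G → ℂ) (xp x a) = ∑ i, (μ i ^ (p + 1)) ^ a.val := fun a => by
    simp only [← pow_mul]; rw [← h2, pow_mul, g1, xp]
  have a2 : ∀ a : ZMod p, (χ : G → ℂ) (xp x a * s) = ∑ i, μ i ^ p * (μ i ^ (p + 1)) ^ a.val := fun a => by
    simp only [← pow_mul, ← pow_add]; rw [← h2, add_comm, pow_add, pow_mul, g1, g2, xp]
  have w : ∀ i, (μ i ^ (p + 1)) ^ p = 1 := fun i => by
    rw [← pow_mul, show (p + 1) * p = p * 2 * (k + 1) by rw [hk]; ring, pow_mul, h1, one_pow]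
  have b1 : (p : ℂ) * m x χ j = p * (univ.filter fun i => μ i ^ (p + 1) = ψ j).card := by
    rw [← h.F_eq χ.2.isCharacter]
    simp only [F, a1, sum_mul]
    rw [sum_comm]
    simp only [sumω (w _), ← sum_filter, sum_const, nsmul_eq_mul, mul_comm]
  refine ⟨(univ.filter fun i => μ i ^ p = -1 ∧ μ i ^ (p + 1) = ψ j).card, ?_, ?_⟩
  · rw [show m x χ j = _ from by exact_mod_cast mul_left_cancel₀ pne b1]
    exact card_le_card fun i hi => by simp only [mem_filter, mem_univ, true_and] at hi ⊢; exact hi.2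
  have b2 : ∑ a : ZMod p, ((χ : G → ℂ) (xp x a) - (χ : G → ℂ) (xp x a * s)) * conj (ψ (j * a)) =
      (χ : G → ℂ) 1 - (χ : G → ℂ) s := by
    rw [sum_eq_single 0 _ (by simp)]
    · simp [h.xp_zero]
    · intro a _ ha
      rw [B0_apply_of_pNil (h.pelt a) (h.cx ha ▸ h.pnil) hχ (Nat.Coprime.coprime_dvd_left (orderOf_dvd_of_pow_eq_one s2)
        ((Nat.coprime_primes Nat.prime_two hp.out).2 p2.symm)) (show Commute (xp x a) s from hc.pow_left _) (IsConj.refl _), sub_self, zero_mul]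
  rw [← b2]
  simp only [a1, a2, ← sum_sub_distrib, sum_mul, ← one_sub_mul, mul_assoc]
  rw [sum_comm]
  simp only [← mul_sum, sumω (w _)]
  simp only [card_filter, Nat.cast_sum, mul_sum]
  refine sum_congr rfl fun i _ => ?_
  rcases sq_eq_one_iff.1 (show (μ i ^ p) ^ 2 = 1 by rw [← pow_mul, h1]) with c | c <;>
    by_cases c' : μ i ^ (p + 1) = ψ j <;> simp [c, c'] <;> norm_num

theorem K1 (hc : Nat.card Cx(x) = p) {χ : IrrCharacter G} (hχ : χ ∉ B0 p G) (j : ZMod p) : m x χ j = m x χ (0 : ZMod p) := by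
  classical
  have : ∀ a : ZMod p, a ≠ 0 → (χ : G → ℂ) (xp x a) = 0 := fun a ha => by
    have h1 := h.col ha a
    rw [if_pos ((h.conj_iff ha).1 (IsConj.refl _))] at h1
    have h2 := sum_irr_mul_conj_self (xp x a)
    rw [show centralizer {xp x a} = Cx(x) from h.cx ha, hc, ← sum_add_sum_compl (B0 p G), h1, add_eq_left] at h2
    simp only [Complex.mul_conj, ← Complex.ofReal_sum, Complex.ofReal_eq_zero] at h2
    exact Complex.normSq_eq_zero.1 ((sum_eq_zero_iff_of_nonneg fun _ _ => Complex.normSq_nonneg _).1 h2 χ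
      (mem_compl.2 hχ))
  have e : ∀ j : ZMod p, F x χ j = (χ : G → ℂ) 1 := fun j => by
    rw [F, sum_eq_single 0 (fun a _ ha => by rw [this a ha, zero_mul]) (by simp)]; simp [h.xp_zero]
  rw [m, m, e, e]

theorem BT {q : ℕ} [hq : Fact q.Prime] {y : G} (h' : Syl q y) (ne : p ≠ q)
    (no : ∀ z s : G, IsConj x z → Commute z s → PReg p s → PReg q s) (j : ZMod p) (l : ZMod q) :
    ∑ χ, u x j χ * u y l χ = 0 := by
  classical
  have := Fintype.ofFinite G
  have h1 := h.sum_u j fun χ => q * u y l χ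
  rw [sum_eq_zero (s := univ) (f := fun a => κ j a * _) fun a _ => ?_] at h1
  · simp only [mul_left_comm _ (q : ℂ), ← mul_sum] at h1
    exact_mod_cast (mul_eq_zero.1 ((mul_eq_zero.1 h1).resolve_left pne)).resolve_left pne
  by_cases ha : a = 0
  · simp [ha, κ_zero]
  have := proj0_eq_zero hp.out (h.pelt a) PReg.one (Commute.one_right _)
    (θ := ∑ χ : IrrCharacter G, ((q : ℂ) * u y l χ) • (χ : G → ℂ)) fun z s hz hs hc hzz => by
      have c1 : IsConj x (z ^ (a⁻¹).val) := h.back ha ▸ hzz.pow _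
      have r1 : PReg q z := by
        obtain ⟨k, hk⟩ := hz
        exact Nat.Coprime.coprime_dvd_left (orderOf_dvd_of_pow_eq_one hk)
          (Nat.Coprime.pow_left _ ((Nat.coprime_primes hp.out hq.out).2 ne))
      have := h'.lin l (r1.mul (no _ s c1 (hc.pow_left _) hs) hc)
      simp only [Finset.sum_apply, Pi.smul_apply, smul_eq_mul, mul_assoc, ← mul_sum, this, mul_zero]
  simp only [proj0_apply, classInner_sum_irr, mul_one] at this
  rw [sum_congr rfl fun χ _ => mul_comm _ _, this, mul_zero]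

/-- elements conjugating `s` to an involution inverting `x` -/
def A (x s : G) : Set G := {g | g * s * g⁻¹ * x = x⁻¹ * (g * s * g⁻¹)}

theorem quad1 {s : G} (hs : s * s = 1) (p2 : p ≠ 2) {a : ZMod p} (ha : a ≠ 0) :
    Nat.card Cx(x) * Nat.card G * ∑ χ ∈ B0 p G, (χ : G → ℂ) (xp x a) *
      conj ((χ : G → ℂ) s * (χ : G → ℂ) s / (χ : G → ℂ) 1) = (Nat.card (A x s) : ℂ) ^ 2 := by
  classical
  have := Fintype.ofFinite G
  set K := pPrimeCoreOf p Cx(x) with hK
  have k1 : (Nat.card K).Coprime p := coprime_card_pPrimeCoreOf _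
  have k2 : K ≤ Cx(x) := pPrimeCoreOf_le _
  have k3 : Cx(x) ≤ Nm(K) := le_normalizer_pPrimeCoreOf _
  have kc : Nat.card Cx(x) = p * Nat.card K := by
    have h2 := card_sup_mul_card_inf (h.sylC.le.trans k3)
    rwa [sup_comm, h.pnil.sup_eq h.sylC, (disjoint_of_isPGroup_of_coprime h.sylC.pgrp k1).eq_bot, card_bot, mul_one,
      Nat.card_zpowers, h.ord] at h2
  let y : G × G → G := fun g => g.1 * s * g.1⁻¹ * (g.2 * s * g.2⁻¹)
  let θ : G → ℂ := fun w => ∑ g : G × G, if y g = w then 1 else 0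
  have cθ : IsClassFunction G θ := fun w t =>
    (Fintype.sum_equiv ((Equiv.mulLeft t).prodCongr (Equiv.mulLeft t)) _ _ fun g => by
      refine if_congr ?_ rfl rfl
      rw [show y (((Equiv.mulLeft t).prodCongr (Equiv.mulLeft t)) g) = t * y g * t⁻¹ by simp [y]; group]
      simp).symm
  have h1 := proj0_eq_avg_of_centralizer hp.out (h.pelt a) k1 (k2.trans (h.cx ha).ge) ((h.cx ha).le.trans k3)
    (fun g hg hc => h.pnil.mem_pPrimeCoreOf ((h.cx ha).le (mem_Cx.2 hc.eq.symm)) hg) cθ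
  have h2 : ∀ χ : IrrCharacter G, classInner θ χ =
      Nat.card G * conj ((χ : G → ℂ) s * (χ : G → ℂ) s / (χ : G → ℂ) 1) := fun χ => by
    simp only [classInner, θ, sum_mul, ite_mul, one_mul, zero_mul]
    rw [sum_comm]
    simp only [sum_ite_eq, mem_univ, if_true, ← map_sum]
    rw [Fintype.sum_prod_type_right]
    simp only [y, CfH5.irr_sum_conj_mul_conj χ.2, map_mul, map_pow, map_natCast]
    field_simp [(natCard_ne_zero' : (Nat.card G : ℂ) ≠ 0)]
  -- pairs
  let P : ZMod p → Finset (G × G) := fun b => univ.filter fun g => g.1 ∈ A x s ∧ g.2 ∈ A x s ∧ (xp x b)⁻¹ * y g ∈ K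
  have inv2 : ∀ g : G, g * s * g⁻¹ * (g * s * g⁻¹) = 1 := fun g => by
    rw [show g * s * g⁻¹ * (g * s * g⁻¹) = g * (s * s) * g⁻¹ by group, hs]; group
  have h3 : ∑ k : K, θ (xp x a * k) = (P a).card := by
    simp only [θ]
    rw [sum_comm, card_filter, Nat.cast_sum]
    refine sum_congr rfl fun g _ => ?_
    by_cases c : (xp x a)⁻¹ * y g ∈ K
    · have e0 : y g = xp x a * ((xp x a)⁻¹ * y g) := by group
      have cm : Commute (xp x a) ((xp x a)⁻¹ * y g) := (mem_Cx.1 ((h.cx ha).ge (k2 c))).symm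
      have rg : PReg p ((xp x a)⁻¹ * y g) := Nat.Coprime.coprime_dvd_left (orderOf_dvd_natCard K c) k1
      have iv : ∀ t : G, t * t = 1 → t * y g * t⁻¹ = (y g)⁻¹ → t * x = x⁻¹ * t := fun t t2 ht => by
        have := (conj_pPart (h.pelt a) rg cm (h.pelt (-a)) rg.inv (h.xp_neg a ▸ cm.inv_inv)
          (by rw [← e0, ht, h.xp_neg, ← mul_inv_rev, ← cm.eq, ← e0])).1
        have := congrArg (· ^ (a⁻¹).val) this
        simp only [conj_pow, h.back ha, h.xp_neg, inv_pow] at this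
        rw [← this, inv_mul_cancel_right]
      have i1 : g.1 ∈ A x s := iv _ (inv2 _) (by
        simp only [y]
        rw [← mul_assoc, inv2, one_mul, mul_inv_rev (g.1 * s * g.1⁻¹), inv_eq_of_mul_eq_one_right (inv2 g.2)])
      have i2 : g.2 ∈ A x s := iv _ (inv2 _) (by
        simp only [y]
        rw [mul_assoc, mul_inv_cancel_right, mul_inv_rev (g.1 * s * g.1⁻¹), inv_eq_of_mul_eq_one_right (inv2 g.2),
          inv_eq_of_mul_eq_one_right (inv2 g.1)])
      rw [sum_eq_single ⟨_, c⟩ (fun k _ hk => if_neg fun e => hk (Subtype.ext (by simp [e]))) (by simp), if_pos e0,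
        if_pos ⟨i1, i2, c⟩, Nat.cast_one]
    · rw [if_neg fun e => c e.2.2, Nat.cast_zero]
      exact sum_eq_zero fun k _ => if_neg fun e => c (by simp [e])
  have iv : ∀ g ∈ A x s, ∀ b : ZMod p, g * s * g⁻¹ * xp x b = (xp x b)⁻¹ * (g * s * g⁻¹) := fun g hg b => by
    rw [xp, ← inv_pow]; exact (SemiconjBy.pow_right hg _).eq
  have sh : ∀ g ∈ A x s, ∀ b : ZMod p, xp x b * g * s * (xp x b * g)⁻¹ = xp x (b + b) * (g * s * g⁻¹) := fun g hg b => by
    rw [h.xp_add, show xp x b * g * s * (xp x b * g)⁻¹ = xp x b * (g * s * g⁻¹ * (xp x b)⁻¹) by group, ← h.xp_neg,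
      iv g hg, h.xp_neg]
    group
  have shA : ∀ g ∈ A x s, ∀ b : ZMod p, xp x b * g ∈ A x s := fun g hg b => by
    show _ * x = x⁻¹ * _
    rw [sh g hg, mul_assoc, show _ * x = _ from hg, ← mul_assoc, ← mul_assoc x⁻¹,
      (show Commute (xp x (b + b)) x from (Commute.refl x).pow_left _).inv_right.eq]
  have h4 : ∀ b c : ZMod p, (P b).card ≤ (P c).card := fun b c => by
    have t2 : (2 : ZMod p) ≠ 0 := fun e => p2 ((Nat.prime_dvd_prime_iff_eq hp.out Nat.prime_two).1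
      ((ZMod.natCast_eq_zero_iff 2 p).1 e))
    refine card_le_card_of_injOn (fun g => (xp x ((c - b) / 2) * g.1, g.2)) (fun g hg => ?_) fun g _ g' _ e => ?_
    · simp only [P, coe_filter, mem_univ, true_and, Set.mem_ofPred_eq] at hg ⊢
      refine ⟨shA _ hg.1 _, hg.2.1, ?_⟩
      simp only [y] at hg ⊢
      rw [sh _ hg.1, ← two_mul, mul_div_cancel₀ _ t2, mul_assoc (xp x _), ← mul_assoc, ← h.xp_neg, ← h.xp_add,
        show -c + (c - b) = -b by ring, h.xp_neg]
      exact hg.2.2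
    · simp only [Prod.mk.injEq, mul_right_inj] at e
      exact Prod.ext e.1 e.2
  have h5 : ∑ b, (P b).card = Nat.card (A x s) ^ 2 := by
    rw [← card_biUnion, sq, ← Nat.card_prod, Nat.card_congr (Equiv.Set.prod _ _).symm, Nat.card_eq_card_toFinset]
    · congr 1
      ext g
      simp only [P, mem_biUnion, mem_filter, mem_univ, true_and, Set.mem_toFinset, Set.mem_prod]
      refine ⟨fun ⟨_, a, b, _⟩ => ⟨a, b⟩, fun ⟨a, b⟩ => ?_⟩
      have c : y g ∈ Cx(x) := mem_Cx.2 (by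
        simp only [y]
        rw [mul_assoc, show _ * x = _ from b, ← mul_assoc, ← h.xp_one, ← h.xp_neg, iv _ a, h.xp_neg]; group)
      rw [← h.pnil.sup_eq h.sylC, sup_comm, ← SetLike.mem_coe, coe_mul_of_left_le_normalizer_right _ _
        (h.sylC.le.trans k3)] at c
      obtain ⟨z, hz, k, hk, e⟩ := c
      obtain ⟨n, rfl⟩ := mem_powers_iff_mem_zpowers.2 hz
      exact ⟨n, a, b, by rw [h.xp_nat, ← e]; simpa using hk⟩
    · intro b _ c _ ne
      refine disjoint_left.2 fun g hb hc => ne ?_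
      have := K.mul_mem (mem_filter.1 hb).2.2.2 (K.inv_mem (mem_filter.1 hc).2.2.2)
      rw [show (xp x b)⁻¹ * y g * ((xp x c)⁻¹ * y g)⁻¹ = (xp x b)⁻¹ * xp x c by group, ← h.xp_neg, ← h.xp_add] at this
      have := (h.pelt _).eq_one (Nat.Coprime.coprime_dvd_left (orderOf_dvd_natCard K this) k1)
      exact (neg_add_eq_zero.1 (h.xp_inj (this.trans h.xp_zero.symm)))
  rw [sum_congr rfl fun b _ => (h4 b a).antisymm (h4 a b), sum_const, card_univ, ZMod.card, smul_eq_mul] at h5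
  rw [h3, proj0_apply] at h1
  simp only [h2, mul_assoc, ← mul_sum] at h1
  rw [← Nat.cast_pow, ← h5, kc, Nat.cast_mul, Nat.cast_mul, ← h1, mul_assoc, mul_assoc]
  simp only [mul_comm (conj _)]

theorem quad {s : G} (hs : s * s = 1) (p2 : p ≠ 2) {j : ZMod p} (hj : j ≠ 0) :
    Nat.card Cx(x) * Nat.card G * ∑ χ, u x j χ * conj ((χ : G → ℂ) s * (χ : G → ℂ) s / (χ : G → ℂ) 1) =
      -(Nat.card (A x s) : ℂ) ^ 2 := by
  refine mul_left_cancel₀ (pne (p := p)) ?_
  rw [mul_left_comm, h.sum_u, mul_sum, sum_congr rfl fun a _ => (show _ = κ j a * (Nat.card (A x s) : ℂ) ^ 2 by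
    by_cases ha : a = 0
    · simp [ha, κ_zero]
    · rw [mul_left_comm, h.quad1 hs p2 ha]), ← sum_mul, sumκ hj]
  ring

theorem A_dvd {s : G} (p2 : p ≠ 2) : p * Nat.card Cx(s) ∣ Nat.card (A x s) := by
  classical
  let H := zpowers x × Cx(s)
  letI : MulAction H (A x s) :=
    { smul := fun g a => ⟨g.1 * a * (g.2 : G)⁻¹, by
        obtain ⟨n, hn⟩ := mem_powers_iff_mem_zpowers.2 g.1.2
        have c : Commute (g.1 : G) x := hn ▸ (Commute.refl x).pow_left n
        show _ * x = x⁻¹ * _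
        rw [show (g.1 : G) * a * (g.2 : G)⁻¹ * s * ((g.1 : G) * a * (g.2 : G)⁻¹)⁻¹ =
          g.1 * (a * ((g.2 : G)⁻¹ * s * g.2) * (a : G)⁻¹) * (g.1 : G)⁻¹ by group, mul_assoc (g.2 : G)⁻¹,
          ← mem_Cx.1 g.2.2, inv_mul_cancel_left, mul_assoc, c.inv_left.eq, ← mul_assoc, mul_assoc (g.1 : G),
          show _ * x = _ from a.2, ← mul_assoc, c.inv_right.eq]
        group⟩
      one_smul := fun a => Subtype.ext (show (1 : G) * a * 1⁻¹ = a by simp)
      mul_smul := fun g g' a => Subtype.ext (show (g.1 : G) * g'.1 * a * ((g.2 : G) * g'.2)⁻¹ =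
        g.1 * (g'.1 * a * (g'.2 : G)⁻¹) * (g.2 : G)⁻¹ by group) }
  have fr : ∀ a : A x s, MulAction.stabilizer H a = ⊥ := fun a => (eq_bot_iff_forall _).2 fun g hg => by
    have e : (g.1 : G) * a * (g.2 : G)⁻¹ = a := congrArg Subtype.val hg
    obtain ⟨n, hn⟩ := mem_powers_iff_mem_zpowers.2 g.1.2
    have e1 : (g.1 : G) = a * g.2 * (a : G)⁻¹ := by rw [eq_mul_inv_iff_mul_eq, ← mul_inv_eq_iff_eq_mul, e]
    have e2 : (a : G) * s * (a : G)⁻¹ * g.1 = (g.1 : G)⁻¹ * (a * s * (a : G)⁻¹) := by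
      rw [← hn, ← inv_pow]; exact (SemiconjBy.pow_right a.2 n).eq
    have e3 : (a : G) * s * (a : G)⁻¹ * g.1 = g.1 * (a * s * (a : G)⁻¹) := by
      rw [e1, show (a : G) * s * (a : G)⁻¹ * (a * g.2 * (a : G)⁻¹) = a * (s * g.2) * (a : G)⁻¹ by group,
        ← mem_Cx.1 g.2.2]; group
    have e4 : (g.1 : G) ^ 2 = 1 := by
      rw [sq]; nth_rewrite 1 [← mul_right_cancel (e2.symm.trans e3)]; simp
    have e5 : (g.1 : G) = 1 := (pow_eq_one_iff_of_coprime ((Nat.coprime_primes Nat.prime_two hp.out).2 p2.symm)).1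
      ⟨e4, by rw [← hn, ← pow_mul, mul_comm, pow_mul, h.xpp, one_pow]⟩
    rw [e5, one_mul, mul_eq_left, inv_eq_one] at e
    exact Prod.ext (Subtype.ext e5) (Subtype.ext e)
  rw [Nat.card_congr (MulAction.selfEquivOrbitsQuotientProd fr), Nat.card_prod, Nat.card_prod, Nat.card_zpowers, h.ord]
  exact dvd_mul_left _ _

end Syl
end CfH4.D1
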