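import Cfsg.Agent.H4.Mc9
import Cfsg.Agent.H8.PA1
import Cfsg.Agent.H8.PA2
import Cfsg.Agent.H7.PA3
import Cfsg.Agent.H8.PA4
import Cfsg.Agent.H9.P5b
import Cfsg.Agent.H1.MB1c
import Cfsg.Agent.H1.MB2
import Cfsg.Agent.H8.MB3
import Cfsg.Agent.H8.MC
/-! A simple group of order `443520` is `M₂₂`. -/
namespace CfH4.M22
universe u

theorem pa : PA.{u} :=
  @PA.pa' CfH8.PA.p1 CfH8.PA.p2 CfH7.PA.p3 CfH8.PA.p4 CfH9.PA.p5 En.n11_ok En.nm_ok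

theorem iso {G : Type u} [Group G] [Finite G] (hG : Cfsg.IsM22 G) : Cfsg.Spor.IsoM22 G :=
  final pa CfH1.MB1.pb1 CfH1.MB2.pb2 CfH8.M2.pb3 CfH8.M2.pc hG

end CfH4.M22
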