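import Cfsg.Agent.H4.Mc2
/-! Corrected statements of two steps. -/
set_option autoImplicit false
open Cfsg CfH4 CfH4.GA CfH9 CfH4.D1 Subgroup Finset
namespace CfH4.PA
universe u

/-- the cases `e = 2` -/
def P3' : Prop := P1.{u} → ∀ {G : Type u} [Group G] [Finite G], IsSimpleGroup G → Nat.card G = 443520 →
  (∀ x : G, orderOf x = 11 → e 11 x ≠ 2) ∧ ∀ y : G, orderOf y = 7 → ¬ 11 ∣ Nat.card Cx(y) → e 7 y ≠ 2
/-- glue -/
def P4' : Prop := P1.{u} → P2.{u} → P3'.{u} → N11.{u} → NM.{u} → ∀ {G : Type u} [Group G] [Finite G], IsSimpleGroup G →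
  Nat.card G = 443520 → ∃ x y w : G, Out x y w

theorem pa' (h1 : P1.{u}) (h2 : P2.{u}) (h3 : P3'.{u}) (h4 : P4'.{u}) (h5 : P5.{u}) (n1 : N11.{u}) (n2 : NM.{u}) :
    M22.PA.{u} := fun hs hG => by
  obtain ⟨x, y, w, h⟩ := h4 h1 h2 h3 n1 n2 hs hG
  exact h5 h1 h2 hs hG x y w h

end CfH4.PA
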