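import Cfsg.Agent.H3.He0
/-! A search engine for systems of degrees, block vectors and character values. -/
set_option autoImplicit false
set_option linter.unusedSimpArgs false
open Finset CfH3.He
namespace CfH4.En

abbrev U := ℤ × ℤ
abbrev R := ℕ × List U
abbrev B3 := ℕ × ℕ × ℕ
abbrev Wt := ℕ × ℕ × List ℤ

section tools
variable {α β γ : Type}
noncomputable def lall (l : List α) (p : α → Bool) : Bool := List.rec true (fun a _ ih => Bool.rec false ih (p a)) l
noncomputable def app (l m : List α) : List α := List.rec m (fun a _ ih => a :: ih) l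
noncomputable def fm (l : List α) (f : α → List β) : List β := List.rec [] (fun a _ ih => app (f a) ih) l
noncomputable def mp (l : List α) (f : α → β) : List β := List.rec [] (fun a _ ih => f a :: ih) l
noncomputable def flt (l : List α) (p : α → Bool) : List α := List.rec [] (fun a _ ih => Bool.rec ih (a :: ih) (p a)) l
noncomputable def fl (fe : α → (α → γ) → γ) (l : List α) : (List α → γ) → γ :=
  List.rec (fun k => k []) (fun a _ ih k => fe a fun a' => ih fun l' => k (a' :: l')) l
noncomputable def fi (z : ℤ) (k : ℤ → γ) : γ := Int.rec (fun n => frc n fun n => k (Int.ofNat n))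
  (fun n => frc n fun n => k (Int.negSucc n)) z
noncomputable def sm (l : List α) (f : α → ℤ) : ℤ := List.rec 0 (fun a _ ih => Int.add (f a) ih) l
noncomputable def dot (l : List α) (f : α → ℤ → ℤ) : List ℤ → ℤ :=
  List.rec (fun _ => 0) (fun a _ ih vs => List.rec 0 (fun v vs _ => Int.add (f a v) (ih vs)) vs) l
noncomputable def zall (l : List α) (f : α → ℤ → Bool) : List ℤ → Bool :=
  List.rec (fun _ => true) (fun a _ ih vs => List.rec true (fun v vs _ => Bool.rec false (ih vs) (f a v)) vs) l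

theorem lall_iff {l : List α} {p : α → Bool} : lall l p = true ↔ ∀ a ∈ l, p a = true := by
  induction l with
  | nil => simp [lall]
  | cons a l ih =>
    rw [List.forall_mem_cons, ← ih]
    show (Bool.rec false (lall l p) (p a) : Bool) = true ↔ _
    cases p a <;> simp
@[simp] theorem app_eq (l m : List α) : app l m = l ++ m := by
  induction l with
  | nil => rfl
  | cons a l ih => exact congrArg (a :: ·) ih
@[simp] theorem fm_eq (l : List α) (f : α → List β) : fm l f = l.flatMap f := by
  induction l with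
  | nil => rfl
  | cons a l ih => rw [List.flatMap_cons, ← ih, ← app_eq]; rfl
@[simp] theorem mp_eq (l : List α) (f : α → β) : mp l f = l.map f := by
  induction l with
  | nil => rfl
  | cons a l ih => exact congrArg (f a :: ·) ih
@[simp] theorem flt_eq (l : List α) (p : α → Bool) : flt l p = l.filter p := by
  induction l with
  | nil => rfl
  | cons a l ih =>
    show (Bool.rec (flt l p) (a :: flt l p) (p a) : List α) = _
    rw [List.filter_cons, ih]; cases p a <;> rfl
theorem fl_eq {fe : α → (α → γ) → γ} (h : ∀ a k, fe a k = k a) (l : List α) (k : List α → γ) : fl fe l k = k l := by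
  induction l generalizing k with
  | nil => rfl
  | cons a l ih =>
    show fe a (fun a' => fl fe l fun l' => k (a' :: l')) = _
    rw [h, ih]
@[simp] theorem fi_eq (z : ℤ) (k : ℤ → γ) : fi z k = k z := by
  cases z with
  | ofNat n => exact frc_eq n fun n => k (Int.ofNat n)
  | negSucc n => exact frc_eq n fun n => k (Int.negSucc n)
@[simp] theorem sm_eq (l : List α) (f : α → ℤ) : sm l f = (l.map f).sum := by
  induction l with
  | nil => rfl
  | cons a l ih => rw [List.map_cons, List.sum_cons, ← ih]; rfl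
theorem dot_map {ι : Type*} (X : List ι) (r : ι → α) (f : α → ℤ → ℤ) (v : ι → ℤ) :
    dot (X.map r) f (X.map v) = (X.map fun i => f (r i) (v i)).sum := by
  induction X with
  | nil => rfl
  | cons a l ih => rw [List.map_cons, List.map_cons, List.map_cons, List.sum_cons, ← ih]; rfl
theorem zall_map {ι : Type*} (X : List ι) (r : ι → α) (f : α → ℤ → Bool) (v : ι → ℤ)
    (h : ∀ i ∈ X, f (r i) (v i) = true) : zall (X.map r) f (X.map v) = true := by
  induction X with
  | nil => rfl
  | cons a l ih =>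
    show (Bool.rec false (zall (l.map r) f (l.map v)) (f (r a) (v a)) : Bool) = true
    rw [h a List.mem_cons_self, ih fun i hi => h i (List.mem_cons_of_mem _ hi)]
noncomputable def fw (W : List Wt) (k : List Wt → γ) : γ :=
  fl (fun w k => frc w.1 fun a => frc w.2.1 fun b => fl fi w.2.2 fun l => k (a, b, l)) W k
@[simp] theorem fw_eq (W : List Wt) (k : List Wt → γ) : fw W k = k W :=
  fl_eq (fun _ _ => by rw [frc_eq, frc_eq, fl_eq fi_eq]) _ _
end tools

noncomputable def ieq (a b : ℤ) : Bool := Int.rec (fun m => Int.rec (fun n => Nat.beq m n) (fun _ => false) b)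
  (fun m => Int.rec (fun _ => false) (fun n => Nat.beq m n) b) a
@[simp] theorem ieq_iff {a b : ℤ} : ieq a b = true ↔ a = b := by
  cases a <;> cases b <;> simp [ieq]
theorem ieq_eq (a b : ℤ) : ieq a b = decide (a = b) := by
  rw [Bool.eq_iff_iff, ieq_iff, decide_eq_true_iff]
def sq (z : ℤ) : ℕ := Nat.mul z.natAbs z.natAbs
theorem sq_pos {z : ℤ} (h : z ≠ 0) : 0 < sq z := Nat.mul_pos (Int.natAbs_pos.2 h) (Int.natAbs_pos.2 h)
def fits (w b : B3) : Bool := Nat.ble w.1 b.1 && (Nat.ble w.2.1 b.2.1 && Nat.ble w.2.2 b.2.2)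
noncomputable def sub3 {γ : Type} (b w : B3) (k : B3 → γ) : γ :=
  frc (Nat.sub b.1 w.1) fun x => frc (Nat.sub b.2.1 w.2.1) fun y => frc (Nat.sub b.2.2 w.2.2) fun z => k (x, y, z)
theorem sub3_add {γ : Type} (w b : B3) (k : B3 → γ) : sub3 (w + b) w k = k b := by
  simp [sub3, frc_eq]
theorem fits_add (w b : B3) : fits w (w + b) = true := by simp [fits]
def wu (u : U) : B3 := (sq u.1, sq u.2, sq (Int.sub u.1 u.2))

/-- all choices of a new vector for each record -/
noncomputable def dcA (dom : R → List U) (L : List R) : B3 → (List R → B3 → Bool) → Bool :=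
  List.rec (fun b k => k [] b) (fun r _ ih b k => lall (dom r) fun u => Bool.rec true
    (sub3 b (wu u) fun b' => ih b' fun M => k ((r.1, u :: r.2) :: M)) (fits (wu u) b)) L

theorem dcA_sound {ι : Type*} {dom : R → List U} (r : ι → R) (u : ι → U) (X : List ι) (h : ∀ i ∈ X, u i ∈ dom (r i))
    (b : B3) {k : List R → B3 → Bool} (H : dcA dom (X.map r) ((X.map fun i => wu (u i)).sum + b) k = true) :
    k (X.map fun i => ((r i).1, u i :: (r i).2)) b = true := by
  induction X generalizing k with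
  | nil => rw [List.map_nil, List.map_nil, List.sum_nil, zero_add] at H; exact H
  | cons a l ih =>
    have := lall_iff.1 H _ (h a List.mem_cons_self)
    rw [List.map_cons, List.sum_cons, add_assoc, fits_add] at this
    exact ih (fun i hi => h i (List.mem_cons_of_mem _ hi)) ((sub3_add _ _ _).symm.trans this)

/-- all multisets of items with exact first weight -/
noncomputable def msG {I : Type} (w : I → ℕ) (w' : I → B3) (ih : List I → ℕ → B3 → List I → Bool) (n : ℕ) (b : B3)
    (acc its : List I) : Bool :=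
  List.rec true (fun i r go => Bool.rec false go (Bool.rec true
    (frc (Nat.sub n (w i)) fun n' => sub3 b (w' i) fun b' => ih (i :: r) n' b' (i :: acc))
    (Nat.ble (w i) n && fits (w' i) b))) its
noncomputable def msA {I : Type} (w : I → ℕ) (w' : I → B3) (k : List I → B3 → Bool) (f : ℕ) :
    List I → ℕ → B3 → List I → Bool :=
  Nat.rec (fun _ _ b acc => k acc b) (fun _ ih its n b acc => Bool.rec (msG w w' ih n b acc its) (k acc b) (Nat.beq n 0)) f

theorem msA_sound {ι : Type*} {I : Type} {w : I → ℕ} {w' : I → B3} {k : List I → B3 → Bool} (t : ι → I) (f : ℕ) (b : B3) :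
    ∀ (N : List ι) (its acc : List I), (∀ i ∈ N, t i ∈ its ∧ 0 < w (t i)) → (N.map fun i => w (t i)).sum ≤ f →
      msA w w' k f its (N.map fun i => w (t i)).sum ((N.map fun i => w' (t i)).sum + b) acc = true →
      ∃ N' : List ι, N'.Perm N ∧ k (N'.map t ++ acc) b = true := by
  classical
  have nil : ∀ f its acc, msA w w' k f its 0 (0 + b) acc = true → k acc b = true := fun f its acc H => by
    rw [zero_add] at H; cases f <;> exact H
  induction f with
  | zero =>
    intro N its acc h1 h2 H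
    cases N with
    | nil => exact ⟨[], List.Perm.refl _, nil _ _ _ H⟩
    | cons a l => have := (h1 a List.mem_cons_self).2; simp at h2; omega
  | succ f ih =>
    intro N its acc h1 h2 H
    cases N with
    | nil => exact ⟨[], List.Perm.refl _, nil _ _ _ H⟩
    | cons a l =>
      have p0 : Nat.beq ((a :: l).map fun i => w (t i)).sum 0 = false :=
        Bool.eq_false_iff.2 fun e => by
          have := Nat.eq_of_beq_eq_true e
          have := (h1 a List.mem_cons_self).2
          simp only [List.map_cons, List.sum_cons] at *; omega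
      have ne : a :: l ≠ [] := List.cons_ne_nil _ _
      generalize a :: l = N at *
      change (Bool.rec (msG w w' (msA w w' k f) _ _ acc its) (k acc _) (Nat.beq _ 0) : Bool) = true at H
      rw [p0] at H
      change msG w w' (msA w w' k f) _ _ acc its = true at H
      induction its with
      | nil => obtain ⟨j, hj⟩ := List.exists_mem_of_ne_nil N ne; exact absurd (h1 j hj).1 List.not_mem_nil
      | cons i r ir =>
        have key : ∀ x y : Bool, (Bool.rec false x y : Bool) = true → x = true ∧ y = true := by decide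
        obtain ⟨H1, H2⟩ := key _ _ H
        by_cases c : ∃ j ∈ N, t j = i
        · obtain ⟨j, hj, rfl⟩ := c
          have pe := List.perm_cons_erase hj
          have hp := (h1 j hj).2
          rw [(pe.map _).sum_eq, List.map_cons, List.sum_cons] at h2
          rw [(pe.map fun i => w (t i)).sum_eq, (pe.map fun i => w' (t i)).sum_eq, List.map_cons, List.sum_cons,
            List.map_cons, List.sum_cons, add_assoc, fits_add, Nat.ble_eq_true_of_le (Nat.le_add_right _ _), frc_eq,
            sub3_add, Nat.sub_eq, Nat.add_sub_cancel_left] at H2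
          obtain ⟨N', p1, p2⟩ := ih (N.erase j) (t j :: r) (t j :: acc) (fun i hi => h1 i (List.mem_of_mem_erase hi))
            (by omega) H2
          exact ⟨N' ++ [j], (List.perm_append_singleton _ _).trans ((p1.cons j).trans pe.symm), by simpa using p2⟩
        · exact ir (fun j hj => ⟨(List.mem_cons.1 (h1 j hj).1).resolve_left fun e => c ⟨j, hj, e⟩, (h1 j hj).2⟩) H1

theorem msA_sound' {ι : Type*} {I : Type} {w : I → ℕ} {w' : I → B3} {k : List I → B3 → Bool} {n : ℕ} {its : List I} {B : B3}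
    (H : msA w w' k n its n B [] = true) (t : ι → I) (b : B3) (N : List ι) (h1 : ∀ i ∈ N, t i ∈ its ∧ 0 < w (t i))
    (hn : (N.map fun i => w (t i)).sum = n) (hB : (N.map fun i => w' (t i)).sum + b = B) :
    ∃ N' : List ι, N'.Perm N ∧ k (N'.map t) b = true := by
  subst hn hB
  simpa only [List.append_nil] using msA_sound t _ b N its [] h1 le_rfl H

/-- all value lists within a square budget and with a given linear combination -/
noncomputable def decor (L : List (List ℤ × ℤ)) : ℕ → ℤ → List (List ℤ) :=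
  List.rec (fun _ t => Bool.rec [] [[]] (ieq t 0)) (fun r tl ih sv t => List.rec
    (fm r.1 fun v => Bool.rec [] (Bool.rec [] [[v]] (Nat.ble (sq v) sv)) (ieq (Int.mul r.2 v) t))
    (fun _ _ _ => fm r.1 fun v => Bool.rec []
      (frc (Nat.sub sv (sq v)) fun sv' => fi (Int.sub t (Int.mul r.2 v)) fun t' => mp (ih sv' t') (v :: ·))
      (Nat.ble (sq v) sv)) tl) L

theorem decor_cons (r r' : List ℤ × ℤ) (L : List (List ℤ × ℤ)) (sv : ℕ) (t : ℤ) : decor (r :: r' :: L) sv t =
    fm r.1 fun v => Bool.rec [] (frc (Nat.sub sv (sq v)) fun sv' => fi (Int.sub t (Int.mul r.2 v)) fun t' =>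
      mp (decor (r' :: L) sv' t') (v :: ·)) (Nat.ble (sq v) sv) := rfl
theorem decor_one (r : List ℤ × ℤ) (sv : ℕ) (t : ℤ) : decor [r] sv t =
    fm r.1 fun v => Bool.rec [] (Bool.rec [] [[v]] (Nat.ble (sq v) sv)) (ieq (Int.mul r.2 v) t) := rfl

theorem decor_sound {ι : Type*} (dom : ι → List ℤ) (a v : ι → ℤ) (X : List ι) (h : ∀ i ∈ X, v i ∈ dom i) {sv : ℕ}
    (h1 : (X.map fun i => sq (v i)).sum ≤ sv) :
    X.map v ∈ decor (X.map fun i => (dom i, a i)) sv (X.map fun i => a i * v i).sum := by
  induction X generalizing sv with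
  | nil => exact List.mem_cons_self
  | cons x l ih =>
    rw [List.map_cons, List.sum_cons] at h1
    have hb : Nat.ble (sq (v x)) sv = true := Nat.ble_eq_true_of_le (by omega)
    cases l with
    | nil =>
      show _ ∈ decor [_] _ _
      rw [decor_one, fm_eq, List.mem_flatMap]
      refine ⟨v x, h x List.mem_cons_self, ?_⟩
      rw [hb, ieq_iff.2 (by exact (add_zero _).symm)]
      exact List.mem_cons_self
    | cons y l =>
      show _ ∈ decor (_ :: _ :: _) _ _
      rw [decor_cons, fm_eq, List.mem_flatMap]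
      refine ⟨v x, h x List.mem_cons_self, ?_⟩
      rw [hb, List.map_cons (f := fun i => a i * v i), List.sum_cons]
      simp only [frc_eq, fi_eq, mp_eq]
      refine List.mem_map.2 ⟨_, ?_, rfl⟩
      rw [show Int.sub (a x * v x + ((y :: l).map fun i => a i * v i).sum) (Int.mul (a x) (v x)) = _ from
        add_sub_cancel_left _ _]
      exact ih (fun i hi => h i (List.mem_cons_of_mem _ hi)) (Nat.le_sub_of_add_le' h1)

noncomputable def look (tb : List (ℕ × List U)) (d : ℕ) : List U :=
  List.rec [] (fun a _ ih => Bool.rec ih a.2 (Nat.beq a.1 d)) tb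
theorem look_mem {tb : List (ℕ × List U)} {d : ℕ} {u : U} (h : u ∈ look tb d) : ∃ x ∈ tb, x.1 = d ∧ u ∈ x.2 := by
  induction tb with
  | nil => exact absurd h List.not_mem_nil
  | cons a l ih =>
    change u ∈ (Bool.rec (look l d) a.2 (Nat.beq a.1 d) : List U) at h
    cases e : Nat.beq a.1 d <;> rw [e] at h
    · obtain ⟨x, hx, h'⟩ := ih h
      exact ⟨x, List.mem_cons_of_mem _ hx, h'⟩
    · exact ⟨a, List.mem_cons_self, Nat.eq_of_beq_eq_true e, h⟩

def hd (r : R) : U := r.2.headD 0
noncomputable def bt (M : List R) (k : ℕ) : Bool :=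
  ieq (sm M (fun r => (r.2.getD (k + 1) 0).1 * (hd r).1)) (-1) &&
  (ieq (sm M (fun r => (r.2.getD (k + 1) 0).1 * (hd r).2)) (-1) &&
  (ieq (sm M (fun r => (r.2.getD (k + 1) 0).2 * (hd r).1)) (-1) &&
  ieq (sm M (fun r => (r.2.getD (k + 1) 0).2 * (hd r).2)) (-1)))

noncomputable def items (tb : List (ℕ × List U)) (dv : ℕ) (zs : List U) (ex : Bool) : List R :=
  fm (flt tb fun x => Nat.beq (x.1 % dv) 0) fun x => mp (flt x.2 fun u => ieq u.1 u.2 != ex) fun u => (x.1, u :: zs)

noncomputable def extL (g p e K : ℕ) (tb : List (ℕ × List U)) (dv : ℕ) (zs : List U) (bi : List ℕ) (L : List R)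
    (k : List R → List R → List R → Bool) : Bool :=
  dcA (fun r => Bool.rec (0 :: look tb r.1) (look tb r.1) (Nat.beq K 1 && !Nat.beq (r.1 % p) 0)) L
    (e, e, if e + 1 = p then 0 else 2) fun M b => !lall bi (bt M) ||
    msA (fun r => sq (Int.sub (hd r).1 (hd r).2)) (fun r => (sq (hd r).1, sq (hd r).2, Nat.mul r.1 r.1))
      (fun Ne b' => !(Nat.beq b'.1 b'.2.1 && ieq (sm (app M Ne) (fun r => ((hd r).1 - (hd r).2) * r.1)) 0) ||
        msA (fun r => sq (hd r).1) (fun r => (0, 0, Nat.mul r.1 r.1))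
          (fun Nn _ => !ieq (sm (app (app M Ne) Nn) (fun r => (hd r).1 * r.1)) 1 || k M Ne Nn)
          b'.1 (items tb dv zs false) b'.1 (0, 0, b'.2.2) [])
      b.2.2 (items tb dv zs true) b.2.2 (b.1, b.2.1, g - 1 - (L.map fun r => r.1 * r.1).sum) []

variable {ι : Type*} [Fintype ι] {d : ι → ℕ}

structure Stg (p e K : ℕ) (tb : List (ℕ × List U)) (d : ι → ℕ) (u : ι → U) : Prop where
  n : ∑ i, wu (u i) = (e, e, if e + 1 = p then 0 else 2)
  l1 : ∑ i, (u i).1 * d i = 1
  l2 : ∑ i, (u i).2 * d i = 1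
  dom : ∀ i, u i ≠ 0 → u i ∈ look tb (d i)
  z : ∀ i, u i = 0 → K = 1 → p ∣ d i

def rc (d : ι → ℕ) (us : List (ι → U)) (i : ι) : R := (d i, us.map (· i))
def Cov (X : List ι) (us : List (ι → U)) : Prop := X.Nodup ∧ ∀ i ∉ X, ∀ u ∈ us, u i = 0

theorem sumX {M : Type*} [AddCommMonoid M] {X : List ι} (h : X.Nodup) {f : ι → M} (h0 : ∀ i ∉ X, f i = 0) :
    (X.map f).sum = ∑ i, f i := by
  classical
  rw [← List.sum_toFinset _ h]
  exact sum_subset (subset_univ _) fun i _ hi => h0 i (by simpa using hi)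

theorem sumX_le {X : List ι} (h : X.Nodup) (f : ι → ℕ) : (X.map f).sum ≤ ∑ i, f i := by
  classical
  rw [← List.sum_toFinset _ h]
  exact sum_le_sum_of_subset (subset_univ _)

theorem sum3 (X : List ι) (a b c : ι → ℕ) :
    (X.map fun i => ((a i, b i, c i) : B3)).sum = ((X.map a).sum, (X.map b).sum, (X.map c).sum) := by
  induction X with
  | nil => rfl
  | cons x l ih => simp [ih]

theorem extL_sound {g p e K dv : ℕ} {tb : List (ℕ × List U)} {u : ι → U} (h : Stg p e K tb d u)
    (hg : ∑ i, d i * d i ≤ g - 1) {us : List (ι → U)} {X : List ι} (hX : Cov X us)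
    (hdv : ∀ i, (∀ u ∈ us, u i = 0) → dv ∣ d i) {bi : List ℕ}
    (hb : ∀ k ∈ bi, ∃ w, us[k]? = some w ∧ ∑ i, (w i).1 * (u i).1 = -1 ∧ ∑ i, (w i).1 * (u i).2 = -1 ∧
      ∑ i, (w i).2 * (u i).1 = -1 ∧ ∑ i, (w i).2 * (u i).2 = -1)
    {k : List R → List R → List R → Bool}
    (H : extL g p e K tb dv (List.replicate us.length 0) bi (X.map (rc d us)) k = true) :
    ∃ Ne Nn : List ι, Cov (X ++ Ne ++ Nn) (u :: us) ∧ (∀ i ∈ Ne ++ Nn, u i ≠ 0) ∧ (∀ i ∈ Nn, (u i).1 = (u i).2) ∧
      k (X.map (rc d (u :: us))) (Ne.map (rc d (u :: us))) (Nn.map (rc d (u :: us))) = true := by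
  classical
  let N1 := (univ.filter fun i => i ∉ X ∧ (u i).1 ≠ (u i).2).toList
  let N2 := (univ.filter fun i => i ∉ X ∧ (u i).1 = (u i).2 ∧ u i ≠ 0).toList
  have cov : ∀ A B : List ι, A.Perm N1 → B.Perm N2 → (X ++ A ++ B).Nodup ∧ (∀ i ∉ X ++ A ++ B, u i = 0) ∧
      (∀ i ∈ A, i ∉ X ∧ (u i).1 ≠ (u i).2) ∧ ∀ i ∈ B, i ∉ X ∧ (u i).1 = (u i).2 ∧ u i ≠ 0 := fun A B a b => by
    have a' : ∀ i, i ∈ A ↔ i ∉ X ∧ (u i).1 ≠ (u i).2 := fun i => by simp [a.mem_iff, N1]
    have b' : ∀ i, i ∈ B ↔ i ∉ X ∧ (u i).1 = (u i).2 ∧ u i ≠ 0 := fun i => by simp [b.mem_iff, N2]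
    refine ⟨?_, fun i hi => ?_, fun i => (a' i).1, fun i => (b' i).1⟩
    · rw [List.nodup_append, List.nodup_append]
      refine ⟨⟨hX.1, a.nodup_iff.2 (nodup_toList _), ?_⟩, b.nodup_iff.2 (nodup_toList _), ?_⟩
      · rintro i hi _ hj rfl; exact ((a' i).1 hj).1 hi
      · rintro i hi _ hj rfl
        rcases List.mem_append.1 hi with hi | hi
        exacts [((b' i).1 hj).1 hi, ((a' i).1 hi).2 ((b' i).1 hj).2.1]
    · simp only [List.mem_append, a', b'] at hi
      tauto
  obtain ⟨c1, c2, c3, c4⟩ := cov N1 N2 (.refl _) (.refl _)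
  have rz : ∀ i ∉ X, rc d (u :: us) i = (d i, u i :: List.replicate us.length 0) := fun i hi => by
    rw [rc, List.map_cons, List.eq_replicate_iff.2 ⟨List.length_map _, fun b hb => ?_⟩]
    obtain ⟨w, hw, rfl⟩ := List.mem_map.1 hb
    exact hX.2 i hi w hw
  have it : ∀ (ex : Bool) i, i ∉ X → u i ≠ 0 → (ieq (u i).1 (u i).2 != ex) = true →
      rc d (u :: us) i ∈ items tb dv (List.replicate us.length 0) ex := fun ex i hi h0 he => by
    obtain ⟨x, hx, e1, e2⟩ := look_mem (h.dom i h0)
    simp only [items, fm_eq, flt_eq, mp_eq, List.mem_flatMap, List.mem_filter, List.mem_map]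
    exact ⟨x, ⟨hx, by rw [e1, Nat.mod_eq_zero_of_dvd (hdv i (hX.2 i hi))]; rfl⟩, u i, ⟨e2, he⟩, by rw [rz i hi, e1]⟩
  have s0 := sumX c1 (f := fun i => wu (u i)) fun i hi => by rw [c2 i hi]; rfl
  rw [h.n, List.map_append, List.map_append, List.sum_append, List.sum_append, add_assoc] at s0
  rw [extL, ← s0] at H
  have H1 := dcA_sound (rc d us) u X (fun i _ => ?_) _ H
  swap
  · by_cases h0 : u i = 0
    · cases e : (Nat.beq K 1 && !Nat.beq ((rc d us i).1 % p) 0)
      · rw [h0]; exact List.mem_cons_self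
      · simp only [Bool.and_eq_true, Nat.beq_eq, Bool.not_eq_true', ← Bool.not_eq_true] at e
        exact absurd (Nat.mod_eq_zero_of_dvd (h.z i h0 e.1)) e.2
    · cases (Nat.beq K 1 && !Nat.beq ((rc d us i).1 % p) 0)
      exacts [List.mem_cons_of_mem _ (h.dom i h0), h.dom i h0]
  change (!lall bi (bt (X.map (rc d (u :: us)))) || _) = true at H1
  rw [lall_iff.2 fun k hk => ?_, Bool.not_true, Bool.false_or] at H1
  swap
  · obtain ⟨w, hw, e1, e2, e3, e4⟩ := hb k hk
    have hw0 : ∀ i ∉ X, w i = 0 := fun i hi => hX.2 i hi w (List.mem_of_getElem? hw)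
    simp only [bt, sm_eq, List.map_map, Function.comp_def, rc, hd, List.map_cons, List.headD_cons, List.getD_cons_succ,
      List.getD_eq_getElem?_getD, List.getElem?_cons_succ, List.getElem?_map, hw, Option.map_some, Option.getD_some, Bool.and_eq_true,
      ieq_iff]
    refine ⟨?_, ?_, ?_, ?_⟩ <;> rw [sumX hX.1 fun i hi => by simp [hw0 i hi]] <;> assumption
  have sd := (sumX_le c1 fun i => d i * d i).trans hg
  simp only [List.map_append, List.sum_append] at sd
  have z3 : (N2.map fun i => sq (Int.sub (u i).1 (u i).2)).sum = 0 :=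
    List.sum_eq_zero fun x hx => by
      obtain ⟨i, hi, rfl⟩ := List.mem_map.1 hx
      rw [(c4 i hi).2.1, show Int.sub (u i).2 (u i).2 = 0 from sub_self _]; rfl
  have z2 : (N2.map fun i => sq (u i).2) = N2.map fun i => sq (u i).1 :=
    List.map_congr_left fun i hi => by rw [(c4 i hi).2.1]
  simp only [wu, sum3, Prod.mk_add_mk, z3, add_zero, z2, List.map_map, Function.comp_def, rc] at H1
  obtain ⟨sl, hsl⟩ := Nat.exists_eq_add_of_le (show (N1.map fun i => d i * d i).sum + (N2.map fun i => d i * d i).sum ≤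
    g - 1 - (X.map fun i => d i * d i).sum by omega)
  obtain ⟨Ne, p1, H2⟩ := msA_sound' H1 (rc d (u :: us)) ((N2.map fun i => sq (u i).1).sum,
    (N2.map fun i => sq (u i).1).sum, (N2.map fun i => d i * d i).sum + sl) N1
    (fun i hi => ⟨it true i (c3 i hi).1 (fun e => (c3 i hi).2 (by rw [e]; rfl)) (by simp [ieq_eq, (c3 i hi).2]),
      sq_pos (sub_ne_zero.2 (c3 i hi).2)⟩) rfl (by
      rw [hsl, add_assoc]
      exact congrArg (· + _) (sum3 N1 _ _ _))
  obtain ⟨-, -, c3', -⟩ := cov Ne N2 p1 (.refl _)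
  have sL : ∀ (A B : List ι) (f : U → ℤ), A.Perm N1 → B.Perm N2 → f 0 = 0 →
      ((X ++ A ++ B).map fun i => f (u i) * d i).sum = ∑ i, f (u i) * d i := fun A B f a b f0 =>
    sumX (cov A B a b).1 fun i hi => by rw [(cov A B a b).2.1 i hi, f0, zero_mul]
  have e1 := sL Ne N2 (fun u => u.1 - u.2) p1 (.refl _) rfl
  rw [List.map_append, List.sum_append, List.sum_eq_zero (l := N2.map _) fun x hx => by
    obtain ⟨i, hi, rfl⟩ := List.mem_map.1 hx
    simp [(c4 i hi).2.1]] at e1
  simp only [sub_mul, sum_sub_distrib, h.l1, h.l2, sub_self, add_zero] at e1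
  rw [Nat.beq_refl, Bool.true_and, ieq_iff.2 (by
    simpa [rc, hd, Function.comp_def, sub_mul] using e1), Bool.not_true, Bool.false_or] at H2
  obtain ⟨Nn, p2, H3⟩ := msA_sound' H2 (rc d (u :: us)) (0, 0, sl) N2
    (fun i hi => ⟨it false i (c4 i hi).1 (c4 i hi).2.2 (by simp [ieq_eq, (c4 i hi).2.1]),
      sq_pos fun e => (c4 i hi).2.2 (Prod.ext e ((c4 i hi).2.1 ▸ e))⟩) rfl (by
      refine (congrArg (· + _) (sum3 N2 _ _ _)).trans ?_
      simp [rc])
  obtain ⟨d1, d2, d3, d4⟩ := cov Ne Nn p1 p2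
  have e2 := sL Ne Nn (fun u => u.1) p1 p2 rfl
  rw [h.l1] at e2
  rw [ieq_iff.2 (by simpa [rc, hd, Function.comp_def] using e2), Bool.not_true, Bool.false_or] at H3
  refine ⟨Ne, Nn, ⟨d1, fun i hi w hw => ?_⟩, fun i hi => (List.mem_append.1 hi).elim
    (fun hi e => (d3 i hi).2 (by rw [e]; rfl)) fun hi => (d4 i hi).2.2, fun i hi => (d4 i hi).2.1, H3⟩
  rcases List.mem_cons.1 hw with rfl | hw
  exacts [d2 i hi, hX.2 i (fun e => hi (by simp [e])) w hw]

end CfH4.En
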