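import Cfsg.Agent.H4.Mc3
import Cfsg.Agent.H4.Mc2b
/-! The search engine: values at involutions. -/
set_option autoImplicit false
set_option linter.unusedSimpArgs false
open Finset CfH3.He CfH4.PA
namespace CfH4.En

noncomputable def vl (d s lo n : ℕ) : List ℤ :=
  Nat.rec [] (fun i ih => Int.subNatNat d (Nat.mul s (Nat.add lo i)) :: ih) n
theorem vl_mem {d s lo n i : ℕ} (h : i < n) : (d : ℤ) - s * (lo + i) ∈ vl d s lo n := by
  induction n with
  | zero => omega
  | succ n ih =>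
    show _ ∈ Int.subNatNat d (s * (lo + n)) :: vl d s lo n
    rcases Nat.lt_succ_iff_lt_or_eq.1 h with h | rfl
    · exact List.mem_cons_of_mem _ (ih h)
    · rw [Int.subNatNat_eq_coe]; push_cast; exact List.mem_cons_self

noncomputable def vd (g c rt d M ub : ℕ) : List ℤ :=
  frc (Nat.lcm (d / Nat.gcd d (g / c)) M) fun s => frc (min (d - 1) rt) fun B => frc ((d - B + s - 1) / s) fun lo =>
    vl d s lo (min (d + B) ub / s + 1 - lo)

theorem vd_mem {g c rt d M ub : ℕ} {v : ℤ} (hM : 0 < M) (h1 : (d : ℤ) ∣ (g / c : ℕ) * v) (h2 : (M : ℤ) ∣ d - v)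
    (h3 : |v| < d) (h4 : |v| ≤ rt) (h5 : d - v ≤ ub) : v ∈ vd g c rt d M ub := by
  rw [vd, frc_eq, frc_eq, frc_eq]
  generalize g / c = q at h1
  have hd : 0 < d := by have := abs_nonneg v; omega
  have hg : 0 < Nat.gcd d q := Nat.gcd_pos_of_pos_left _ hd
  have e1 : ((d / Nat.gcd d q : ℕ) : ℤ) ∣ d - v := by
    refine dvd_sub (Int.natCast_dvd_natCast.2 (Nat.div_dvd_of_dvd (Nat.gcd_dvd_left _ _))) ?_
    have co : IsCoprime ((d / Nat.gcd d q : ℕ) : ℤ) ((q / Nat.gcd d q : ℕ) : ℤ) :=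
      Nat.isCoprime_iff_coprime.2 (Nat.coprime_div_gcd_div_gcd hg)
    refine co.dvd_of_dvd_mul_left (Int.dvd_of_mul_dvd_mul_left (a := (Nat.gcd d q : ℕ)) (by omega) ?_)
    rwa [← mul_assoc, ← Nat.cast_mul, ← Nat.cast_mul, Nat.mul_div_cancel' (Nat.gcd_dvd_left _ _),
      Nat.mul_div_cancel' (Nat.gcd_dvd_right _ _)]
  have hs : 0 < Nat.lcm (d / Nat.gcd d q) M :=
    Nat.lcm_pos (Nat.div_pos (Nat.le_of_dvd hd (Nat.gcd_dvd_left _ _)) hg) hM
  obtain ⟨t, ht⟩ := Int.eq_ofNat_of_zero_le (show 0 ≤ (d : ℤ) - v by have := le_abs_self v; omega)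
  rw [ht, Int.natCast_dvd_natCast] at e1 h2
  obtain ⟨k, hk⟩ := Nat.lcm_dvd e1 h2
  generalize Nat.lcm (d / Nat.gcd d q) M = s at *
  have a1 := le_abs_self v
  have a2 := neg_abs_le v
  have l1 : (d - min (d - 1) rt + s - 1) / s ≤ k := by
    refine Nat.le_of_lt_succ ((Nat.div_lt_iff_lt_mul hs).2 ?_)
    rw [Nat.succ_mul, mul_comm k, ← hk]; omega
  have l2 : k ≤ min (d + min (d - 1) rt) ub / s := by
    rw [Nat.le_div_iff_mul_le hs, mul_comm, ← hk]; omega
  obtain ⟨i, rfl⟩ := Nat.exists_eq_add_of_le l1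
  have := vl_mem (d := d) (s := s) (lo := (d - min (d - 1) rt + s - 1) / s) (i := i)
    (n := min (d + min (d - 1) rt) ub / s + 1 - (d - min (d - 1) rt + s - 1) / s) (by omega)
  rwa [← Nat.cast_add, ← Nat.cast_mul, ← hk, ← ht, sub_sub_cancel] at this

def ubd (p d : ℕ) (u : U) : ℕ := 2 * p * (((d : ℤ) - (p / 2 : ℕ) * (u.1 + u.2)) / p + min 0 (min u.1 u.2)).toNat
noncomputable def dm (g p c rt : ℕ) (pc : Bool) (r : R) : List ℤ :=
  Bool.rec (vd g c rt r.1 4 (2 * r.1)) (vd g c rt r.1 (4 * p) (ubd p r.1 (hd r))) pc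
noncomputable def inK (p : ℕ) (r : R) (v : ℤ) : Bool := (ieq (hd r).1 0 && ieq (hd r).2 0) ||
  (Nat.beq (((r.1 : ℤ) - v).toNat % (4 * p)) 0 && Nat.ble ((r.1 : ℤ) - v).toNat (ubd p r.1 (hd r)))

noncomputable def sqb (Q k : ℕ) : ℕ → ℕ :=
  Nat.rec (fun a => a) (fun i ih a => frc (a + 2 ^ i) fun b => Bool.rec (ih a) (ih b) (Nat.ble (b * b) Q)) k
theorem sqb_eq (r k : ℕ) : ∀ a, a ≤ r → r < a + 2 ^ k → sqb (r * r) k a = r := by
  induction k with
  | zero => intro a h1 h2; show a = r; omega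
  | succ k ih =>
    intro a h1 h2
    show frc (a + 2 ^ k) (fun b => Bool.rec (sqb (r * r) k a) (sqb (r * r) k b) (Nat.ble (b * b) (r * r))) = r
    rw [frc_eq]
    by_cases c : a + 2 ^ k ≤ r
    · rw [Nat.ble_eq_true_of_le (Nat.mul_self_le_mul_self c)]
      exact ih _ c (by rw [pow_succ] at h2; omega)
    · rw [Bool.eq_false_iff.2 fun e => c (Nat.mul_self_le_mul_self_iff.1 (Nat.le_of_ble_eq_true e))]
      exact ih _ h1 (by omega)
noncomputable def isq (Q : ℕ) : Bool := Nat.ble (2 ^ 40) Q || frc (sqb Q 20 0) fun r => Nat.beq (r * r) Q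
theorem isq_sq (r : ℕ) : isq (r * r) = true := by
  by_cases c : r < 2 ^ 20
  · rw [isq, frc_eq, sqb_eq r 20 0 r.zero_le (by omega), Nat.beq_refl, Bool.or_true]
  · rw [isq, Nat.ble_eq_true_of_le ((by norm_num : 2 ^ 40 ≤ 2 ^ 20 * 2 ^ 20).trans (Nat.mul_self_le_mul_self (by omega))), Bool.true_or]
noncomputable def quad (p e K c : ℕ) (T : ℤ) : Bool := Bool.rec (ieq (T * K) 0) (Int.rec (fun N => frc (p * c * (p * c)) fun D =>
  Nat.beq (N % D) 0 && isq (N / D)) (fun _ => false) (T * K * p)) (Nat.beq (e % 2) 0)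
theorem quad_sound {p e K c r : ℕ} {T : ℤ} (hp : 0 < p) (hc : 0 < c) (h1 : ¬ 2 ∣ e → r = 0) (h2 : p * c ∣ r)
    (h3 : T * K * p = (r : ℤ) ^ 2) : quad p e K c T = true := by
  rw [quad]
  cases h : Nat.beq (e % 2) 0
  · rw [h1 fun c => by rw [Nat.mod_eq_zero_of_dvd c] at h; exact absurd h (by decide)] at h3
    exact ieq_iff.2 ((mul_eq_zero.1 (h3.trans (by simp))).resolve_right (by omega))
  · obtain ⟨t, rfl⟩ := h2
    rw [h3, show ((p * c * t : ℕ) : ℤ) ^ 2 = Int.ofNat (p * c * (p * c) * (t * t)) by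
      rw [Int.ofNat_eq_natCast]; push_cast; ring]
    show frc _ _ = true
    rw [frc_eq, Nat.mul_mod_right, Nat.mul_div_cancel_left _ (by positivity), isq_sq]; rfl

noncomputable def fd {β : Type} (D : R → List ℤ) (co : R → ℤ) (L : List R) : (List (List ℤ × ℤ) → List β) → List β :=
  List.rec (fun k => k []) (fun r _ ih k => fl fi (D r) fun l => List.rec [] (fun _ _ _ => fi (co r) fun a =>
    ih fun M => k ((l, a) :: M)) l) L
theorem fd_eq {β : Type} {ι : Type*} {D : R → List ℤ} (co : R → ℤ) (r : ι → R) (v : ι → ℤ) (X : List ι)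
    (h : ∀ i ∈ X, v i ∈ D (r i)) (k : List (List ℤ × ℤ) → List β) :
    fd D co (X.map r) k = k (X.map fun i => (D (r i), co (r i))) := by
  induction X generalizing k with
  | nil => rfl
  | cons a l ih =>
    show fl fi (D (r a)) (fun m => (List.rec [] (fun _ _ _ => fi (co (r a)) fun x =>
      fd D co (l.map r) fun M => k ((m, x) :: M)) m : List β)) = _
    rw [fl_eq fi_eq, List.map_cons]
    have := h a List.mem_cons_self
    generalize D (r a) = m at this ⊢
    cases m with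
    | nil => exact absurd this List.not_mem_nil
    | cons x m => exact (fi_eq _ _).trans (ih (fun i hi => h i (List.mem_cons_of_mem _ hi)) _)

noncomputable def ssq (l : List ℤ) : ℕ := List.rec 0 (fun a _ ih => Nat.add (sq a) ih) l
theorem ssq_map {ι : Type*} (X : List ι) (v : ι → ℤ) : ssq (X.map v) = (X.map fun i => sq (v i)).sum := by
  induction X with
  | nil => rfl
  | cons a l ih => rw [List.map_cons, List.map_cons, List.sum_cons, ← ih]; rfl
def c1 (r : R) : ℤ := (hd r).1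
def c2 (r : R) : ℤ := (hd r).1 - (hd r).2
def f1 (r : R) (v : ℤ) : ℤ := c1 r * v
def f2 (r : R) (v : ℤ) : ℤ := c2 r * v
def fq (g : ℕ) (r : R) (v : ℤ) : ℤ := c1 r * v ^ 2 * (g / r.1 : ℕ)

noncomputable def ext1 (g p e K : ℕ) (Lo Ne Nn : List R) (pc : Bool) (w : Wt) : List Wt :=
  fd (dm g p w.1 w.2.1 pc) c2 Ne fun De => fd (dm g p w.1 w.2.1 pc) c1 Nn fun Dn =>
  frc (w.1 - 1 - ssq w.2.2) fun sv => fi (1 - dot Lo f1 w.2.2) fun t2 => fi (g - dot Lo (fq g) w.2.2) fun T0 =>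
  fi (-dot Lo f2 w.2.2) fun t1 => fm (decor De sv t1) fun ve =>
    frc (sv - ssq ve) fun sv' => fi (t2 - dot Ne f1 ve) fun t3 => fi (T0 - dot Ne (fq g) ve) fun T1 =>
    fm (decor Dn sv' t3) fun vn => fi (T1 - dot Nn (fq g) vn) fun T =>
      Bool.rec [] [(w.1, w.2.1, app (app w.2.2 ve) vn)] (quad p e K w.1 T)
noncomputable def extW (g p e K : ℕ) (Lo Ne Nn : List R) (W : List Wt) : List Wt :=
  fm W fun w => Bool.rec (ext1 g p e K Lo Ne Nn false w) (Bool.rec [] (ext1 g p e K Lo Ne Nn true w)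
    (Nat.beq (K % 2) 0 && zall Lo (inK p) w.2.2)) (Nat.beq (w.1 % p) 0)

variable {ι : Type*} [Fintype ι] {d : ι → ℕ}

theorem sq_cast (z : ℤ) : (sq z : ℤ) = z ^ 2 := by
  show ((z.natAbs * z.natAbs : ℕ) : ℤ) = _
  rw [Int.natAbs_mul_self, pow_two]

theorem extW_sound {g p e K c rt : ℕ} {u : ι → U} {m v : ι → ℤ} (hp : Odd p) (hI : Inv g c d v) (hB : Blk p e K d u m)
    (hS : SI g p e K c d u m v) (hr : c ≤ (rt + 1) * (rt + 1)) {us : List (ι → U)} {X Ne Nn : List ι}
    (hX : Cov (X ++ Ne ++ Nn) (u :: us)) (h0 : ∀ i ∈ Ne ++ Nn, u i ≠ 0) (hN : ∀ i ∈ Nn, (u i).1 = (u i).2) {W : List Wt}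
    (hW : (c, rt, X.map v) ∈ W) : (c, rt, (X ++ Ne ++ Nn).map v) ∈
      extW g p e K (X.map (rc d (u :: us))) (Ne.map (rc d (u :: us))) (Nn.map (rc d (u :: us))) W := by
  have p0 : 0 < p := hp.pos
  have s1 : ∑ i, sq (v i) + 1 = c := by have := hI.sq; simp only [← sq_cast] at this; exact_mod_cast this
  have hv : ∀ i, |v i| ≤ rt := fun i => by
    have a := single_le_sum (f := fun i => v i ^ 2) (fun _ _ => sq_nonneg _) (mem_univ i)
    have b := hI.sq
    have : (c : ℤ) ≤ (rt + 1) * (rt + 1) := by exact_mod_cast hr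
    have := sq_abs (v i)
    by_contra n
    nlinarith [abs_nonneg (v i)]
  have ik : p ∣ c → ∀ i, u i ≠ 0 → ((4 * p : ℕ) : ℤ) ∣ d i - v i ∧ d i - v i ≤ ubd p (d i) (u i) := fun pc i hi => by
    obtain ⟨a1, a2, a3, a4⟩ := (hS.ik pc).2 i hi
    obtain ⟨b1, b2, b3, b4⟩ := hB.dm i hi
    refine ⟨?_, ?_⟩
    · push_cast
      refine IsCoprime.mul_dvd ?_ (hI.m4 i) ((dvd_mul_left _ _).trans a1)
      exact_mod_cast Nat.isCoprime_iff_coprime.2 (Nat.Coprime.pow_left 2 ((Nat.coprime_two_left).2 hp))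
    · rw [ubd, show (d i : ℤ) - (p / 2 : ℕ) * ((u i).1 + (u i).2) = p * m i by rw [b1]; ring,
        Int.mul_ediv_cancel_left _ (by omega)]
      push_cast
      rw [Int.toNat_of_nonneg (by omega)]
      rcases min_choice (u i).1 (u i).2 with h | h <;> rw [h] <;> [rcases min_choice 0 (u i).1 with h | h;
        rcases min_choice 0 (u i).2 with h | h] <;> rw [h] <;> linarith
  have key : ∀ pc : Bool, (pc = true → p ∣ c) → (c, rt, (X ++ Ne ++ Nn).map v) ∈ ext1 g p e K (X.map (rc d (u :: us)))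
      (Ne.map (rc d (u :: us))) (Nn.map (rc d (u :: us))) pc (c, rt, X.map v) := fun pc hpc => by
    have hd' : ∀ i ∈ Ne ++ Nn, v i ∈ dm g p c rt pc (rc d (u :: us) i) := fun i hi => by
      cases pc
      · exact vd_mem (by norm_num) (hI.dvd i) (hI.m4 i) (hI.lt i) (hv i) (by
          have := hI.lt i; have := neg_abs_le (v i); show (d i : ℤ) - _ ≤ ((2 * d i : ℕ) : ℤ); omega)
      · exact vd_mem (by omega) (hI.dvd i) (ik (hpc rfl) i (h0 i hi)).1 (hI.lt i) (hv i) (ik (hpc rfl) i (h0 i hi)).2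
    have sL : ∀ f : ι → ℤ, (∀ i, u i = 0 → f i = 0) → (X.map f).sum + (Ne.map f).sum + (Nn.map f).sum = ∑ i, f i :=
      fun f hf => by
        rw [← sumX hX.1 fun i hi => hf i (hX.2 i hi u List.mem_cons_self)]
        simp only [List.map_append, List.sum_append]
    have e1 := sL (fun i => f1 (rc d (u :: us) i) (v i)) fun i hi => by simp [f1, c1, rc, hd, hi]
    have e2 := sL (fun i => f2 (rc d (u :: us) i) (v i)) fun i hi => by simp [f2, c2, rc, hd, hi]
    have e3 := sL (fun i => fq g (rc d (u :: us) i) (v i)) fun i hi => by simp [fq, c1, rc, hd, hi]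
    rw [show ∑ i, f1 (rc d (u :: us) i) (v i) = 1 from hS.l1] at e1
    rw [show ∑ i, f2 (rc d (u :: us) i) (v i) = 0 by
      simp [f2, c2, rc, hd, sub_mul, hS.l1, hS.l2], List.sum_eq_zero (l := Nn.map _) fun x hx => by
      obtain ⟨i, hi, rfl⟩ := List.mem_map.1 hx
      simp [f2, c2, rc, hd, hN i hi]] at e2
    have e4 := sumX_le hX.1 fun i => sq (v i)
    simp only [List.map_append, List.sum_append] at e4
    rw [ext1, fd_eq c2 _ v Ne fun i hi => hd' i (List.mem_append_left _ hi),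
      fd_eq c1 _ v Nn fun i hi => hd' i (List.mem_append_right _ hi)]
    simp only [frc_eq, fi_eq, fm_eq, app_eq, dot_map, ssq_map, List.mem_flatMap]
    refine ⟨Ne.map v, ?_, Nn.map v, ?_, ?_⟩
    · rw [show -(X.map fun i => f2 (rc d (u :: us) i) (v i)).sum = (Ne.map fun i => f2 (rc d (u :: us) i) (v i)).sum by omega]
      exact decor_sound _ _ v Ne (fun i hi => hd' i (List.mem_append_left _ hi)) (by omega)
    · rw [dot_map, ssq_map, show 1 - (X.map fun i => f1 (rc d (u :: us) i) (v i)).sum -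
        (Ne.map fun i => f1 (rc d (u :: us) i) (v i)).sum = (Nn.map fun i => f1 (rc d (u :: us) i) (v i)).sum by omega]
      exact decor_sound _ _ v Nn (fun i hi => hd' i (List.mem_append_right _ hi)) (by omega)
    · obtain ⟨r, q1, q2, q3⟩ := hS.q
      rw [dot_map, dot_map, quad_sound p0 (by omega) q1 q2 (by
        rw [← q3, sub_sub, sub_sub, ← add_assoc, e3]; rfl)]
      simp
  rw [extW, fm_eq, List.mem_flatMap]
  refine ⟨_, hW, ?_⟩
  cases h : Nat.beq (c % p) 0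
  · exact key false nofun
  · have pc := Nat.dvd_of_mod_eq_zero (Nat.eq_of_beq_eq_true h)
    rw [Nat.mod_eq_zero_of_dvd (hS.ik pc).1, zall_map X _ _ v fun i _ => ?_]
    · exact key true fun _ => pc
    · by_cases z : u i = 0
      · simp [inK, rc, hd, z]
      · obtain ⟨a, b⟩ := ik pc i z
        obtain ⟨t, ht⟩ := Int.eq_ofNat_of_zero_le (show 0 ≤ (d i : ℤ) - v i by
          have := le_abs_self (v i); have := hI.lt i; omega)
        rw [ht] at a b
        rw [inK, Bool.or_eq_true]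
        refine .inr ?_
        show (Nat.beq (((d i : ℤ) - v i).toNat % (4 * p)) 0 && Nat.ble ((d i : ℤ) - v i).toNat (ubd p (d i) (u i))) = true
        rw [ht, Int.toNat_natCast, Nat.mod_eq_zero_of_dvd (Int.natCast_dvd_natCast.1 a),
          Nat.ble_eq_true_of_le (by exact_mod_cast b)]
        rfl

end CfH4.En
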