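import Cfsg.Agent.H4.Mc4
/-! The search engine: stages. -/
set_option autoImplicit false
set_option linter.unusedSimpArgs false
open Finset CfH3.He CfH4.PA
namespace CfH4.En

noncomputable def isNil {α : Type} (l : List α) : Bool := List.rec true (fun _ _ _ => false) l
theorem isNil_mem {α : Type} {l : List α} {a : α} (h : a ∈ l) : isNil l = false := by
  cases l with
  | nil => exact absurd h List.not_mem_nil
  | cons => rfl
noncomputable def fR {γ : Type} (L : List R) (k : List R → γ) : γ :=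
  fl (fun r k => frc r.1 fun a => fl (fun u k => fi u.1 fun x => fi u.2 fun y => k (x, y)) r.2 fun l => k (a, l)) L k
theorem fR_eq {γ : Type} (L : List R) (k : List R → γ) : fR L k = k L :=
  fl_eq (fun _ _ => by rw [frc_eq, fl_eq fun _ _ => by rw [fi_eq, fi_eq]]) _ _
noncomputable def fq' (W : List Wt) (q : ℕ) : List Wt := flt W fun w => Nat.beq (w.1 % q) 0

noncomputable def post (g p e K : ℕ) (ts : List ℕ) (W : List Wt) (k : List R → List Wt → Bool) (M Ne Nn : List R) : Bool :=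
  !(lall ts fun q => !isNil (extW g p e K M Ne Nn (fq' W q))) ||
    fw (extW g p e K M Ne Nn W) fun W' => fR (app (app M Ne) Nn) fun L => k L W'
noncomputable def stg (g p e K : ℕ) (tb : List (ℕ × List U)) (dv nz : ℕ) (bi ts : List ℕ) (k : List R → List Wt → Bool)
    (L : List R) (W : List Wt) : Bool :=
  !(lall ts fun q => !isNil (fq' W q)) || extL g p e K tb dv (List.replicate nz 0) bi L (post g p e K ts W k)

def InW (W : List Wt) (c : ℕ) (vs : List ℤ) : Prop := ∃ rt, c ≤ (rt + 1) * (rt + 1) ∧ (c, rt, vs) ∈ W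

variable {ι J : Type*} [Fintype ι] {d : ι → ℕ} {c : J → ℕ} {v : J → ι → ℤ} {g p e K : ℕ} {u : ι → U} {m : ι → ℤ}

theorem fq_mem {W : List Wt} {c rt q : ℕ} {vs : List ℤ} (h : (c, rt, vs) ∈ W) (hq : q ∣ c) : (c, rt, vs) ∈ fq' W q := by
  rw [fq', flt_eq, List.mem_filter, Nat.mod_eq_zero_of_dvd hq]; exact ⟨h, rfl⟩

theorem post_sound (hp : Odd p) (hs : Sys g d c v) (hB : Blk p e K d u m) (hS : ∀ j, SI g p e K (c j) d u m (v j))
    {us : List (ι → U)} {X Ne Nn : List ι} (hX : Cov (X ++ Ne ++ Nn) (u :: us)) (h0 : ∀ i ∈ Ne ++ Nn, u i ≠ 0)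
    (hN : ∀ i ∈ Nn, (u i).1 = (u i).2) {P : J → Prop} {W : List Wt} (hW : ∀ j, P j → InW W (c j) (X.map (v j)))
    {ts : List ℕ} (ht : ∀ q ∈ ts, ∃ j, P j ∧ q ∣ c j) {k : List R → List Wt → Bool}
    (H : post g p e K ts W k (X.map (rc d (u :: us))) (Ne.map (rc d (u :: us))) (Nn.map (rc d (u :: us))) = true) :
    ∃ W', (∀ j, P j → InW W' (c j) ((X ++ Ne ++ Nn).map (v j))) ∧ k ((X ++ Ne ++ Nn).map (rc d (u :: us))) W' = true := by
  rw [post, lall_iff.2 fun q hq => ?_, Bool.not_true, Bool.false_or, fw_eq, fR_eq, app_eq, app_eq, ← List.map_append,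
    ← List.map_append] at H
  · refine ⟨_, fun j hj => ?_, H⟩
    obtain ⟨rt, a, b⟩ := hW j hj
    exact ⟨rt, a, extW_sound hp (hs.inv j) hB (hS j) a hX h0 hN b⟩
  · obtain ⟨j, hj, hq⟩ := ht q hq
    obtain ⟨rt, a, b⟩ := hW j hj
    rw [isNil_mem (extW_sound hp (hs.inv j) hB (hS j) a hX h0 hN (fq_mem b hq))]; rfl

theorem stg_sound (hp : Odd p) (hs : Sys g d c v) (hB : Blk p e K d u m) (hS : ∀ j, SI g p e K (c j) d u m (v j))
    {tb : List (ℕ × List U)} (h : Stg p e K tb d u) {us : List (ι → U)} {X : List ι} (hX : Cov X us) {dv : ℕ}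
    (hdv : ∀ i, (∀ u ∈ us, u i = 0) → dv ∣ d i) {bi : List ℕ} (hb : ∀ k ∈ bi, ∃ w, us[k]? = some w ∧ BT w u)
    {P : J → Prop} {W : List Wt} (hW : ∀ j, P j → InW W (c j) (X.map (v j)))
    {ts : List ℕ} (ht : ∀ q ∈ ts, ∃ j, P j ∧ q ∣ c j) {k : List R → List Wt → Bool}
    (H : stg g p e K tb dv us.length bi ts k (X.map (rc d us)) W = true) :
    ∃ X' W', Cov X' (u :: us) ∧ (∀ j, P j → InW W' (c j) (X'.map (v j))) ∧ k (X'.map (rc d (u :: us))) W' = true := by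
  rw [stg, lall_iff.2 fun q hq => ?_, Bool.not_true, Bool.false_or] at H
  · obtain ⟨Ne, Nn, a1, a2, a3, a4⟩ := extL_sound h (by have := hs.sq; omega) hX hdv hb H
    obtain ⟨W', b⟩ := post_sound hp hs hB hS a1 a2 a3 hW ht a4
    exact ⟨_, W', a1, b⟩
  · obtain ⟨j, hj, hq⟩ := ht q hq
    obtain ⟨rt, a, b⟩ := hW j hj
    rw [isNil_mem (fq_mem b hq)]; rfl

def R7 : List ℤ := [-3, -2, -1, 0, 1, 2, 3]
noncomputable def TbOk (g p e : ℕ) (fr : ℤ) (tb : List (ℕ × List U)) : Bool :=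
  al (fun d => !(Nat.beq (g % d) 0 && Nat.ble 2 d) || lall R7 fun a => lall R7 fun b =>
    !(decide (((d : ℤ) - (p / 2 : ℕ) * (a + b)) % p = 0) && (decide (a ^ 2 ≤ e ∧ b ^ 2 ≤ e) &&
      (decide (fr ≤ ((d : ℤ) - (p / 2 : ℕ) * (a + b)) / p + min 0 (min a b)) &&
      decide ((e + 1 = p → a = b) ∧ (a, b) ≠ 0)))) || decide ((a, b) ∈ look tb d)) 666
theorem tb_sound {g p e d : ℕ} {fr a b : ℤ} {tb : List (ℕ × List U)} (h : TbOk g p e fr tb = true) (h1 : d < 666)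
    (h2 : g % d = 0) (h3 : 1 < d) (ha : a ∈ R7) (hb : b ∈ R7) (h4 : ((d : ℤ) - (p / 2 : ℕ) * (a + b)) % p = 0)
    (h5 : fr ≤ ((d : ℤ) - (p / 2 : ℕ) * (a + b)) / p + min 0 (min a b)) (h6 : a ^ 2 ≤ e) (h7 : b ^ 2 ≤ e)
    (h8 : e + 1 = p → a = b) (h9 : (a, b) ≠ 0) : (a, b) ∈ look tb d := by
  have := al_iff.1 h d h1
  rw [h2, Nat.ble_eq_true_of_le h3, Nat.beq_refl, Bool.and_self, Bool.not_true, Bool.false_or] at this
  have := lall_iff.1 (lall_iff.1 this a ha) b hb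
  rw [decide_eq_true h4, decide_eq_true h5, decide_eq_true (And.intro h6 h7), decide_eq_true (And.intro h8 h9)] at this
  exact of_decide_eq_true this

theorem stg_of (hs : Sys 443520 d c v) (hB : Blk p e K d u m) {fr : ℤ} {tb : List (ℕ × List U)} (p0 : 0 < p) (he : e < 16)
    (ht : TbOk 443520 p e fr tb = true) (hf : ∀ i, u i ≠ 0 → fr ≤ m i ∧ fr ≤ m i + (u i).1 ∧ fr ≤ m i + (u i).2) :
    Stg p e K tb d u := by
  have r7 : ∀ a : ℤ, a ^ 2 ≤ e → a ∈ R7 := fun a ha => by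
    have : -4 < a ∧ a < 4 := by constructor <;> nlinarith [show (e : ℤ) < 16 by exact_mod_cast he]
    obtain ⟨h1, h2⟩ := this
    interval_cases a <;> decide
  refine ⟨?_, hB.l1, hB.l2, fun i hi => ?_, hB.z⟩
  · have a := hB.n1; have b := hB.n2; have c := hB.n3
    simp only [← sq_cast] at a b c
    refine Prod.ext ?_ (Prod.ext ?_ ?_) <;> simp only [Prod.fst_sum, Prod.snd_sum, wu]
    · exact_mod_cast a
    · exact_mod_cast b
    · have : (∑ i, sq ((u i).1 - (u i).2) : ℕ) = if e + 1 = p then 0 else 2 := by exact_mod_cast c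
      exact this
  · obtain ⟨b1, -⟩ := hB.dm i hi
    obtain ⟨f1, f2, f3⟩ := hf i hi
    have a1 := (single_le_sum (f := fun i => (u i).1 ^ 2) (fun _ _ => sq_nonneg _) (mem_univ i)).trans_eq hB.n1
    have a2 := (single_le_sum (f := fun i => (u i).2 ^ 2) (fun _ _ => sq_nonneg _) (mem_univ i)).trans_eq hB.n2
    have a3 := (single_le_sum (f := fun i => ((u i).1 - (u i).2) ^ 2) (fun _ _ => sq_nonneg _) (mem_univ i)).trans_eq hB.n3
    have a4 := single_le_sum (f := fun i => d i * d i) (fun _ _ => Nat.zero_le _) (mem_univ i)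
    have a5 := hs.sq
    have e1 : (d i : ℤ) - (p / 2 : ℕ) * ((u i).1 + (u i).2) = p * m i := by rw [b1]; ring
    refine tb_sound ht (by by_contra n; nlinarith) (Nat.mod_eq_zero_of_dvd (hs.dv i).1) (hs.dv i).2 (r7 _ a1) (r7 _ a2)
      (by rw [e1, Int.mul_emod_right]) (by rw [e1, Int.mul_ediv_cancel_left _ (by omega)]; omega) a1 a2 (fun h => ?_) hi
    rw [if_pos h] at a3
    exact sub_eq_zero.1 (pow_eq_zero_iff two_ne_zero |>.1 (le_antisymm a3 (sq_nonneg _)))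

noncomputable def w0ok (a : ℕ) (P : ℕ → Bool) (W : List Wt) : Bool := al (fun x => !(Nat.beq (40320 % x) 0 && P x) ||
  !lall W fun w => !(Nat.beq w.1 (a * x) && (Nat.ble w.1 ((w.2.1 + 1) * (w.2.1 + 1)) && isNil w.2.2))) 40321
theorem w0ok_sound {a x : ℕ} {P : ℕ → Bool} {W : List Wt} (h : w0ok a P W = true) (h1 : x ∣ 40320) (h2 : P x = true) :
    InW W (a * x) [] := by
  have := al_iff.1 h x (Nat.lt_succ_of_le (Nat.le_of_dvd (by norm_num) h1))
  rw [Nat.mod_eq_zero_of_dvd h1, h2] at this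
  by_contra n
  rw [lall_iff.2 fun w hw => ?_] at this
  · exact absurd this (by decide)
  · obtain ⟨c, rt, l⟩ := w
    rw [Bool.not_eq_true', ← Bool.not_eq_true]
    simp only [Bool.and_eq_true, Nat.beq_eq, Nat.ble_eq]
    rintro ⟨rfl, b, e⟩
    cases l
    exacts [n ⟨rt, b, hw⟩, absurd e nofun]

end CfH4.En
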