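import Cfsg.Agent.H4.Mc6
/-! The chain of stages in order `443520`. -/
set_option autoImplicit false
set_option linter.unusedSimpArgs false
open Finset CfH3.He CfH4.PA
namespace CfH4.En
universe u

def ev (K q : ℕ) : List ℕ := if 2 ∣ K then [q] else []
def fin (e7 K7 e5 K5 : ℕ) (L : List R) (_ : List Wt) : Bool :=
  decide (K7 = 1 ∧ K5 = 1 ∧ e7 = 3 ∧ e5 = 4) && (decide (L.Perm (LM true)) || decide (L.Perm (LM false)))
noncomputable def ch5 (e7 K7 : ℕ) (L : List R) (W : List Wt) : Bool := lall O5 fun y => frc y.1 fun e => frc y.2 fun K =>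
  !decide (5 ∣ K7 ↔ 7 ∣ K) || stg 443520 5 e K (if e = 2 then t52 else t54) (if K7 = 1 then 77 else 11) 2
    (if 5 ∣ K7 then [1] else [0, 1]) (ev K 5 ++ 128 :: ev K7 7) (fin e7 K7 e K) L W
noncomputable def ch7 (L : List R) (W : List Wt) : Bool := lall O7 fun x => frc x.1 fun e => frc x.2 fun K =>
  fw (flt W fun w => !(Nat.beq K 4 && Nat.beq w.1 896)) fun W' =>
    stg 443520 7 e K (if e = 3 then t73 else t76) 11 1 [0] (ev K 7 ++ [128]) (ch5 e K) L W'
noncomputable def ch (x : List R × List R) : Bool :=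
  fR x.1 fun Ne => fR x.2 fun Nn => post 443520 11 5 1 [128] W0 ch7 [] Ne Nn
noncomputable def chk (a n : ℕ) : Bool := lall ((LB.drop a).take n) ch
noncomputable def n11 (e : ℕ) (tb : List (ℕ × List U)) : Bool :=
  extL 443520 11 e 2 tb 1 (List.replicate 0 0) [] [] fun M Ne Nn => fR Ne fun Ne => fR Nn fun Nn =>
    lall O11 fun x => !Nat.beq x.1 e || frc x.2 fun K => isNil (extW 443520 11 e K M Ne Nn W1)

theorem chk_add {a n m : ℕ} (h1 : chk a n = true) (h2 : chk (a + n) m = true) : chk a (n + m) = true := by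
  rw [chk, lall_iff] at *
  intro x hx
  rw [List.take_add, List.drop_drop] at hx
  exact (List.mem_append.1 hx).elim (h1 x) (h2 x)

theorem cov_nil {ι : Type*} : Cov ([] : List ι) [] := ⟨List.nodup_nil, fun _ _ _ h => absurd h List.not_mem_nil⟩

theorem n11_of (h5 : n11 5 tB = true) (h10 : n11 10 tC = true) : N11.{u} := fun d c v u m e K hs ht hm => by
  have k2 : 2 ∣ K := (by decide : ∀ x ∈ O11, 2 ∣ x.2) _ hm
  obtain ⟨j, hj⟩ := ht.ex k2
  have hI := hs.inv j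
  have hB : Blk 11 e 2 d u m := { ht.blk with z := fun _ _ h => absurd h (by norm_num) }
  have hf : ∀ i, u i ≠ 0 → 2 ≤ m i ∧ 2 ≤ m i + (u i).1 ∧ 2 ≤ m i + (u i).2 := fun i hi => by
    obtain ⟨a1, a2, a3, a4⟩ := ((ht.si j).ik hj).2 i hi
    have := hI.m4 i; have := hI.lt i; have := le_abs_self (v j i)
    push_cast at *
    omega
  obtain ⟨x, hx⟩ := hj
  have hW : InW W1 (c j) [] := by
    have a := hI.cg; have b := hI.c2
    rw [hx] at a b ⊢
    exact w0ok_sound W1_ok (Nat.dvd_of_mul_dvd_mul_left (by norm_num : 0 < 11) a) (by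
      rw [show x % 2 = 0 by omega]; rfl)
  obtain ⟨rt, r1, r2⟩ := hW
  have key : ∀ tb, TbOk 443520 11 e 2 tb = true → e < 16 → n11 e tb = true → False := fun tb h1 h2 h3 => by
    obtain ⟨Ne, Nn, a1, a2, a3, a4⟩ := extL_sound (X := []) (us := []) (stg_of hs hB (by norm_num) h2 h1 hf)
      (by have := hs.sq; omega) cov_nil (fun _ _ => one_dvd _) (fun _ h => absurd h List.not_mem_nil) h3
    rw [fR_eq, fR_eq] at a4
    have := lall_iff.1 a4 _ hm
    rw [Nat.beq_refl, frc_eq, isNil_mem (extW_sound (by decide) hI ht.blk (ht.si j) r1 a1 a2 a3 r2)] at this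
    exact absurd this (by decide)
  rcases (by decide : ∀ x ∈ O11, x.1 = 5 ∨ x.1 = 10) _ hm with h | h <;> obtain rfl : e = _ := h
  exacts [key _ tB_ok (by norm_num) h5, key _ tC_ok (by norm_num) h10]

theorem nm_of (h : chk 0 143 = true) : NM.{u} := by
  intro ι J _ d c v u11 u7 u5 m11 m7 m5 e7 K7 e5 K5 hs ⟨j0, hj0⟩ h11 h7 h5 o7 o5 hK b1 b2 b3 h4
  have f0 : ∀ {p e K : ℕ} {u : ι → U} {m : ι → ℤ}, Blk p e K d u m → ∀ i, u i ≠ 0 →
      0 ≤ m i ∧ 0 ≤ m i + (u i).1 ∧ 0 ≤ m i + (u i).2 := fun h i hi => (h.dm i hi).2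
  obtain ⟨Ne, Nn, a1, a2, a3, a4⟩ := extL_sound (X := []) (us := []) (stg_of hs h11.blk (by norm_num) (by norm_num) tA_ok
    (f0 h11.blk)) (by have := hs.sq; omega) cov_nil (fun _ _ => one_dvd _) (fun _ h => absurd h List.not_mem_nil) LB_ok
  have := lall_iff.1 h _ (by rw [List.drop_zero, List.take_of_length_le (by decide +kernel)]; exact of_decide_eq_true a4)
  rw [ch, fR_eq, fR_eq] at this
  have t128 : ∃ j, (128 ∣ c j ∨ 5 ∣ c j ∨ 7 ∣ c j) ∧ 128 ∣ c j := ⟨j0, .inl hj0, hj0⟩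
  have t7 : ∀ q ∈ ev K7 7, ∃ j, (128 ∣ c j ∨ 5 ∣ c j ∨ 7 ∣ c j) ∧ q ∣ c j := fun q hq => by
    unfold ev at hq; split_ifs at hq with e
    · obtain ⟨j, hj⟩ := h7.ex e
      exact ⟨j, .inr (.inr hj), List.mem_singleton.1 hq ▸ hj⟩
    · exact absurd hq List.not_mem_nil
  have t5 : ∀ q ∈ ev K5 5, ∃ j, (128 ∣ c j ∨ 5 ∣ c j ∨ 7 ∣ c j) ∧ q ∣ c j := fun q hq => by
    unfold ev at hq; split_ifs at hq with e
    · obtain ⟨j, hj⟩ := h5.ex e
      exact ⟨j, .inr (.inl hj), List.mem_singleton.1 hq ▸ hj⟩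
    · exact absurd hq List.not_mem_nil
  obtain ⟨W1, w1, H1⟩ := post_sound (X := []) (by decide) hs h11.blk h11.si a1 a2 a3
    (P := fun j => 128 ∣ c j ∨ 5 ∣ c j ∨ 7 ∣ c j) (fun j hj => by
      have a := (hs.inv j).cg; have b := (hs.inv j).c2
      have n : ¬ 11 ∣ c j := fun e => absurd ((h11.si j).ik e).1 (by norm_num)
      rw [← one_mul (c j)]
      refine w0ok_sound W0_ok (Nat.Coprime.dvd_of_dvd_mul_left
        ((Nat.Prime.coprime_iff_not_dvd (by norm_num)).2 n).symm a) ?_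
      simp only [Bool.and_eq_true, Bool.or_eq_true, Nat.beq_eq]
      omega) (fun q hq => List.mem_singleton.1 hq ▸ t128) this
  have H2 := lall_iff.1 H1 _ o7
  rw [frc_eq, frc_eq, fw_eq] at H2
  have z11 : ∀ i, u11 i = 0 → 11 ∣ d i := fun i hi => h11.blk.z i hi rfl
  obtain ⟨X2, W2, c2, w2, H3⟩ := stg_sound (by decide) hs h7.blk h7.si (tb := if e7 = 3 then t73 else t76) (by
      rcases (by decide : ∀ x ∈ O7, x.1 = 3 ∨ x.1 = 6) _ o7 with h | h <;> obtain rfl : e7 = _ := h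
      exacts [stg_of hs h7.blk (by norm_num) (by norm_num) t73_ok (f0 h7.blk),
        stg_of hs h7.blk (by norm_num) (by norm_num) t76_ok (f0 h7.blk)]) a1
    (fun i hi => z11 i (hi _ List.mem_cons_self)) (fun k hk => ⟨u11, by rw [List.mem_singleton.1 hk]; rfl, b1⟩)
    (fun j hj => by
      obtain ⟨rt, r1, r2⟩ := w1 j hj
      refine ⟨rt, r1, ?_⟩
      rw [flt_eq, List.mem_filter, Bool.not_eq_true', ← Bool.not_eq_true, Bool.and_eq_true, Nat.beq_eq, Nat.beq_eq]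
      exact ⟨r2, fun e => h4 e.1 j e.2⟩)
    (fun q hq => (List.mem_append.1 hq).elim (t7 q) fun hq => List.mem_singleton.1 hq ▸ t128) H2
  have H4 := lall_iff.1 H3 _ o5
  rw [frc_eq, frc_eq, decide_eq_true hK, Bool.not_true, Bool.false_or] at H4
  obtain ⟨X3, W3, c3, -, H5⟩ := stg_sound (by decide) hs h5.blk h5.si (tb := if e5 = 2 then t52 else t54) (by
      rcases (by decide : ∀ x ∈ O5, x.1 = 2 ∨ x.1 = 4) _ o5 with h | h <;> obtain rfl : e5 = _ := h
      exacts [stg_of hs h5.blk (by norm_num) (by norm_num) t52_ok (f0 h5.blk),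
        stg_of hs h5.blk (by norm_num) (by norm_num) t54_ok (f0 h5.blk)]) c2
    (fun i hi => by
      have a := z11 i (hi _ (by simp))
      have b := h7.blk.z i (hi _ List.mem_cons_self)
      split_ifs with e
      · have := b e; omega
      · exact a)
    (fun k hk => by
      split_ifs at hk with e
      · exact ⟨u11, by rw [List.mem_singleton.1 hk]; rfl, b2⟩
      · rcases List.mem_pair.1 hk with rfl | rfl
        exacts [⟨u7, rfl, b3 e⟩, ⟨u11, rfl, b2⟩]) w2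
    (fun q hq => (List.mem_append.1 hq).elim (t5 q) fun hq => (List.mem_cons.1 hq).elim (· ▸ t128) (t7 q)) H4
  simp only [fin, Bool.and_eq_true, Bool.or_eq_true, decide_eq_true_iff] at H5
  obtain ⟨⟨e1, e2, e3, e4⟩, H6⟩ := H5
  have cz : ∀ i ∉ X3, u5 i = 0 ∧ u7 i = 0 ∧ u11 i = 0 := fun i hi =>
    ⟨c3.2 i hi _ (by simp), c3.2 i hi _ (by simp), c3.2 i hi _ (by simp)⟩
  exact ⟨e1, e2, e3, e4, X3, H6.elim (fun h => ⟨true, c3.1, cz, h⟩) fun h => ⟨false, c3.1, cz, h⟩⟩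

end CfH4.En
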