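import Cfsg.Agent.H4.Mc7
/-! Runs of the search in order `443520`. -/
set_option maxRecDepth 100000
set_option maxHeartbeats 0
namespace CfH4.En

theorem run0 : chk 0 12 = true := by decide +kernel
theorem run12 : chk 12 12 = true := by decide +kernel
theorem run24 : chk 24 12 = true := by decide +kernel
theorem run36 : chk 36 12 = true := by decide +kernel

end CfH4.En
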