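import Cfsg.Agent.H4.Mc7
/-! Runs of the search in order `443520`. -/
set_option maxRecDepth 100000
set_option maxHeartbeats 0
namespace CfH4.En

theorem run48 : chk 48 12 = true := by decide +kernel
theorem run60 : chk 60 12 = true := by decide +kernel
theorem run72 : chk 72 12 = true := by decide +kernel
theorem run84 : chk 84 12 = true := by decide +kernel

end CfH4.En
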