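import Cfsg.Agent.H4.Mc7
/-! Runs of the search in order `443520`. -/
set_option maxRecDepth 100000
set_option maxHeartbeats 0
namespace CfH4.En

theorem run96 : chk 96 12 = true := by decide +kernel
theorem run108 : chk 108 12 = true := by decide +kernel
theorem run120 : chk 120 12 = true := by decide +kernel
theorem run132 : chk 132 11 = true := by decide +kernel

end CfH4.En
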