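import Cfsg.Agent.H4.Mc7
/-! Runs of the search in order `443520`: even centralizers of elements of order `11`. -/
set_option maxRecDepth 100000
set_option maxHeartbeats 0
namespace CfH4.En
universe u

theorem runA : n11 5 tB = true := by decide +kernel
theorem runB : n11 10 tC = true := by decide +kernel
theorem n11_ok : PA.N11.{u} := n11_of runA runB

end CfH4.En
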