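import Cfsg.Agent.H4.Mc8a
import Cfsg.Agent.H4.Mc8b
import Cfsg.Agent.H4.Mc8c
import Cfsg.Agent.H4.Mc8d
/-! The numerical steps in order `443520`. -/
namespace CfH4.En
universe u

theorem chk_add' {a n b m k : ℕ} (h1 : chk a n = true) (h2 : chk b m = true) (e1 : a + n = b) (e2 : n + m = k) :
    chk a k = true := by
  subst e1 e2; exact chk_add h1 h2

theorem nm_ok : PA.NM.{u} := by
  have h := run132
  have h := chk_add' (k := 23) run120 h (by norm_num) (by norm_num)
  have h := chk_add' (k := 35) run108 h (by norm_num) (by norm_num)
  have h := chk_add' (k := 47) run96 h (by norm_num) (by norm_num)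
  have h := chk_add' (k := 59) run84 h (by norm_num) (by norm_num)
  have h := chk_add' (k := 71) run72 h (by norm_num) (by norm_num)
  have h := chk_add' (k := 83) run60 h (by norm_num) (by norm_num)
  have h := chk_add' (k := 95) run48 h (by norm_num) (by norm_num)
  have h := chk_add' (k := 107) run36 h (by norm_num) (by norm_num)
  have h := chk_add' (k := 119) run24 h (by norm_num) (by norm_num)
  have h := chk_add' (k := 131) run12 h (by norm_num) (by norm_num)
  have h := chk_add' (k := 143) run0 h (by norm_num) (by norm_num)
  exact @nm_of h

end CfH4.En
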