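import Cfsg.Agent.OD.Pre
import Cfsg.Agent.H4.Ramified
import Cfsg.Agent.H4.Chief
import Cfsg.Agent.H1.MinNormal

/-! More on primitive and quasi-primitive characters. -/

open Cfsg Module CfH4
open scoped ComplexConjugate commutatorElement

namespace CfH4

universe u v w

variable {G : Type v} [Group G] [Fintype G]

/-- A character restricting irreducibly to `N` is relatively primitive. -/
theorem relPrim_of_res_irr {N : Subgroup G} {χ : G → ℂ} (hχ : IsCharacter G χ)
    (h : IsIrrCharacter N (fun n : N => χ n)) : RelPrim N χ := by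
  intro T hT hNT η hη he
  have := Fintype.ofFinite T
  have hχT : IsIrrCharacter T (fun t : T => χ t) :=
    (hχ.res T).isIrr_of_comp (Subgroup.inclusion hNT) h
  have hχ' := hχ.isIrr_of_res T hχT
  have h1 : classInner η (fun t : T => χ t) = 1 := by
    rw [← CfH5.classInner_indFun_left _ _ hχ.classFun, he, hχ'.classInner_self]
  obtain ⟨c, hc0, hc⟩ := hχ'.exists_degree
  obtain ⟨d, hd⟩ := hη.exists_degree
  have h2 := hη.mult_mul_degree_le hχT hd hc
  have h3 : mult η (fun t : T => χ t) = 1 := by
    have := hη.mult_eq hχT.isCharacter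
    rw [h1] at this
    exact_mod_cast this
  have h4 := CfH5.indFun_one T η
  rw [he, hc, hd] at h4
  have h5 : c = T.index * d := by exact_mod_cast h4
  have h6 : T.index ≠ 0 := Subgroup.index_ne_zero_of_finite
  have h7 : T.index ≠ 1 := fun h => hT (Subgroup.index_eq_one.1 h)
  have : 2 ≤ T.index := by omega
  rw [h3] at h2
  nlinarith

/-- If an induced character restricts irreducibly to a normal subgroup `N`, then `N U = G` and
the inducing character restricts irreducibly to `N ∩ U`. -/
theorem res_irr_of_ind_res_irr {N U : Subgroup G} [N.Normal] {θ : U → ℂ} (hθ : IsCharacter U θ)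
    (h : IsIrrCharacter N (fun n : N => indFun U θ n)) :
    N ⊔ U = ⊤ ∧ IsIrrCharacter (N.subgroupOf U) (fun x => θ x) := by
  have h1 : N ⊔ U = ⊤ := by
    by_contra hc
    have := Fintype.ofFinite (N ⊔ U : Subgroup G)
    exact relPrim_of_res_irr hθ.ind h _ hc le_sup_left _
      (hθ.indHom (Subgroup.inclusion_injective (le_sup_right : U ≤ N ⊔ U)))
      (indHom_indHom (Subgroup.subtype_injective _) (Subgroup.inclusion_injective _) θ)
  refine ⟨h1, ?_⟩
  have := Fintype.ofFinite N
  have := Fintype.ofFinite (N.subgroupOf U)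
  let b : N.subgroupOf U →* N :=
    { toFun := fun x => ⟨x.1.1, x.2⟩, map_one' := rfl, map_mul' := fun _ _ => rfl }
  have hb : Function.Injective b := fun x y hxy =>
    Subtype.ext (Subtype.ext (congrArg (fun z : N => (z : G)) hxy))
  apply (hθ.res _).isIrr_of_indHom hb
  convert h using 2 with n
  symm
  refine indHom_mackey U.subtype_injective N.subtype_injective (a := (N.subgroupOf U).subtype)
    hb (fun _ => rfl) ?_ ?_ hθ.classFun n
  · rintro k ⟨u, hu⟩
    exact ⟨⟨u, by rw [Subgroup.mem_subgroupOf]; exact (show (u : G) = k from hu) ▸ k.2⟩, Subtype.ext hu⟩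
  · intro g
    obtain ⟨a, ha, c, hc, rfl⟩ := CfH1.forall_exists_mul_of_sup_eq_top h1 g
    exact ⟨⟨a, ha⟩, ⟨c, hc⟩, rfl⟩

omit [Fintype G] in
/-- A normal subgroup which is abelian modulo the kernel and on which the character is
homogeneous lies in the centre of the character. -/
theorem Homog.le_charCenter [Finite G] {A : Subgroup G} {χ : G → ℂ} (h : Homog A χ)
    (hχ : IsIrrCharacter G χ) (hA : ⁅A, A⁆ ≤ charKer χ) : A ≤ charCenter χ := by
  obtain ⟨φ, e, hφ, he⟩ := h
  have he' : ∀ a : A, χ a = e * φ a := fun a => congrFun he a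
  have he0 : (e : ℂ) ≠ 0 := fun h0 => hχ.apply_one_ne_zero (by simpa [h0] using he' 1)
  have h1 : φ 1 = 1 := hφ.apply_one_of_commutator fun g hg => by
    have : (g : G) ∈ ⁅A, A⁆ := by
      rw [← Subgroup.map_subtype_commutator]; exact ⟨g, hg, rfl⟩
    have h2 := apply_eq_of_mem_charKer (hA this)
    rw [he', show χ 1 = e * φ 1 from he' 1] at h2
    exact mul_left_cancel₀ he0 h2
  intro a ha
  rw [hχ.isCharacter.mem_charCenter, he' ⟨a, ha⟩, show χ 1 = e * φ 1 from he' 1, norm_mul,
    norm_mul, hφ.isCharacter.norm_eq_one_of_apply_one h1,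
    hφ.isCharacter.norm_eq_one_of_apply_one h1]

omit [Fintype G] in
theorem commutator_le_charKer_of_le_charCenter [Finite G] {A : Subgroup G} {χ : G → ℂ}
    (hχ : IsCharacter G χ) (hA : A ≤ charCenter χ) (B : Subgroup G) : ⁅A, B⁆ ≤ charKer χ := by
  rw [Subgroup.commutator_le]
  intro a ha b _
  exact hχ.commutator_mem_charKer (hA ha) b

omit [Fintype G] in
/-- A quasi-primitive character of a solvable group which restricts irreducibly to a normal
subgroup with abelian Sylow subgroups is linear. -/
theorem linear_of_quasiprim [Finite G] [Group.IsSolvable G] {θ : G → ℂ}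
    (hθ : IsIrrCharacter G θ) (hq : ∀ A : Subgroup G, A.Normal → Homog A θ) (M : Subgroup G)
    [hM : M.Normal] (hab : ∀ p : ℕ, p.Prime → ∀ Q : Subgroup G, Q ≤ M → IsPGroup p Q →
      ∀ a ∈ Q, ∀ b ∈ Q, a * b = b * a) (hθM : IsIrrCharacter M (fun m : M => θ m)) :
    θ 1 = 1 := by
  have hZn := hθ.classFun.normal_charCenter
  have hKn := hθ.classFun.normal_charKer
  have hle : M ≤ charCenter θ := by
    by_contra hc
    have hlt : M ⊓ charCenter θ < M := lt_of_le_of_ne inf_le_left fun h => hc (inf_eq_left.1 h)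
    obtain ⟨A, hAM, hch⟩ := exists_isChief_above inferInstance hM hlt
    obtain ⟨p, hp, hpow⟩ := hch.exists_prime (hch.commutator_le inferInstance)
    obtain ⟨k, hk⟩ := exists_relIndex_eq_pow hp hpow
    have := Fact.mk hp
    obtain ⟨P⟩ := (inferInstance : Nonempty (Sylow p A))
    have hcop : (P : Subgroup A).index.Coprime ((M ⊓ charCenter θ).subgroupOf A).index := by
      rw [← Subgroup.relIndex, hk]
      exact Nat.Coprime.pow_right _ ((hp.coprime_iff_not_dvd).2 P.not_dvd_index).symm
    have hPab := hab p hp ((P : Subgroup A).map A.subtype)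
      ((Subgroup.map_subtype_le _).trans hAM) (P.isPGroup'.map _)
    have hAA : ⁅A, A⁆ ≤ charKer θ := by
      rw [Subgroup.commutator_le]
      intro a ha b hb
      obtain ⟨q, hq, z, hz, h1⟩ := CfH1.exists_mul_of_coprime_index hcop ⟨a, ha⟩
      obtain ⟨q', hq', z', hz', h2⟩ := CfH1.exists_mul_of_coprime_index hcop ⟨b, hb⟩
      have hc : ∀ z ∈ charCenter θ, ∀ g : G, Commute (z : G ⧸ charKer θ) g := fun z hz g => by
        rw [← commutatorElement_eq_one_iff_commute]
        exact (QuotientGroup.eq_one_iff ⁅z, g⁆).2 (hθ.isCharacter.commutator_mem_charKer hz g)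
      have h3 : Commute ((q : G) : G ⧸ charKer θ) ((q' : G) : G ⧸ charKer θ) :=
        Commute.map (f := QuotientGroup.mk' (charKer θ)) (hPab _ ⟨q, hq, rfl⟩ _ ⟨q', hq', rfl⟩)
      rw [← QuotientGroup.eq_one_iff]
      change ⁅(a : G ⧸ charKer θ), (b : G ⧸ charKer θ)⁆ = 1
      rw [commutatorElement_eq_one_iff_commute, show a = q * z from congrArg Subtype.val h1,
        show b = q' * z' from congrArg Subtype.val h2, QuotientGroup.mk_mul, QuotientGroup.mk_mul]
      exact (h3.mul_right (hc _ hz'.2 _).symm).mul_left ((hc _ hz.2 _).mul_right (hc _ hz.2 _))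
    exact hch.lt.not_ge (le_inf hAM ((hq A hch.normal_right).le_charCenter hθ hAA))
  refine hθM.apply_one_of_commutator fun g hg => ?_
  have : (g : G) ∈ ⁅M, M⁆ := by
    rw [← Subgroup.map_subtype_commutator]; exact ⟨g, hg, rfl⟩
  exact apply_eq_of_mem_charKer
    (commutator_le_charKer_of_le_charCenter hθ.isCharacter hle M this)

end CfH4
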