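import Cfsg.Agent.H6.Mx
import Cfsg.Agent.L.ZA
import Cfsg.Prelude.Def_Spor_Ru

/-! The Rudvalis lattice: real coordinates and packed arithmetic. -/

set_option autoImplicit false
set_option exponentiation.threshold 1000
open Cfsg.Spor CfH6 CfL Finset

namespace CfH4.Ru

def ix (p : RuIdx) : ℕ := 4 * p.1.val + p.2.val
def pt (q : ℕ) : RuIdx := (⟨q / 4 % 7, Nat.mod_lt _ (by decide)⟩, ⟨q % 4, Nat.mod_lt _ (by decide)⟩)
def co (u : RuVec) (q : ℕ) : ℤ := if q < 28 then (u (pt q)).re else (u (pt (q - 28))).im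
def ofR (a : ℕ → ℤ) : RuVec := fun p => ⟨a (ix p), a (28 + ix p)⟩

theorem pt_ix : ∀ p, pt (ix p) = p ∧ ix p < 28 := by decide
theorem ix_pt : ∀ q < 28, ix (pt q) = q := by decide

theorem co_lo (u : RuVec) {q : ℕ} (h : q < 28) : co u q = (u (pt q)).re := if_pos h
theorem co_hi (u : RuVec) (q : ℕ) : co u (28 + q) = (u (pt q)).im := by
  rw [co, if_neg (by omega), Nat.add_sub_cancel_left]

theorem cases56 {P : ℕ → Prop} (h1 : ∀ q < 28, P q) (h2 : ∀ q < 28, P (28 + q)) : ∀ q < 56, P q := fun q hq => by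
  by_cases h : q < 28
  · exact h1 q h
  · rw [show q = 28 + (q - 28) by omega]; exact h2 _ (by omega)

theorem co_ofR (a : ℕ → ℤ) : ∀ q < 56, co (ofR a) q = a q :=
  cases56 (fun q h => by rw [co_lo _ h, ofR, ix_pt q h]) fun q h => by rw [co_hi, ofR, ix_pt q h]

theorem co_ext {u v : RuVec} (h : ∀ q < 56, co u q = co v q) : u = v := funext fun p => by
  have a := h (ix p) (by have := (pt_ix p).2; omega)
  have b := h (28 + ix p) (by have := (pt_ix p).2; omega)
  rw [co_lo _ (pt_ix p).2, co_lo _ (pt_ix p).2, (pt_ix p).1] at a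
  rw [co_hi, co_hi, (pt_ix p).1] at b
  exact Zsqrtd.ext a b

theorem co_add (u v : RuVec) (q : ℕ) : co (u + v) q = co u q + co v q := by unfold co; split_ifs <;> rfl
theorem co_four (u : RuVec) (q : ℕ) : co ((4 : ℤ) • u) q = 4 * co u q := by
  unfold co; split_ifs <;> simp
theorem co_I_lo (u : RuVec) {q : ℕ} (h : q < 28) : co (gI • u) q = -co u (28 + q) := by
  rw [co_lo _ h, co_hi]; simp [gI]
theorem co_I_hi (u : RuVec) {q : ℕ} (h : q < 28) : co (gI • u) (28 + q) = co u q := by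
  rw [co_lo _ h, co_hi]; simp [gI]

theorem sum_pt (f : RuIdx → ℤ) : ∑ p, f p = ∑ q ∈ range 28, f (pt q) :=
  (sum_nbij' pt ix (fun _ _ => mem_univ _) (fun p _ => mem_range.2 (pt_ix p).2)
    (fun q h => ix_pt q (mem_range.1 h)) (fun p _ => (pt_ix p).1) fun _ _ => rfl).symm

def dot (u v : RuVec) : ℤ := ∑ p, ((u p).re * (v p).re + (u p).im * (v p).im)

theorem dot_eq (u v : RuVec) : dot u v = ∑ q ∈ range 56, co u q * co v q := by
  rw [dot, sum_pt, sum_add_distrib, show 56 = 28 + 28 from rfl, sum_range_add]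
  simp only [co_hi]
  exact congrArg (· + _) (sum_congr rfl fun q h => by rw [co_lo _ (mem_range.1 h), co_lo _ (mem_range.1 h)])

theorem norm_eq (u : RuVec) : ruNorm u = dot u u := sum_congr rfl fun p _ => by rw [Zsqrtd.norm_def]; ring
theorem dot_comm (u v : RuVec) : dot u v = dot v u := sum_congr rfl fun p _ => by ring
theorem norm_add (u v : RuVec) : ruNorm (u + v) = ruNorm u + ruNorm v + 2 * dot u v := by
  simp only [norm_eq, dot, mul_sum, ← sum_add_distrib]
  exact sum_congr rfl fun p _ => by simp; ring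
theorem dot_I (u v : RuVec) : dot (gI • u) v = -dot u (gI • v) := by
  simp only [dot, ← sum_neg_distrib]
  exact sum_congr rfl fun p _ => by simp [gI]
theorem dot_II (u v : RuVec) : dot u (gI • gI • v) = -dot u v := by
  simp only [dot, ← sum_neg_distrib]
  exact sum_congr rfl fun p _ => by simp [gI]; ring
theorem norm_I (u : RuVec) : ruNorm (gI • u) = ruNorm u := by rw [norm_eq, dot_I, dot_II, neg_neg, norm_eq]
theorem norm_four (u : RuVec) : ruNorm ((4 : ℤ) • u) = 16 * ruNorm u := by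
  simp only [norm_eq, dot_eq, co_four, mul_sum]
  exact sum_congr rfl fun p _ => by ring
theorem norm_zero {u : RuVec} (h : ruNorm u = 0) : u = 0 := funext fun p =>
  GaussianInt.norm_eq_zero.1 ((sum_eq_zero_iff_of_nonneg fun p _ => GaussianInt.norm_nonneg (u p)).1 h p (mem_univ p))

def Or' (u v : RuVec) : Prop := dot u v = 0 ∧ dot u (gI • v) = 0

theorem or_comm' {u v : RuVec} (h : Or' u v) : Or' v u :=
  ⟨(dot_comm _ _).trans h.1, by rw [dot_comm, dot_I, h.2, neg_zero]⟩
theorem or_I (u v : RuVec) : Or' u (gI • v) ↔ Or' u v := by rw [Or', Or', dot_II, neg_eq_zero, and_comm]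
theorem or_pow (u v : RuVec) (e : ℕ) : Or' u (gI ^ e • v) ↔ Or' u v := by
  induction e with
  | zero => rw [pow_zero, one_smul]
  | succ e ih => rw [pow_succ', mul_smul, or_I, ih]
theorem or_pow2 (u v : RuVec) (a b : ℕ) : Or' (gI ^ a • u) (gI ^ b • v) ↔ Or' u v := by
  rw [or_pow]
  exact ⟨fun h => or_comm' ((or_pow _ _ a).1 (or_comm' h)), fun h => or_comm' ((or_pow _ _ a).2 (or_comm' h))⟩
theorem norm_pow (u : RuVec) (e : ℕ) : ruNorm (gI ^ e • u) = ruNorm u := by
  induction e with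
  | zero => rw [pow_zero, one_smul]
  | succ e ih => rw [pow_succ', mul_smul, norm_I, ih]

/-! packed vectors -/

/-- the number `d` names the vector `u` -/
def Rp (d : ℕ) (u : RuVec) : Prop := ∃ f, d = pk 16 56 f ∧ ∀ q < 56, f q ≤ 8 ∧ co u q = f q - 4

noncomputable def rot (d : ℕ) : ℕ :=
  Nat.add (Nat.sub (rep 16 28 8) (Nat.shiftRight d 448)) (Nat.shiftLeft (Nat.land d (Nat.pred (Nat.shiftLeft 1 448))) 448)

theorem pk_split (W n m : ℕ) (f : ℕ → ℕ) : pk W (n + m) f = pk W n f + 2 ^ (W * n) * pk W m fun t => f (n + t) := by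
  rw [pk, sum_range_add, pk, pk, mul_sum]
  exact congrArg _ (sum_congr rfl fun t _ => by rw [mul_add, pow_add]; ring)

theorem rep_sub {W N c : ℕ} (hW : 0 < W) {f : ℕ → ℕ} (h : ∀ t < N, f t ≤ c) :
    rep W N c - pk W N f = pk W N fun t => c - f t := by
  rw [rep_eq hW, Nat.sub_eq_iff_eq_add' , pk_add]
  · exact pk_congr fun t ht => by have := h t ht; omega
  · exact sum_le_sum fun t ht => Nat.mul_le_mul_right _ (h t (mem_range.1 ht))

theorem Rp.rot {d : ℕ} {u : RuVec} (h : Rp d u) : Rp (rot d) (gI • u) := by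
  obtain ⟨f, e, hf⟩ := h
  rw [e]
  have b : pk 16 28 f < 2 ^ 448 := pk_lt (W := 16) fun t ht => by have := (hf t (by omega)).1; omega
  refine ⟨fun q => if q < 28 then 8 - f (28 + q) else f (q - 28), ?_, cases56 (fun q hq => ?_) fun q hq => ?_⟩
  · change rep 16 28 8 - pk 16 56 f >>> 448 + (pk 16 56 f &&& (1 <<< 448 - 1)) <<< 448 = _
    rw [show 56 = 28 + 28 from rfl, pk_split, pk_split, Nat.one_shiftLeft, Nat.and_two_pow_sub_one_eq_mod,
      Nat.shiftRight_eq_div_pow, Nat.shiftLeft_eq, show 16 * 28 = 448 from rfl, Nat.add_mul_mod_self_left,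
      Nat.add_mul_div_left _ _ (by positivity), Nat.mod_eq_of_lt b, Nat.div_eq_of_lt b, zero_add,
      rep_sub (by decide) fun t ht => (hf _ (by omega)).1, mul_comm]
    exact congrArg₂ _ (pk_congr fun t ht => (if_pos ht).symm)
      (congrArg _ (pk_congr fun t _ => by rw [if_neg (by omega), Nat.add_sub_cancel_left]))
  · have := hf (28 + q) (by omega)
    simp only [if_pos hq, co_I_lo u hq]; omega
  · have := hf q (by omega)
    simp only [if_neg (show ¬ 28 + q < 28 by omega), co_I_hi u hq, Nat.add_sub_cancel_left]; omega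

theorem Rp.dig {d : ℕ} {u : RuVec} (h : Rp d u) :
    d = pk 16 56 (dig 16 d) ∧ ∀ q < 56, dig 16 d q ≤ 8 ∧ co u q = dig 16 d q - 4 := by
  obtain ⟨f, e0, hf⟩ := h
  rw [e0]
  have e : ∀ q < 56, CfH6.dig 16 (pk 16 56 f) q = f q := fun q hq => dig_pk (fun t ht => by have := (hf t ht).1; omega) hq
  exact ⟨pk_congr fun t ht => (e t ht).symm, fun q hq => e q hq ▸ hf q hq⟩

theorem Rp.uniq {d : ℕ} {u v : RuVec} (h : Rp d u) (h' : Rp d v) : u = v :=
  co_ext fun q hq => (h.dig.2 q hq).2.trans (h'.dig.2 q hq).2.symm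

/-- signed sum of the packed columns `l` with the digits of `d` as coefficients -/
noncomputable def rs' (R d : ℕ) (l : List ℕ) : ℕ → ℕ :=
  List.rec (fun _ => 0) (fun P _ ih s => frc (Nat.land (Nat.shiftRight d s) 65535) fun x => frc (Nat.add s 16) fun s' =>
    Nat.rec (Nat.rec (ih s') (fun a _ => Nat.add (ih s') (Nat.mul (Nat.succ a) (Nat.sub R P))) (Nat.sub 4 x))
      (fun a _ => Nat.add (ih s') (Nat.mul (Nat.succ a) P)) (Nat.sub x 4)) l

noncomputable def rs (R : ℕ) (l : List ℕ) (d : ℕ) : ℕ := rs' R d l 0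

theorem rs_eq' (R d : ℕ) (l : List ℕ) : ∀ i, rs' R d l (16 * i) =
    ∑ q ∈ range l.length, ((dig 16 d (i + q) - 4) * l.getD q 0 + (4 - dig 16 d (i + q)) * (R - l.getD q 0)) := by
  induction l with
  | nil => exact fun _ => rfl
  | cons P l ih =>
    intro i
    have e : rs' R d (P :: l) (16 * i) = (Nat.rec (Nat.rec (rs' R d l (16 * (i + 1)))
        (fun a _ => rs' R d l (16 * (i + 1)) + (a + 1) * (R - P)) (4 - (d >>> (16 * i) &&& 65535)))
        (fun a _ => rs' R d l (16 * (i + 1)) + (a + 1) * P) ((d >>> (16 * i) &&& 65535) - 4) : ℕ) := by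
      simp only [rs', frc_eq]; rfl
    have e2 : d >>> (16 * i) &&& 65535 = dig 16 d i := Nat.and_two_pow_sub_one_eq_mod _ 16
    rw [e, List.length_cons, sum_range_succ', e2, ih]
    simp only [List.getD_cons_succ, List.getD_cons_zero, add_assoc, add_comm 1, add_zero]
    cases h1 : dig 16 d i - 4 with
    | zero => cases h2 : 4 - dig 16 d i <;> simp
    | succ a => rw [show 4 - dig 16 d i = 0 by omega]; simp

theorem rs_eq (R : ℕ) (l : List ℕ) (d : ℕ) : rs R l d =
    ∑ q ∈ range l.length, ((dig 16 d q - 4) * l.getD q 0 + (4 - dig 16 d q) * (R - l.getD q 0)) := by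
  exact (rs_eq' R d l 0).trans (by simp only [zero_add])

def hs (c : ℕ) (x g : ℕ → ℕ) : ℕ := ∑ q ∈ range 56, ((x q - 4) * g q + (4 - x q) * (2 * c - g q))
def of' (x : ℕ → ℕ) : ℕ := ∑ q ∈ range 56, ((x q - 4) + (4 - x q))

theorem hs_cast {c : ℕ} (x : ℕ → ℕ) {g : ℕ → ℕ} (h : ∀ q < 56, g q ≤ 2 * c) :
    (hs c x g : ℤ) = ∑ q ∈ range 56, ((x q : ℤ) - 4) * (g q - c) + c * of' x ∧ hs c x g ≤ 2 * c * of' x := by
  constructor
  · rw [hs, of', Nat.cast_sum, Nat.cast_sum, mul_sum, ← sum_add_distrib]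
    refine sum_congr rfl fun q hq => ?_
    have := h q (mem_range.1 hq)
    rcases le_total (x q) 4 with a | a
    · rw [Nat.sub_eq_zero_of_le a]; push_cast [a, this]; ring
    · rw [Nat.sub_eq_zero_of_le a]; push_cast [a, this]; ring
  · rw [hs, of', mul_sum]
    refine sum_le_sum fun q hq => ?_
    rw [mul_add, mul_comm (2 * c), mul_comm (2 * c)]
    exact Nat.add_le_add (Nat.mul_le_mul_left _ (h q (mem_range.1 hq))) (Nat.mul_le_mul_left _ (Nat.sub_le _ _))

theorem pk_sum (W N : ℕ) {ι : Type*} (s : Finset ι) (g : ι → ℕ → ℕ) :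
    ∑ q ∈ s, pk W N (g q) = pk W N fun t => ∑ q ∈ s, g q t := by
  simp only [pk, sum_mul]; exact sum_comm

theorem rs_pk {N c : ℕ} {l : List ℕ} {g : ℕ → ℕ → ℕ} (hl : l.length = 56)
    (h : ∀ q < 56, l.getD q 0 = pk 16 N (g q) ∧ ∀ t < N, g q t ≤ 2 * c) (d : ℕ) :
    rs (rep 16 N (2 * c)) l d = pk 16 N fun t => hs c (dig 16 d) fun q => g q t := by
  rw [rs_eq, hl, show (fun t => hs c (dig 16 d) fun q => g q t) = fun t => ∑ q ∈ range 56, _ from rfl, ← pk_sum]
  refine sum_congr rfl fun q hq => ?_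
  have := h q (mem_range.1 hq)
  rw [this.1, rep_sub (by decide) this.2, pk_smul, pk_smul, pk_add]

noncomputable def off (d : ℕ) : ℕ := rs 2 (List.replicate 56 1) d

theorem off_eq (d : ℕ) : off d = of' (dig 16 d) := by
  rw [off, rs_eq, List.length_replicate]
  refine sum_congr rfl fun q hq => ?_
  rw [List.getD_eq_getElem _ _ (by simpa using hq), List.getElem_replicate]; simp

/-- the places where the digit is at least `m` -/
noncomputable def ge (O X m : ℕ) : ℕ := Nat.land (Nat.shiftRight (Nat.add X (Nat.mul (Nat.sub 32768 m) O)) 15) O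

theorem ge_pk {N m : ℕ} {f : ℕ → ℕ} (hf : ∀ t < N, f t < 32768) (hm : m ≤ 32768) :
    ge (rep 16 N 1) (pk 16 N f) m = pk 16 N fun t => if m ≤ f t then 1 else 0 := by
  change ((pk 16 N f + (32768 - m) * rep 16 N 1) >>> 15) &&& rep 16 N (2 ^ 1 - 1) = _
  rw [land_rep (by decide) (by decide), rep_eq (by decide), pk_smul, pk_add]
  refine pk_congr fun t ht => ?_
  have e := dig_pk (W := 16) (d := fun t => f t + (32768 - m) * 1) (fun t ht => by have := hf t ht; omega) ht
  generalize pk 16 N (fun t => f t + (32768 - m) * 1) = Y at e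
  have := hf t ht
  rw [dig] at e ⊢
  rw [← Nat.shiftRight_add, add_comm 15, Nat.shiftRight_add, Nat.shiftRight_eq_div_pow _ 15]
  split_ifs <;> omega

theorem pk_mod (N : ℕ) (f : ℕ → ℕ) : pk 16 N f % 65535 = (∑ t ∈ range N, f t) % 65535 := by
  rw [pk, sum_nat_mod, sum_nat_mod _ _ f]
  congr 1
  refine sum_congr rfl fun t _ => ?_
  rw [pow_mul, Nat.mul_mod, Nat.pow_mod]; simp

theorem dig_block (x a : ℕ) : dig 896 x a = pk 16 56 fun r => dig 16 x (56 * a + r) := by
  rw [dig, show 896 = 16 * 56 from rfl, ← pk_dig]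
  exact pk_congr fun r _ => by rw [dig, dig, ← Nat.shiftRight_add]; congr 2; ring

theorem pk_inj {N : ℕ} {f g : ℕ → ℕ} (hf : ∀ t < N, f t < 65536) (hg : ∀ t < N, g t < 65536)
    (h : pk 16 N f = pk 16 N g) {t : ℕ} (ht : t < N) : f t = g t := by
  rw [← dig_pk (W := 16) hf ht, h, dig_pk (W := 16) hg ht]

end CfH4.Ru
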