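import Cfsg.Agent.H4.RuD8

/-! Counting the minimal vectors of the Rudvalis lattice: the checker. -/

set_option autoImplicit false
set_option exponentiation.threshold 1100
open Cfsg.Spor CfH6 CfL Finset

namespace CfH4.Ru

/-! spans over `𝔽₂` -/

def Spn : List (ℕ × ℕ) → ℕ → Prop
  | [], x => x = 0
  | a :: l, x => Spn l x ∨ Spn l (x ^^^ a.2)

theorem Spn.xor {l : List (ℕ × ℕ)} : ∀ {x y : ℕ}, Spn l x → Spn l y → Spn l (x ^^^ y) := by
  induction l with
  | nil => rintro _ _ rfl rfl; rfl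
  | cons a l ih =>
    rintro x y (h | h) (h' | h')
    · exact Or.inl (ih h h')
    · exact Or.inr (Nat.xor_assoc x y _ ▸ ih h h')
    · exact Or.inr (by have := ih h h'; rwa [Nat.xor_right_comm] at this)
    · exact Or.inl (by have := ih h h'; rwa [Nat.xor_comm y, ← Nat.xor_assoc, Nat.xor_xor_cancel_right] at this)

theorem Spn.zero (l : List (ℕ × ℕ)) : Spn l 0 := by
  induction l with
  | nil => rfl
  | cons a l ih => exact Or.inl ih

noncomputable def inSp (l : List (ℕ × ℕ)) : ℕ → Bool :=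
  List.rec (fun x => Nat.beq x 0) (fun a _ ih x =>
    Nat.rec (ih x) (fun _ _ => ih (Nat.xor x a.2)) (Nat.land (Nat.shiftRight x a.1) 1)) l

theorem inSp_sound (l : List (ℕ × ℕ)) : ∀ x, inSp l x = true → Spn l x := by
  induction l with
  | nil => exact fun x h => Nat.eq_of_beq_eq_true h
  | cons a l ih =>
    intro x h
    have h : (Nat.rec (inSp l x) (fun _ _ => inSp l (x ^^^ a.2)) (Nat.land (Nat.shiftRight x a.1) 1) : Bool) = true := h
    cases e : Nat.land (Nat.shiftRight x a.1) 1 <;> rw [e] at h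
    exacts [Or.inl (ih _ h), Or.inr (ih _ h)]

theorem pk_xor {W N : ℕ} {f g : ℕ → ℕ} (hf : ∀ t < N, f t < 2 ^ W) (hg : ∀ t < N, g t < 2 ^ W) :
    pk W N f ^^^ pk W N g = pk W N fun t => f t ^^^ g t := by
  rw [← Nat.mod_eq_of_lt (Nat.xor_lt_two_pow (pk_lt hf) (pk_lt hg)), ← pk_dig]
  exact pk_congr fun t ht => by rw [MP.dig_xor, dig_pk hf ht, dig_pk hg ht]

theorem xor_mod (a b : ℕ) : a % 2 ^^^ b % 2 = (a + b) % 2 := by
  rcases Nat.mod_two_eq_zero_or_one a with h | h <;> rcases Nat.mod_two_eq_zero_or_one b with h' | h' <;>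
    rw [Nat.add_mod, h, h'] <;> rfl

/-! counting solutions of linear systems -/

def cnt : List ℕ → ℕ → ℕ
  | [], s => if s = 0 then 1 else 0
  | h :: l, s => cnt l s + cnt l (s ^^^ h)

noncomputable def red (h b x : ℕ) : ℕ := Bool.rec x (Nat.xor x h) (bitN x b)

theorem red_xor (h b x y : ℕ) : red h b (x ^^^ y) = red h b x ^^^ red h b y := by
  simp only [red, bitN_eq, Nat.testBit_xor]
  change (Bool.rec _ (x ^^^ y ^^^ h) _ : ℕ) = (Bool.rec _ (x ^^^ h) _ : ℕ) ^^^ (Bool.rec _ (y ^^^ h) _ : ℕ)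
  cases x.testBit b <;> cases y.testBit b
  · rfl
  · exact Nat.xor_assoc _ _ _
  · exact Nat.xor_right_comm _ _ _
  · change x ^^^ y = x ^^^ h ^^^ (y ^^^ h)
    rw [Nat.xor_comm y h, ← Nat.xor_assoc, Nat.xor_xor_cancel_right]

theorem cnt_red {h b : ℕ} (hb : h.testBit b = true) (l : List ℕ) : ∀ s, cnt (h :: l) s = cnt (l.map (red h b)) (red h b s) := by
  induction l with
  | nil =>
    intro s
    simp only [cnt, List.map_nil, red, bitN_eq]
    cases e : s.testBit b
    · rw [if_neg (c := s ^^^ h = 0) fun a => by rw [Nat.eq_of_xor_eq_zero a, hb] at e; cases e]; rfl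
    · rw [if_neg (c := s = 0) fun a => by simp [a] at e, zero_add]; rfl
  | cons x l ih =>
    intro s
    rw [List.map_cons, cnt, cnt, cnt, cnt, ← red_xor, ← ih, ← ih, cnt, cnt, Nat.xor_right_comm s h x]
    omega

noncomputable def fn (f : ℕ → ℕ) (l : List ℕ) : (List ℕ → ℕ) → ℕ :=
  List.rec (fun k => k []) (fun a _ ih k => frc (f a) fun x => ih fun l' => k (x :: l')) l

theorem fn_eq (f : ℕ → ℕ) (l : List ℕ) : ∀ k, fn f l k = k (l.map f) := by
  induction l with
  | nil => exact fun _ => rfl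
  | cons a l ih => exact fun k => (frc_eq (f a) fun x => fn f l fun l' => k (x :: l')).trans (ih _)

noncomputable def gel (n : ℕ) : List ℕ → ℕ → ℕ :=
  Nat.rec cnt (fun _ ih l s => List.rec (Bool.rec 0 1 (Nat.beq s 0)) (fun h l' _ =>
    Bool.rec (frc (Nat.log2 h) fun b => fn (red h b) l' fun l'' => frc (red h b s) (ih l''))
      (Nat.mul 2 (ih l' s)) (Nat.beq h 0)) l) n

theorem gel_eq (n : ℕ) : ∀ l s, gel n l s = cnt l s := by
  induction n with
  | zero => exact fun _ _ => rfl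
  | succ n ih =>
    rintro (_ | ⟨h, l⟩) s
    · change (Bool.rec 0 1 (Nat.beq s 0) : ℕ) = if _ then _ else _
      split_ifs with e
      · rw [e]; rfl
      · rw [beq_ne e]
    · change (Bool.rec (frc (Nat.log2 h) fun b => fn (red h b) l fun l'' => frc (red h b s) (gel n l''))
        (2 * gel n l s) (Nat.beq h 0) : ℕ) = _
      by_cases e : h = 0
      · rw [e, cnt, Nat.xor_zero, ih, ← two_mul]; rfl
      · rw [beq_ne e, cnt_red (Nat.testBit_log2 e)]; simp only [frc_eq, fn_eq, ih]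

def V : List ℕ → ℕ → Finset (List Bool)
  | [], s => if s = 0 then {[]} else ∅
  | h :: l, s => (V l s).image (false :: ·) ∪ (V l (s ^^^ h)).image (true :: ·)

theorem card_V (l : List ℕ) : ∀ s, (V l s).card ≤ cnt l s := by
  induction l with
  | nil => intro s; simp only [V, cnt]; split_ifs <;> simp
  | cons h l ih => exact fun s => (card_union_le _ _).trans (Nat.add_le_add (card_image_le.trans (ih _)) (card_image_le.trans (ih _)))

/-! the conditions modulo four -/

noncomputable def kd : List ℕ := ks.map d ++ [rot (d 1756)]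
noncomputable def gg (j q : ℕ) : ℕ := dig 16 (kd.getD j 0) q
noncomputable def HH (q : ℕ) : ℕ := sum1 (fun j => Nat.shiftLeft (Nat.mod (gg j q) 2) j) 19
noncomputable def col (q : ℕ) : ℕ := sum1 (fun j => Nat.shiftLeft (gg j q) (Nat.mul 16 j)) 19
noncomputable def ss (l : List ℕ) : ℕ := frc (l.map col).sum fun X =>
  sum1 (fun j => Nat.shiftLeft (Nat.mod (Nat.div (dig 16 X j) 2) 2) j) 19
noncomputable def xl (l : List ℕ) : ℕ := l.foldr (fun q s => s ^^^ HH q) 0

theorem sum1_pk (W N : ℕ) (f : ℕ → ℕ) : sum1 (fun j => f j <<< (W * j)) N = pk W N f := by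
  rw [sum1_eq]; exact sum_congr rfl fun t _ => Nat.shiftLeft_eq _ _

theorem xl_pk (l : List ℕ) : xl l = pk 1 19 fun j => (l.map (gg j)).sum % 2 := by
  induction l with
  | nil => simp [xl, pk]
  | cons q l ih =>
    change xl l ^^^ HH q = _
    rw [ih, show HH q = _ from (by simp only [one_mul]; rfl : _ = _).trans (sum1_pk 1 19 fun j => gg j q % 2),
      pk_xor (fun _ _ => by omega) fun _ _ => by omega]
    exact pk_congr fun j _ => by rw [xor_mod, List.map_cons, List.sum_cons, add_comm]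

theorem mem_V (y : ℕ → Bool) (l : List ℕ) : l.map y ∈ V (l.map HH) (xl (l.filter y)) := by
  induction l with
  | nil => simp [V, xl]
  | cons q l ih =>
    rw [List.map_cons, List.map_cons, V, List.filter_cons]
    cases y q
    · exact mem_union_left _ (mem_image_of_mem _ ih)
    · refine mem_union_right _ (mem_image_of_mem _ ?_)
      change _ ∈ V _ (xl (l.filter y) ^^^ HH q ^^^ HH q)
      rwa [Nat.xor_xor_cancel_right]

noncomputable def sup (x : ℕ) : List ℕ := (List.range 56).filter fun q => Nat.beq (dig 16 x q) 1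

noncomputable def fib (x : ℕ) : ℕ := fn (fun q => q) (sup x) fun l => fn HH l fun hs => frc (ss l) fun s =>
  Bool.rec (Bool.rec (Bool.rec 20000 112 (Nat.beq l.length 0))
    (Bool.rec 20000 0 (all1 (fun a => all1 (fun b => frc (Nat.xor (Nat.xor s (HH a)) (HH b)) fun s' =>
      Nat.beq (gel 8 hs s') 0) (Nat.succ a)) 57)) (Nat.beq l.length 8))
    (gel 16 hs s) (Nat.beq l.length 16)

/-! weight tables -/

def cw : List (ℕ × ℕ) → ℕ → ℕ
  | [], _ => 0
  | a :: l, m => Bool.rec (Nat.xor a.2 (cw l (Nat.sub m (Nat.pow 2 l.length)))) (cw l m) (Nat.blt m (Nat.pow 2 l.length))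

noncomputable def tt (t : ℕ) (l : List (ℕ × ℕ)) : ℕ :=
  List.rec 0 (fun a l ih => Nat.add ih (Nat.shiftLeft (Bool.rec ih (Nat.sub (rep 16 (Nat.pow 2 l.length) 2) ih)
    (Nat.beq (dig 16 a.2 t) 1)) (Nat.mul 16 (Nat.pow 2 l.length)))) l

noncomputable def O12 : ℕ := rep 16 4096 1

noncomputable def lp (F : ℕ → ℕ) (n : ℕ) : ℕ → ℕ :=
  Nat.rec (fun M => Bool.rec 20000 0 (Nat.beq M 0)) (fun _ ih M => Bool.rec
    (frc (Nat.pred (Nat.mod (Nat.land (Nat.xor M (Nat.pred M)) O12) 65535)) fun m =>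
      Nat.add (F m) (ih (Nat.xor M (Nat.shiftLeft 1 (Nat.mul 16 m))))) 0 (Nat.beq M 0)) n

noncomputable def leaf (x : ℕ) : ℕ := lp (fun m => fib (Nat.xor x (cw Gi m))) 256
  (Nat.xor O12 (ge O12 (rs (rep 16 4096 2) ((List.range 56).map fun t => tt t Gi) (Nat.sub (rep 16 56 5) (Nat.mul 2 x))) 33))

noncomputable def tot (l : List (ℕ × ℕ)) : ℕ → ℕ :=
  List.rec leaf (fun a _ ih x => Nat.add (ih x) (ih (Nat.xor x a.2))) l

end CfH4.Ru
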