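import Cfsg.Agent.H4.RuC4
import Cfsg.Agent.OD.Helper4x5eaa14797e

/-! The Rudvalis lattice has at most 16240 minimal vectors. -/

set_option autoImplicit false
set_option exponentiation.threshold 1100
open Cfsg.Spor CfH6 CfL Finset

namespace CfH4.Ru

irreducible_def res (u : RuVec) : ℕ := pk 16 56 fun q => (co u q % 2).toNat
def MM : Set RuVec := {u | u ∈ ruLattice ∧ ruNorm u = 16}
def Bd (A : Set RuVec) (n : ℕ) : Prop := n ≤ 16240 → A.encard ≤ n

theorem Bd.union {A B C : Set RuVec} {a b : ℕ} (ha : Bd A a) (hb : Bd B b) (h : C ⊆ A ∪ B) : Bd C (a + b) := fun e =>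
  (Set.encard_le_encard h).trans ((Set.encard_union_le _ _).trans (by
    rw [Nat.cast_add]; exact add_le_add (ha (by omega)) (hb (by omega))))

theorem Bd.empty {A : Set RuVec} (h : ∀ u, u ∉ A) (n : ℕ) : Bd A n := fun _ => by
  rw [Set.eq_empty_iff_forall_notMem.2 h]; simp

theorem Bd.big (A : Set RuVec) : Bd A 20000 := fun h => absurd h (by decide)

theorem dig_res (u : RuVec) {q : ℕ} (hq : q < 56) : dig 16 (res u) q = (co u q % 2).toNat :=
  by rw [res_def, dig_pk (fun _ _ => by omega) hq]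

theorem res_add (u v : RuVec) : res (u + v) = res u ^^^ res v := by
  rw [res_def, res_def, res_def, pk_xor (fun _ _ => by omega) fun _ _ => by omega]
  refine pk_congr fun q _ => ?_
  rw [co_add]
  rcases Int.emod_two_eq_zero_or_one (co u q) with h | h <;> rcases Int.emod_two_eq_zero_or_one (co v q) with h' | h' <;>
    rw [Int.add_emod, h, h'] <;> rfl

theorem res_neg (u : RuVec) : res (-u) = res u := by
  rw [res_def, res_def]
  exact pk_congr fun q _ => by rw [show co (-u) q = -co u q from map_neg (coH q) u, Int.neg_emod_two]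

theorem res_rp {D : ℕ} {u : RuVec} (h : Rp D u) : D &&& rep 16 56 1 = res u :=
  (land_rep (b := 1) (by decide) (by decide) D).trans ((pk_congr fun q hq => by have := h.dig.2 q hq; omega).trans (res_def u).symm)

def KS (G : List (ℕ × ℕ)) : AddSubgroup RuVec where
  carrier := {u | Spn G (res u)}
  add_mem' {a b} ha hb := by rw [Set.mem_ofPred_eq, res_add]; exact Spn.xor ha hb
  zero_mem' := by
    rw [Set.mem_ofPred_eq, ← add_zero (0 : RuVec), res_add, Nat.xor_self]
    exact Spn.zero _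
  neg_mem' {a} ha := by rw [Set.mem_ofPred_eq, res_neg]; exact ha

theorem mem_KS {G : List (ℕ × ℕ)} {u : RuVec} : u ∈ KS G ↔ Spn G (res u) := Iff.rfl

theorem spn_L {u : RuVec} (h : u ∈ ruLattice) : Spn (Go ++ Gi) (res u) := by
  have c := sp_ok
  generalize Go ++ Gi = G at c
  refine mem_KS.1 (L_le (K := KS G) (fun e i => ?_) h)
  rw [mem_KS]
  have := (allN_iff _ _).1 c i.1 i.lt
  rw [Bool.and_eq_true, Nat.land_eq, Nat.land_eq, res_rp (hd i.lt).1, res_rp (hd i.lt).1.rot] at this
  induction e using Nat.twoStepInduction with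
  | zero => rw [pow_zero, one_smul]; exact inSp_sound _ _ this.1
  | one => rw [pow_one]; exact inSp_sound _ _ this.2
  | more e ih _ => rwa [pow_add, show gI ^ 2 = -1 by decide, mul_neg, mul_one, neg_smul, res_neg]

def Mk (x : ℕ) : Prop := ∃ f : ℕ → ℕ, x = pk 16 56 fun t => f t % 2

theorem Mk.xor {x y : ℕ} : Mk x → Mk y → Mk (x ^^^ y) := by
  rintro ⟨f, a⟩ ⟨g, b⟩
  rw [a, b]
  exact ⟨f + g, (pk_xor (fun _ _ => by omega) fun _ _ => by omega).trans (pk_congr fun _ _ => xor_mod _ _)⟩
theorem Mk.le {x t : ℕ} (h : Mk x) (ht : t < 56) : dig 16 x t ≤ 1 := by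
  obtain ⟨f, e⟩ := h
  rw [e, dig_pk (fun _ _ => by omega) ht]; omega
theorem mk_G {a : ℕ × ℕ} (h : a ∈ Go ++ Gi) : Mk a.2 :=
  ⟨_, (G_ok a h).symm.trans (land_rep (b := 1) (by decide) (by decide) _)⟩

theorem cw_cons (a : ℕ × ℕ) (l : List (ℕ × ℕ)) (m : ℕ) :
    cw (a :: l) m = if m < 2 ^ l.length then cw l m else a.2 ^^^ cw l (m - 2 ^ l.length) := by
  change (Bool.rec _ _ (Nat.blt m (2 ^ l.length)) : ℕ) = _
  split_ifs with h
  · rw [blt2 h]
  · rw [Bool.eq_false_iff.2 fun e => h (blt1 e)]; rfl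

theorem Spn.cw {l : List (ℕ × ℕ)} : ∀ {x}, Spn l x → ∃ m < 2 ^ l.length, x = cw l m := by
  induction l with
  | nil => exact fun h => ⟨0, one_pos, h⟩
  | cons a l ih =>
    rintro x (h | h) <;> obtain ⟨m, hm, e⟩ := ih h
    · exact ⟨m, by rw [List.length_cons, pow_succ]; omega, by rw [cw_cons, if_pos hm, e]⟩
    · exact ⟨2 ^ l.length + m, by rw [List.length_cons, pow_succ]; omega, by
        rw [cw_cons, if_neg (by omega), Nat.add_sub_cancel_left, ← e, Nat.xor_comm x, Nat.xor_xor_cancel_left]⟩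

theorem mk_cw {l : List (ℕ × ℕ)} (h : ∀ a ∈ l, Mk a.2) : ∀ m, Mk (cw l m) := by
  induction l with
  | nil => exact fun _ => ⟨0, by simp [cw, pk]⟩
  | cons a l ih =>
    intro m
    have ih := ih fun b hb => h b (List.mem_cons_of_mem _ hb)
    rw [cw_cons]; split_ifs
    exacts [ih _, (h a List.mem_cons_self).xor (ih _)]

theorem tt_pk {t : ℕ} (ht : t < 56) {l : List (ℕ × ℕ)} (h : ∀ a ∈ l, Mk a.2) :
    tt t l = pk 16 (2 ^ l.length) fun m => 2 * dig 16 (cw l m) t := by
  induction l with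
  | nil => simp [tt, cw, pk, dig]
  | cons a l ih =>
    have h' := fun b hb => h b (List.mem_cons_of_mem _ hb)
    have b := fun m => (mk_cw h' m).le ht
    have c := (h a List.mem_cons_self).le ht
    change tt t l + (Bool.rec (tt t l) (rep 16 (2 ^ l.length) 2 - tt t l) (Nat.beq (dig 16 a.2 t) 1) : ℕ) <<<
      (16 * 2 ^ l.length) = _
    rw [List.length_cons, pow_succ, mul_two, pk_split, ih h', Nat.shiftLeft_eq, mul_comm]
    refine congrArg₂ _ (pk_congr fun m hm => by rw [cw_cons, if_pos hm]) (congrArg _ ?_)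
    simp only [cw_cons, if_neg (Nat.not_lt.2 (Nat.le_add_right _ _)), Nat.add_sub_cancel_left, dig_xor]
    by_cases e : dig 16 a.2 t = 1
    · rw [e, Nat.beq_refl, rep_sub (by decide) fun m _ => by have := b m; omega]
      refine pk_congr fun m _ => ?_
      have := b m
      interval_cases dig 16 (cw l m) t <;> rfl
    · rw [beq_ne e, show dig 16 a.2 t = 0 by omega]; simp

theorem lp_sound {A : ℕ → Set RuVec} {F : ℕ → ℕ} (h : ∀ m, Bd (A m) (F m)) (n : ℕ) :
    ∀ M, Bd {u | ∃ m, dig 16 M m ≠ 0 ∧ u ∈ A m} (lp F n M) := by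
  have z : ∀ k, Bd {u | ∃ m, dig 16 0 m ≠ 0 ∧ u ∈ A m} k := Bd.empty fun u ⟨m, hm, _⟩ => hm (by simp [dig])
  induction n with
  | zero =>
    intro M
    change Bd _ (Bool.rec 20000 0 (Nat.beq M 0))
    by_cases e : M = 0
    · exact e ▸ z _
    · rw [beq_ne e]; exact fun h => absurd h (by decide)
  | succ n ih =>
    intro M
    by_cases e : M = 0
    · exact e ▸ z _
    change Bd _ (Bool.rec (frc _ fun m => F m + lp F n (M ^^^ 1 <<< (16 * m))) 0 (Nat.beq M 0))
    rw [beq_ne e, frc_eq]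
    generalize Nat.pred _ = k
    refine (h k).union (ih _) fun u ⟨m, h1, h2⟩ => ?_
    by_cases a : m = k
    · exact Or.inl (a ▸ h2)
    · refine Or.inr ⟨m, ?_, h2⟩
      rwa [dig_xor, pk_one (N := m + k + 1) (by omega), dig_pk (fun _ _ => by split_ifs <;> omega) (by omega), if_neg a,
        Nat.xor_zero]

theorem fsum (p : ℕ → Bool) (g : ℕ → ℕ) :
    ((((List.range 56).filter p).map g).sum : ℤ) = ∑ q ∈ range 56, if p q = true then (g q : ℤ) else 0 := by
  generalize 56 = n
  induction n with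
  | zero => rfl
  | succ n ih =>
    rw [List.range_succ, List.filter_append, List.map_append, List.sum_append, Nat.cast_add, ih, sum_range_succ]
    cases h : p n <;> simp [h]

theorem flen (p : ℕ → Bool) : (((List.range 56).filter p).length : ℤ) = ∑ q ∈ range 56, if p q = true then 1 else 0 := by
  simpa using fsum p fun _ => 1

theorem norm16 {u : RuVec} (h : u ∈ MM) : ∑ q ∈ range 56, co u q * co u q = 16 := by rw [← dot_eq, ← norm_eq, h.2]

def od (u : RuVec) : List ℕ := (List.range 56).filter fun q => decide (co u q % 2 = 1)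
def ou (u : RuVec) : List ℕ := (List.range 56).filter fun q => decide (co u q % 4 = 2)
def yy (u : RuVec) (q : ℕ) : Bool := decide (2 ≤ co u q % 4)

theorem sup_res (u : RuVec) : sup (res u) = od u := List.filter_congr fun q hq => by
  rw [dig_res u (List.mem_range.1 hq), Bool.eq_iff_iff, Nat.beq_eq, decide_eq_true_iff]; omega

theorem sq_ge (a : ℤ) : ((if decide (a % 2 = 1) = true then 1 else 0) + 4 * if decide (a % 4 = 2) = true then 1 else 0) ≤ a * a := by
  simp only [decide_eq_true_iff]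
  split_ifs
  · omega
  · rcases (by omega : a ≤ -1 ∨ 1 ≤ a) with h | h <;> nlinarith
  · rcases (by omega : a ≤ -2 ∨ 2 ≤ a) with h | h <;> nlinarith
  · simpa using mul_self_nonneg a

theorem len_le {u : RuVec} (h : u ∈ MM) : (od u).length + 4 * (ou u).length ≤ 16 := by
  have := sum_le_sum fun q (_ : q ∈ range 56) => sq_ge (co u q)
  rw [norm16 h, sum_add_distrib, ← mul_sum, ← flen, ← flen] at this
  exact_mod_cast this

theorem kd_ok {j : ℕ} (hj : j < 19) : ∃ w, Rp (kd.getD j 0) w ∧ ∀ u ∈ ruLattice, 4 ∣ dot w u := by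
  have : kd.getD j 0 ∈ kd := by rw [List.getD_eq_getElem _ _ hj]; exact List.getElem_mem _
  generalize kd.getD j 0 = D at this
  rcases List.mem_append.1 this with h | h
  · obtain ⟨k, hk, rfl⟩ := List.mem_map.1 h
    have a := (by decide : ∀ k ∈ ks, k < 4060) k hk
    exact ⟨_, (hd a).1, dot4 ⟨k, a⟩⟩
  · exact ⟨_, List.mem_singleton.1 h ▸ (hd (by decide)).1.rot, fun u hu => by
      rw [dot_I, dvd_neg]; exact dot4 (pp 1756) _ (gI_smul_mem_ruLattice hu)⟩

theorem ss_pk (p : ℕ → Bool) : ss ((List.range 56).filter p) =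
    pk 1 19 fun j => (((List.range 56).filter p).map (gg j)).sum / 2 % 2 := by
  have k : ∀ l : List ℕ, (l.map col).sum = pk 16 19 fun j => (l.map (gg j)).sum := fun l => by
    induction l with
    | nil => simp [pk]
    | cons q l ih => rw [List.map_cons, List.sum_cons, ih, show col q = _ from sum1_pk 16 19 fun j => gg j q, pk_add]; rfl
  have k2 : ∀ X, sum1 (fun j => Nat.shiftLeft (Nat.mod (Nat.div (dig 16 X j) 2) 2) j) 19 =
      pk 1 19 fun j => dig 16 X j / 2 % 2 := fun X =>
    (congrArg (sum1 · 19) (funext fun j => by rw [one_mul]; rfl)).trans (sum1_pk 1 19 fun j => dig 16 X j / 2 % 2)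
  rw [ss, frc_eq, k]
  refine (k2 _).trans (pk_congr fun j hj => ?_)
  rw [dig_pk (fun j hj => ?_) hj]
  obtain ⟨w, hw, -⟩ := kd_ok hj
  have := (fsum p (gg j)).le.trans (sum_le_card_nsmul _ _ 8 fun q hq => by
    have : gg j q ≤ 8 := (hw.dig.2 q (mem_range.1 hq)).1
    split_ifs <;> omega)
  simp only [card_range, nsmul_eq_mul] at this
  omega

theorem eqB {u : RuVec} (h : u ∈ ruLattice) : xl ((od u).filter (yy u)) ^^^ xl (ou u) = ss (od u) := by
  rw [xl_pk, xl_pk, pk_xor (fun _ _ => by omega) fun _ _ => by omega, od, ss_pk, List.filter_filter, ou]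
  refine pk_congr fun j hj => ?_
  obtain ⟨w, hw, h4⟩ := kd_ok hj
  have a := h4 u h
  have b : (4 : ℤ) ∣ ∑ q ∈ range 56, (((if decide (co u q % 2 = 1) = true then (gg j q : ℤ) else 0) +
      2 * (if (yy u q && decide (co u q % 2 = 1)) = true then (gg j q : ℤ) else 0) +
      2 * if decide (co u q % 4 = 2) = true then (gg j q : ℤ) else 0) - co w q * co u q) := dvd_sum fun q hq => by
    rw [(hw.dig.2 q (mem_range.1 hq)).2, show (_ + _ + _ : ℤ) = co u q % 4 * gg j q by
      simp only [yy, Bool.and_eq_true, decide_eq_true_iff]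
      rcases (by omega : co u q % 4 = 0 ∨ co u q % 4 = 1 ∨ co u q % 4 = 2 ∨ co u q % 4 = 3) with e | e | e | e <;>
        split_ifs <;> first | omega | (rw [e]; ring)]
    exact ⟨co u q - gg j q * (co u q / 4), by rw [Int.emod_def, gg]; ring⟩
  rw [sum_sub_distrib, sum_add_distrib, sum_add_distrib, ← mul_sum, ← mul_sum, ← fsum, ← fsum, ← fsum, ← dot_eq] at b
  rw [xor_mod]
  omega

theorem fib16 {x : ℕ} (h : (sup x).length = 16) : Bd {u ∈ MM | res u = x} (cnt ((sup x).map HH) (ss (sup x))) := fun _ => by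
  have k : ∀ u ∈ MM, res u = x → ∀ q < 56, co u q = if q ∈ sup x then if yy u q then -1 else 1 else 0 := fun u hu e q hq => by
    rw [← e, sup_res] at h ⊢
    have a : ∑ q ∈ range 56, (co u q * co u q - if decide (co u q % 2 = 1) = true then 1 else 0) = 0 := by
      rw [sum_sub_distrib, norm16 hu, ← flen, ← od, h]; rfl
    have := (sum_eq_zero_iff_of_nonneg fun q _ => by have := sq_ge (co u q); split_ifs at this ⊢ <;> omega).1 a q (mem_range.2 hq)
    simp only [od, yy, List.mem_filter, List.mem_range, hq, true_and, decide_eq_true_iff] at this ⊢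
    split_ifs at this ⊢ with h1 h2
    · rcases Int.eq_one_or_neg_one_of_mul_eq_one (sub_eq_zero.1 this) with e | e <;> omega
    · rcases Int.eq_one_or_neg_one_of_mul_eq_one (sub_eq_zero.1 this) with e | e <;> omega
    · simpa using this
  refine (Set.encard_le_encard_of_injOn (f := fun u => (sup x).map (yy u)) (t := V ((sup x).map HH) (ss (sup x)))
    (fun u hu => ?_) fun u hu v hv e => co_ext fun q hq => ?_).trans ?_
  · have a := len_le hu.1
    have b := eqB hu.1.1
    rw [← sup_res, hu.2] at a b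
    rw [List.length_eq_zero_iff.1 (show (ou u).length = 0 by omega), show xl [] = 0 from rfl, Nat.xor_zero] at b
    exact b ▸ mem_V (yy u) _
  · rw [k u hu.1 hu.2 q hq, k v hv.1 hv.2 q hq]
    exact if_ctx_congr Iff.rfl (fun a => by rw [List.map_inj_left.1 e q a]) fun _ => rfl
  · rw [Set.encard_coe_eq_coe_finsetCard]; exact_mod_cast card_V _ _

theorem ou_lt (u : RuVec) : (∀ q ∈ ou u, q < 56) ∧ (ou u).Pairwise (· < ·) :=
  ⟨fun _ h => List.mem_range.1 (List.mem_filter.1 h).1, List.pairwise_lt_range.filter _⟩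

theorem fib8 {u : RuVec} (hu : u ∈ MM) (h : (od u).length = 8) :
    ∃ a < 57, ∃ b < a + 1, cnt ((od u).map HH) (ss (od u) ^^^ HH a ^^^ HH b) ≠ 0 := by
  obtain ⟨a, ha, b, hb, e⟩ : ∃ a < 57, ∃ b < a + 1, xl (ou u) = HH a ^^^ HH b := by
    have a := len_le hu
    obtain ⟨b, c⟩ := ou_lt u
    generalize ou u = o at a b c
    match o with
    | [] => exact ⟨0, by decide, 0, by decide, (Nat.xor_self _).symm⟩
    | [p] => exact ⟨56, by decide, p, by have := b p (by simp); omega, by rw [dp_ok.2.1]; rfl⟩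
    | [p, q] => exact ⟨q, by have := b q (by simp); omega, p, by simp at c; omega, by simp [xl]⟩
    | _ :: _ :: _ :: _ => simp at a; omega
  refine ⟨a, ha, b, hb, (lt_of_lt_of_le (card_pos.2 ⟨(od u).map (yy u), ?_⟩) (card_V _ _)).ne'⟩
  rw [Nat.xor_assoc, ← e, ← eqB hu.1, Nat.xor_xor_cancel_right]
  exact mem_V _ _

irreducible_def fr0 : Finset RuVec := image (fun p : ℕ × ℤ => p.2 • bs p.1) (range 56 ×ˢ {4, -4})

theorem card_fr0 : fr0.card ≤ 112 := by
  rw [fr0_def]; exact card_image_le.trans (by rw [card_product, card_range]; decide)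

theorem mem_fr0 {q : ℕ} {a : ℤ} (hq : q ∈ range 56) (h : a = 4 ∨ a = -4) : a • bs q ∈ fr0 := by
  rw [fr0_def]
  generalize range 56 = s at hq
  exact mem_image_of_mem (fun p : ℕ × ℤ => p.2 • bs p.1) (mk_mem_product hq (by simpa using h))

theorem fib0 {u : RuVec} (hu : u ∈ MM) (h : od u = []) : u ∈ fr0 := by
  have o : ou u = [] := by
    have a := len_le hu
    have e := eqB hu.1
    rw [h, show ss [] = 0 by decide +kernel, show xl ([].filter (yy u)) = 0 from rfl, Nat.zero_xor] at e
    obtain ⟨b, c⟩ := ou_lt u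
    obtain ⟨d0, d1, d2⟩ := dp_ok
    have k : ∀ p q, p < q → q < 57 → HH p ^^^ HH q ≠ 0 := fun p q h1 h2 e => by
      have := d2 q h2 p h1
      rw [e, d0] at this; omega
    have k2 : ∀ p q s t, p < q → q < s → s < t → t < 57 → HH t ^^^ HH s ^^^ HH q ^^^ HH p ≠ 0 := fun p q s t h1 h2 h3 h4 e => by
      have := d2 q (by omega) p h1
      rw [Nat.xor_comm, ← Nat.eq_of_xor_eq_zero ((Nat.xor_assoc _ _ _).symm.trans e), Nat.xor_comm, d2 t h4 s h3] at this
      omega
    generalize ou u = o at a b c e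
    match o with
    | [] => rfl
    | [p] => exact absurd (by rw [d1, Nat.xor_zero]; simpa [xl] using e) (k p 56 (b p (by simp)) (by decide))
    | [p, q] => exact absurd (by rw [Nat.xor_comm]; simpa [xl] using e) (k p q (by simpa using c) (by have := b q (by simp); omega))
    | [p, q, s] => exact absurd (d1 ▸ e) (k2 p q s 56 (by simp at c; omega) (by simp at c; omega) (b s (by simp)) (by decide))
    | [p, q, s, t] =>
      exact absurd (by rw [← Nat.zero_xor (HH t)]; exact e)
        (k2 p q s t (by simp at c; omega) (by simp at c; omega) (by simp at c; omega) (by have := b t (by simp); omega))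
    | _ :: _ :: _ :: _ :: _ :: _ => simp only [List.length_cons] at a; omega
  have n := norm16 hu
  obtain ⟨q, hq, h0⟩ : ∃ q ∈ range 56, co u q * co u q ≠ 0 := exists_ne_zero_of_sum_ne_zero (n.trans_ne (by decide))
  have a := List.filter_eq_nil_iff.1 h q (List.mem_range.2 (mem_range.1 hq))
  have b := List.filter_eq_nil_iff.1 o q (List.mem_range.2 (mem_range.1 hq))
  simp only [decide_eq_true_iff, mul_self_ne_zero] at a b h0
  rw [← add_sum_erase _ _ hq] at n
  have c := sum_nonneg fun s (_ : s ∈ (range 56).erase q) => mul_self_nonneg (co u s)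
  have d : co u q = 4 ∨ co u q = -4 := by
    rcases (by omega : co u q ≤ -8 ∨ co u q = -4 ∨ co u q = 4 ∨ 8 ≤ co u q) with e | e | e | e
    exacts [by nlinarith, Or.inr e, Or.inl e, by nlinarith]
  have z := (sum_eq_zero_iff_of_nonneg fun s _ => mul_self_nonneg (co u s)).1
    (show ∑ s ∈ (range 56).erase q, co u s * co u s = 0 by
      have : co u q * co u q = 16 := by rcases d with e | e <;> rw [e] <;> rfl
      linarith)
  refine (?_ : co u q • bs q = u) ▸ mem_fr0 hq d
  refine Eq.trans ?_ (sum_bs u).symm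
  rw [← add_sum_erase _ _ hq, sum_eq_zero fun s hs => by rw [mul_self_eq_zero.1 (z s hs), zero_smul], add_zero]

theorem fib_sound (x : ℕ) : Bd {u ∈ MM | res u = x} (fib x) := by
  simp only [fib, fn_eq, frc_eq, List.map_id', gel_eq]
  by_cases h : (sup x).length = 16
  · rw [h]; exact fib16 h
  rw [beq_ne h]
  by_cases h : (sup x).length = 8
  · rw [h, Nat.beq_refl]
    cases e : all1 _ 57
    · exact Bd.big _
    refine Bd.empty (fun u hu => ?_) _
    rw [← hu.2, sup_res] at h e
    obtain ⟨a, ha, b, hb, c⟩ := fib8 hu.1 h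
    exact c (Nat.eq_of_beq_eq_true ((all1_iff _ _).1 ((all1_iff _ _).1 e a ha) b hb))
  rw [beq_ne h]
  by_cases h : (sup x).length = 0
  · rw [h]
    change Bd _ 112
    refine fun _ => (Set.encard_le_encard (t := (fr0 : Set RuVec))
      fun u hu => fib0 hu.1 (by rw [← sup_res, hu.2]; exact List.length_eq_zero_iff.1 h)).trans ?_
    rw [Set.encard_coe_eq_coe_finsetCard]
    exact Nat.cast_le.2 card_fr0
  · rw [beq_ne h]; exact Bd.big _

theorem leaf_sound {x : ℕ} (hx : Mk x) : Bd {u ∈ MM | Spn Gi (res u ^^^ x)} (leaf x) := fun hn => by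
  refine (Set.encard_le_encard fun u hu => ?_).trans (lp_sound (fun m => fib_sound (x ^^^ cw Gi m)) 256 _ hn)
  obtain ⟨m, hm, e⟩ := hu.2.cw
  have e2 : res u = x ^^^ cw Gi m := by rw [← e, Nat.xor_comm (res u), Nat.xor_xor_cancel_left]
  refine ⟨m, ?_, hu.1, e2⟩
  replace hm : m < 4096 := hm
  have g := fun a (h : a ∈ Gi) => mk_G (List.mem_append_right _ h)
  have b : ∀ t < 56, ∀ m, 2 * dig 16 (cw Gi m) t ≤ 2 * 1 := fun t ht m => Nat.mul_le_mul_left _ ((mk_cw g m).le ht)
  have D : ∀ t < 56, dig 16 (rep 16 56 5 - 2 * x) t = 5 - 2 * dig 16 x t := fun t ht => by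
    obtain ⟨f, e⟩ := hx
    rw [e, pk_smul, rep_sub (by decide) fun _ _ => by omega, dig_pk (fun _ _ => by omega) ht, dig_pk (fun _ _ => by omega) ht]
  change dig 16 (O12 ^^^ ge O12 (rs (rep 16 4096 (2 * 1)) _ (rep 16 56 5 - 2 * x)) 33) m ≠ 0
  rw [rs_pk (g := fun t m => 2 * dig 16 (cw Gi m) t) (by simp) fun t ht => ⟨by
      rw [List.getD_eq_getElem _ _ (by simpa using ht), List.getElem_map, List.getElem_range]; exact tt_pk ht g,
      fun m _ => b t ht m⟩, O12, ge_pk (fun m _ => lt_of_le_of_lt (hs_cast _ fun t ht => b t ht m).2 (by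
      have := of_le (x := dig 16 (rep 16 56 5 - 2 * x)) fun t ht => by rw [D t ht]; omega
      omega)) (by decide), dig_xor, rep_eq (by decide), dig_pk (fun _ _ => by decide) hm,
    dig_pk (fun _ _ => by split_ifs <;> omega) hm, if_neg]
  · decide
  have a := len_le hu.1
  have c := flen fun q => decide (co u q % 2 = 1)
  have : (hs 1 (dig 16 (rep 16 56 5 - 2 * x)) fun t => 2 * dig 16 (cw Gi m) t : ℤ) =
      ∑ q ∈ range 56, 2 * if decide (co u q % 2 = 1) = true then 1 else 0 := by
    rw [hs, Nat.cast_sum]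
    refine sum_congr rfl fun t ht => ?_
    have ht := mem_range.1 ht
    have e3 := dig_res u ht
    have := hx.le ht
    have := b t ht m
    rw [e2, dig_xor] at e3
    rw [D t ht]
    generalize dig 16 x t = i at *
    generalize dig 16 (cw Gi m) t = j at *
    have : j ≤ 1 := by omega
    interval_cases i <;> interval_cases j <;> simp at e3 ⊢ <;> omega
  rw [← mul_sum, ← c, ← od] at this
  omega

theorem tot_sound (l : List (ℕ × ℕ)) (h : ∀ a ∈ l, Mk a.2) :
    ∀ x, Mk x → Bd {u ∈ MM | Spn (l ++ Gi) (res u ^^^ x)} (tot l x) := by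
  induction l with
  | nil => exact fun _ => leaf_sound
  | cons a l ih =>
    have ih := ih fun b hb => h b (List.mem_cons_of_mem _ hb)
    exact fun x hx => (ih x hx).union (ih _ (hx.xor (h a List.mem_cons_self))) fun u hu =>
      hu.2.imp (fun e => ⟨hu.1, e⟩) fun e => ⟨hu.1, Nat.xor_assoc _ _ _ ▸ e⟩

theorem card_min : MM.encard ≤ (16240 : ℕ) :=
  by
  have := tot_sound Go (fun _ h => mk_G (List.mem_append_left _ h)) 0 ⟨0, by simp [pk]⟩
  rw [tot_all] at this
  exact (Set.encard_le_encard fun u hu => Set.mem_sep hu (by rw [Nat.xor_zero]; exact spn_L hu.1)).trans (this le_rfl)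

end CfH4.Ru
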