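import Cfsg.Agent.H4.Ru5

/-! The vertex stabiliser of the Rudvalis graph: suborbits and the data for two classes of subgroups. -/

set_option autoImplicit false
open Cfsg.Spor CfH6 CfL Equiv MulAction Subgroup

namespace CfH4.Ru

theorem fixw {w : List ℕ} {i : Pt} (h : (allLt 13 w && Nat.beq (T.trL w i.1) i.1) = true := by decide +kernel) :
    evw ev w i = i := r.mem_stab w i h

theorem gen_fix {ws : List (List ℕ)} {i : Pt}
    (h : (ws.all fun w => allLt 6 w && (allLt 13 w && Nat.beq (T.trL w i.1) i.1)) = true := by decide +kernel) :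
    gensub (byW ev ws) ws.length ≤ X ⊓ stabilizer (Perm Pt) i := gen_le (fun w hw => by
  have := List.all_eq_true.1 h w hw
  rw [Bool.and_eq_true] at this
  exact ⟨wX this.1, fixw this.2⟩) _

def wP : List (List ℕ) := [[0], [2], [4], [1, 0, 2, 0, 1]]
def wU : List (List ℕ) := [[0], [2], [1, 0, 2, 0, 1]]
def wM : List (List ℕ) := [[1, 2, 2], [5, 2, 0, 1], [0, 2, 0, 1, 3, 0, 2, 0, 5], [0, 3, 4, 1, 0, 4, 1, 4, 3]]
def wx : List ℕ := [1, 0, 3, 4]
def wy : List ℕ := [3, 0, 2, 4, 1, 4, 1, 0, 5, 2, 0, 3, 0]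
def wn : List ℕ := [4, 3, 0, 2, 0, 2, 0, 1, 5, 1, 4, 1, 3, 0, 5]

open Classical in
theorem h1 (N : Set Pt) (h : ∀ g ∈ X, g (pp 1) = pp 1 → ∀ y ∈ N, g y ∈ N) : N.ncard =
    (if pp 0 ∈ N then 1 else 0) + (if pp 1 ∈ N then 1 else 0) + (if pp 2 ∈ N then 10 else 0) + (if pp 4 ∈ N then 80 else 0) +
    (if pp 28 ∈ N then 1024 else 0) + (if pp 1052 ∈ N then 640 else 0) + (if pp 3048 ∈ N then 1280 else 0) +
    if pp 2343 ∈ N then 1024 else 0 := by
  rw [part_card (ws := wP) (l := pP) (by decide +kernel) fun g hg => h g (gen_fix (i := pp 1) (by decide +kernel) hg).1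
    (gen_fix (i := pp 1) (by decide +kernel) hg).2, show (pP.map fun a => (a.1, a.2.1)) = [(0, 1), (1, 1), (2, 10), (4, 80), (28, 1024),
      (1052, 640), (3048, 1280), (2343, 1024)] from rfl]
  simp only [List.map_cons, List.map_nil, List.sum_cons, List.sum_nil, add_assoc, add_zero]

open Classical in
theorem h2 (N : Set Pt) (h : ∀ g ∈ X, g (pp 2343) = pp 2343 → ∀ y ∈ N, g y ∈ N) : N.ncard =
    (if pp 0 ∈ N then 1 else 0) + (if pp 2343 ∈ N then 1 else 0) + (if pp 1 ∈ N then 780 else 0) + (if pp 3 ∈ N then 975 else 0) +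
    (if pp 1756 ∈ N then 300 else 0) + (if pp 1757 ∈ N then 650 else 0) + (if pp 1759 ∈ N then 975 else 0) +
    (if pp 1763 ∈ N then 300 else 0) + if pp 1832 ∈ N then 78 else 0 := by
  rw [part_card (ws := wM) (l := pM) (by decide +kernel) fun g hg => h g (gen_fix (i := pp 2343) (by decide +kernel) hg).1
    (gen_fix (i := pp 2343) (by decide +kernel) hg).2, show (pM.map fun a => (a.1, a.2.1)) = [(0, 1), (2343, 1), (1, 780), (3, 975),
      (1756, 300), (1757, 650), (1759, 975), (1763, 300), (1832, 78)] from rfl]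
  simp only [List.map_cons, List.map_nil, List.sum_cons, List.sum_nil, add_assoc, add_zero]

theorem wdp {w : List ℕ} {i j : Pt} (h : (allLt 13 w && Nat.beq (T.trL w i.1) j.1) = true := by decide +kernel) :
    (evw ev w)⁻¹ i = j := by
  rw [Bool.and_eq_true, Nat.beq_eq] at h
  exact Subtype.ext ((wd (allLt_sound h.1) i).trans h.2)

theorem cardB : Nat.card (X ⊓ stabilizer (Perm Pt) (pp 1) : Subgroup _) = 20480 := by
  have := card_orbit_mul X (pp 1)
  rw [cardX, orbB.1] at this; omega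
theorem cardC : Nat.card (X ⊓ stabilizer (Perm Pt) (pp 2343) : Subgroup _) = 15600 := by
  have := card_orbit_mul X (pp 2343)
  rw [cardX, orbC.1] at this; omega

noncomputable def U : Subgroup (Perm Pt) := gensub (byW ev wU) wU.length
theorem U_le : U ≤ X ⊓ stabilizer (Perm Pt) (pp 1) := gen_fix

theorem cardU : Nat.card U = 4096 := by
  refine le_antisymm (card_step (c := 2) (n := 2048) (A := {j : Pt | decide (j.1 = 2 ∨ j.1 = 3) = true}) (pp 2)
    (fun g hg => r.closed (fun j => decide (j = 2 ∨ j = 3)) wU (by decide +kernel) hg (pp 2) rfl)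
    (r.ncard_le (fun j => decide (j = 2 ∨ j = 3)) (fun _ h => h) 2 (by decide +kernel)) ?_)
    (r.chain_ge (σ := wU) (byW_gen ev wU) 12 cU (by decide +kernel))
  have a := card_orbit_mul (X ⊓ stabilizer (Perm Pt) (pp 1)) (pp 2)
  have b := h1 (orbit (X ⊓ stabilizer (Perm Pt) (pp 1) : Subgroup _) (pp 2)) fun g hg e y hy =>
    mem_orbit_of_mem_orbit (⟨g, hg, e⟩ : (X ⊓ stabilizer (Perm Pt) (pp 1) : Subgroup _)) hy
  rw [if_pos (mem_orbit_self (pp 2))] at b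
  have c := card_le_of_le (inf_le_inf_right (stabilizer (Perm Pt) (pp 2)) U_le)
  rw [cardB] at a
  have : 10 ≤ (orbit (X ⊓ stabilizer (Perm Pt) (pp 1) : Subgroup _) (pp 2)).ncard := by omega
  nlinarith

theorem hU (N : Set Pt) (h : ∀ g ∈ U, ∀ y ∈ N, g y ∈ N) (hb : pp 1 ∈ N) : N.ncard ≠ 5 := by
  classical
  rw [part_card (ws := wU) (l := pU) (by decide +kernel) h, show (pU.map fun a => (a.1, a.2.1)) = [(1, 1), (0, 1), (2, 2),
    (4, 16), (16, 8), (28, 1024), (1052, 512), (1564, 128), (1596, 64), (1756, 512), (1788, 256), (1824, 512), (2092, 1024)] from rfl]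
  simp only [List.map_cons, List.map_nil, List.sum_cons, List.sum_nil, if_pos hb]
  have k : ∀ (p : Prop) (n : ℕ), n % 8 = 0 → (if p then n else 0) % 8 = 0 := fun p n _ => by split_ifs <;> omega
  have := k (pp 4 ∈ N) 16 rfl; have := k (pp 16 ∈ N) 8 rfl; have := k (pp 28 ∈ N) 1024 rfl; have := k (pp 1052 ∈ N) 512 rfl
  have := k (pp 1564 ∈ N) 128 rfl; have := k (pp 1596 ∈ N) 64 rfl; have := k (pp 1756 ∈ N) 512 rfl; have := k (pp 1788 ∈ N) 256 rfl
  have := k (pp 1824 ∈ N) 512 rfl; have := k (pp 2092 ∈ N) 1024 rfl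
  have : (if pp 0 ∈ N then 1 else 0) ≤ 1 := by split_ifs <;> omega
  have : (if pp 2 ∈ N then 2 else 0) ≤ 2 := by split_ifs <;> omega
  omega

theorem M_eq : gensub (byW ev wM) wM.length = X ⊓ stabilizer (Perm Pt) (pp 2343) :=
  eq_of_le_of_card_ge gen_fix (cardC.le.trans (r.chain_ge (σ := wM) (byW_gen ev wM) 12 cM (by decide +kernel)))

theorem memO {g : Perm Pt} (hg : g ∈ X) (h : g (pp 2343) = pp 2343) : bitN mO (g (pp 2740)).1 = true :=
  r.closed (bitN mO) wM (by decide +kernel) (M_eq.ge ⟨hg, h⟩) (pp 2740) (by decide +kernel)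

theorem hO (g : Perm Pt) (hg : g ∈ X) (h : g (pp 2343) = pp 2343) : g (pp 2740) ≠ pp 3064 := fun e =>
  absurd (e ▸ memO hg h) (by decide +kernel)

theorem hN : Nat.card (X ⊓ stabilizer (Perm Pt) (pp 2343) ⊓ stabilizer (Perm Pt) (pp 2740) : Subgroup _) ≤ 52 := by
  have a := card_orbit_mul (X ⊓ stabilizer (Perm Pt) (pp 2343)) (pp 2740)
  have b := r.orb_ge (K := X ⊓ stabilizer (Perm Pt) (pp 2343)) (ws := wM) (fun w hw => ⟨wsX (by decide) w hw, r.words_stab wM (pp 2343)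
    (by decide +kernel) w hw⟩) (pp 2740) 3 (cM.headD (⟨0, [], 0, []⟩, 0)).1.l 300 12 (by decide +kernel)
  rw [cardC] at a
  change 300 ≤ (orbit (X ⊓ stabilizer (Perm Pt) (pp 2343) : Subgroup _) (pp 2740)).ncard at b
  nlinarith

theorem one_w {w : List ℕ} (h : (allLt 6 w && [1, 2343, 1054].all fun i => allLt 13 w && Nat.beq (T.trL w (pp i).1) (pp i).1) = true) :
    evw ev w = 1 := by
  rw [Bool.and_eq_true, List.all_eq_true] at h
  exact base (X_le (wX h.1)).1 (X_le (wX h.1)).2 (fixw (h.2 1 (by simp))) (fixw (h.2 2343 (by simp))) (fixw (h.2 1054 (by simp)))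

theorem ox : orderOf (evw ev wx) = 13 := by
  have : Fact (Nat.Prime 13) := ⟨by decide⟩
  exact orderOf_eq_prime (by rw [← evw_wpow]; exact one_w (by decide +kernel)) (r.ne_one wx (pp 1) (by decide +kernel))

theorem oy : orderOf (evw ev wy) = 4 :=
  orderOf_eq_prime_pow (p := 2) (n := 1) (by rw [← evw_wpow]; exact r.ne_one _ (pp 2) (by decide +kernel))
    (by rw [← evw_wpow]; exact one_w (by decide +kernel))

theorem hF (z : Pt) (hz : z ∈ orbit X (pp 2343)) (h : evw ev wx z = z) : z = pp 2343 ∨ z = pp 2740 ∨ z = pp 3064 := by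
  have : allN (fun i => decide (1756 ≤ i → T.trL wx i = i → i = 2343 ∨ i = 2740 ∨ i = 3064)) 4060 = true := by decide +kernel
  exact (of_decide_eq_true ((allN_iff _ _).1 this z.1 z.lt) (of_decide_eq_true ((orbC.2 z).1 hz))
    ((r.fix_iff (by decide) z).1 h)).imp pp_eq (Or.imp pp_eq pp_eq)

abbrev Cs := ℕ × ℕ × List ℕ × ℕ × ℕ × List (ℕ × ℕ)

noncomputable def csOk (c : Cs) : Bool :=
  allLt 6 c.2.2.1 && Nat.beq (T.trL c.2.2.1 2343) c.1 && Nat.beq (T.trL c.2.2.1 2740) c.2.1 &&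
  (Nat.beq c.2.2.2.1 2343 || Nat.beq c.2.2.2.1 2740) &&
  frc (popc 12 (T.growL [wx, wy, c.2.2.1] 2 c.2.2.2.2.2 (Nat.shiftLeft 1 c.2.2.2.1))) fun n => Nat.ble 301 n ||
    Nat.ble 300 n && Nat.ble 1756 c.2.2.2.2.1 && Nat.blt c.2.2.2.2.1 4060 &&
      [wx, wy, c.2.2.1].all fun w => Nat.beq (T.trL w c.2.2.2.2.1) c.2.2.2.2.1

theorem cs0_ok : cs0.all csOk = true := by decide +kernel
theorem cs1_ok : cs1.all csOk = true := by decide +kernel
theorem cs2_ok : cs2.all csOk = true := by decide +kernel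
theorem cs3_ok : cs3.all csOk = true := by decide +kernel

theorem cover : ∀ a ∈ tP, allLt 6 a.2 = true ∧ T.trL a.2 a.1 = 2343 ∧ ∀ b ∈ tP, bitN mO (T.trL a.2 b.1) = true →
    (a.1 = 2343 ∧ b.1 = 2740) ∨ (a.1 = 2740 ∧ b.1 = 3064) ∨ (a.1 = 3064 ∧ b.1 = 2343) ∨
      ∃ c ∈ cs0 ++ cs1 ++ cs2 ++ cs3, c.1 = a.1 ∧ c.2.1 = b.1 := by decide +kernel

theorem fixy (z : Pt) (hz : z ∈ orbit X (pp 2343)) (h : evw ev wy z = z) : ∃ a ∈ tP, a.1 = z.1 := by
  have : allN (fun i => decide (1756 ≤ i → T.trL wy i = i → ∃ a ∈ tP, a.1 = i)) 4060 = true := by decide +kernel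
  exact of_decide_eq_true ((allN_iff _ _).1 this z.1 z.lt) (of_decide_eq_true ((orbC.2 z).1 hz))
    ((r.fix_iff (by decide) z).1 h)

theorem big {L : Subgroup (Perm Pt)} {w : List ℕ} (hw : allLt 6 w = true) (h : ∀ u ∈ [wx, wy, w], evw ev u ∈ L) {b n : ℕ}
    (hb : b = 2343 ∨ b = 2740) {l : List (ℕ × ℕ)}
    (hn : Nat.ble n (popc 12 (T.growL [wx, wy, w] 2 l (Nat.shiftLeft 1 b))) = true) : n * 52 ≤ Nat.card L := by
  have e : b = (pp b).1 := by rcases hb with rfl | rfl <;> rfl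
  have a := r.orb_ge h (pp b) 2 l n 12 (by
    rw [← e, hn, Bool.and_true]
    simp only [List.all_cons, List.all_nil, Bool.and_true, Bool.and_eq_true]
    exact ⟨by decide, by decide, List.all_eq_true.2 fun x hx => blt2 ((allLt_sound hw x hx).trans (by decide : 6 < 13))⟩)
  have c : 13 ∣ Nat.card (L ⊓ stabilizer (Perm Pt) (pp b) : Subgroup _) :=
    ox ▸ orderOf_dvd_natCard _ ⟨h wx (by simp), by rcases hb with rfl | rfl <;> exact fixw⟩
  have d : 4 ∣ Nat.card (L ⊓ stabilizer (Perm Pt) (pp b) : Subgroup _) :=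
    oy ▸ orderOf_dvd_natCard _ ⟨h wy (by simp), by rcases hb with rfl | rfl <;> exact fixw⟩
  rw [card_orbit_mul L (pp b)]
  exact Nat.mul_le_mul a (Nat.le_of_dvd Nat.card_pos (Nat.Coprime.mul_dvd_of_dvd_of_dvd (by decide) c d))

theorem hT (t : Perm Pt) (ht : t ∈ X) (h0 : ¬ (t (pp 2343) = pp 2343 ∧ t (pp 2740) = pp 2740))
    (h2 : ∃ k, t ^ 2 ^ k = 1) (h3 : t * evw ev wy * t⁻¹ ∈ zpowers (evw ev wy)) (Y : Subgroup (Perm Pt))
    (hc : Nat.card Y = 15600)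
    (h4 : X ⊓ stabilizer (Perm Pt) (pp 2343) ⊓ stabilizer (Perm Pt) (pp 2740) ≤ Y) (h5 : t ∈ Y) :
    ∃ z ∈ orbit X (pp 2343), ∀ g ∈ Y, g z = z := by
  have z0 : zpowers (evw ev wy) ≤ stabilizer (Perm Pt) (pp 2343) := zpowers_le.2 fixw
  have z1 : zpowers (evw ev wy) ≤ stabilizer (Perm Pt) (pp 2740) := zpowers_le.2 fixw
  have f : ∀ c : Pt, (t * evw ev wy * t⁻¹) c = c → evw ev wy (t⁻¹ c) = t⁻¹ c := fun c h => Perm.eq_inv_iff_eq.2 h
  obtain ⟨a, ha, a1⟩ := fixy _ ⟨⟨t⁻¹, inv_mem ht⟩, rfl⟩ (f _ (z0 h3))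
  obtain ⟨b, hb, b1⟩ := fixy _ (mem_orbit_of_mem_orbit (⟨t⁻¹, inv_mem ht⟩ : X) ((orbC.2 (pp 2740)).2 rfl)) (f _ (z1 h3))
  obtain ⟨c1, c2, c3⟩ := cover a ha
  change a.1 = (t⁻¹ (pp 2343)).1 at a1
  change b.1 = (t⁻¹ (pp 2740)).1 at b1
  have a3 : ∀ x ∈ a.2, x < 13 := fun x hx => (allLt_sound c1 x hx).trans (by decide)
  have m := memO (g := (evw ev a.2)⁻¹ * t⁻¹) (mul_mem (inv_mem (wX c1)) (inv_mem ht))
    (pp_eq (by rw [Perm.mul_apply, wd a3, ← a1, c2]))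
  rw [Perm.mul_apply, wd a3, ← b1] at m
  have d2 : ∀ g ∈ X, g (pp 2343) = pp 2343 → g (pp 2740) = pp 2740 → g (pp 3064) = pp 3064 := fun g hg e1 e2 =>
    ((eq_of_le_of_card_ge (inf_le_left (b := stabilizer (Perm Pt) (pp 3064))) (hN.trans (Nat.le_of_dvd Nat.card_pos
      (Nat.Coprime.mul_dvd_of_dvd_of_dvd (m := 13) (n := 4) (by decide) (ox ▸ orderOf_dvd_natCard _ ⟨⟨⟨wX, fixw⟩, fixw⟩, fixw⟩)
        (oy ▸ orderOf_dvd_natCard _ ⟨⟨⟨wX, fixw⟩, fixw⟩, fixw⟩))))).ge ⟨⟨hg, e1⟩, e2⟩).2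
  have cy : ∀ u v w : Pt, t⁻¹ u = v → t⁻¹ v = w → t⁻¹ w = u → u = v := fun u v w e1 e2 e3 => by
    obtain ⟨k, hk⟩ := h2
    have p1 : period t⁻¹ u ∣ 3 := pow_smul_eq_iff_period_dvd.1 (by
      rw [pow_three]; change t⁻¹ (t⁻¹ (t⁻¹ u)) = u; rw [e1, e2, e3])
    have p2 : period t⁻¹ u ∣ 2 ^ k := pow_smul_eq_iff_period_dvd.1 (by rw [inv_pow, hk, inv_one, one_smul])
    exact (period_eq_one_iff.1 (Nat.eq_one_of_dvd_coprimes ((by decide : Nat.Coprime 3 2).pow_right k) p1 p2)).symm.trans e1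
  have n0 : (evw ev wn)⁻¹ (pp 2343) = pp 2740 := wdp
  have n1 : (evw ev wn)⁻¹ (pp 2740) = pp 3064 := wdp
  have n2 : (evw ev wn)⁻¹ (pp 3064) = pp 2343 := wdp
  rcases c3 b hb m with e | e | e | ⟨c, hc', e1, e2⟩
  · exact absurd ⟨(Perm.inv_eq_iff_eq.1 (pp_eq (a1.symm.trans e.1))).symm,
      (Perm.inv_eq_iff_eq.1 (pp_eq (b1.symm.trans e.2))).symm⟩ h0
  · have e1 := pp_eq (a1.symm.trans e.1)
    have e2 := pp_eq (b1.symm.trans e.2)
    have := d2 (evw ev wn * t⁻¹) (mul_mem wX (inv_mem ht)) (by rw [Perm.mul_apply, e1, ← n0]; simp) (by rw [Perm.mul_apply, e2, ← n1]; simp)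
    exact absurd (cy _ _ _ e1 e2 (((Perm.eq_inv_iff_eq (f := evw ev wn)).2 this).trans n2)) (by decide)
  · have e1 := pp_eq (a1.symm.trans e.1)
    have e2 := pp_eq (b1.symm.trans e.2)
    have := d2 ((evw ev wn)⁻¹ * t⁻¹) (mul_mem (inv_mem wX) (inv_mem ht)) (by rw [Perm.mul_apply, e1, n2]) (by rw [Perm.mul_apply, e2, n0])
    exact absurd (cy _ _ _ e1 ((evw ev wn)⁻¹.injective (this.trans n1.symm)) e2) (by decide)
  have ok : csOk c = true := by
    simp only [List.mem_append] at hc'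
    rcases hc' with ((h | h) | h) | h
    exacts [List.all_eq_true.1 cs0_ok c h, List.all_eq_true.1 cs1_ok c h, List.all_eq_true.1 cs2_ok c h,
      List.all_eq_true.1 cs3_ok c h]
  simp only [csOk, frc_eq, Bool.and_eq_true, Bool.or_eq_true, Nat.beq_eq] at ok
  obtain ⟨⟨⟨⟨k1, k2⟩, k3⟩, k4⟩, k5⟩ := ok
  have w3 : ∀ x ∈ c.2.2.1, x < 13 := fun x hx => (allLt_sound k1 x hx).trans (by decide)
  have y : ∀ u ∈ [wx, wy, c.2.2.1], evw ev u ∈ Y := by
    simp only [List.forall_mem_cons, List.not_mem_nil, false_imp_iff, implies_true, and_true]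
    refine ⟨h4 ⟨⟨wX, fixw⟩, fixw⟩, h4 ⟨⟨wX, fixw⟩, fixw⟩, (mul_mem_cancel_right (Y.inv_mem h5)).1 (h4 ⟨⟨X.mul_mem (wX k1) (X.inv_mem ht),
      (Perm.eq_inv_iff_eq (f := evw ev c.2.2.1)).1 (Subtype.ext ?_)⟩, (Perm.eq_inv_iff_eq (f := evw ev c.2.2.1)).1 (Subtype.ext ?_)⟩)⟩
    · exact (a1.symm.trans (e1.symm.trans k2.symm)).trans (wd w3 (pp 2343)).symm
    · exact (b1.symm.trans (e2.symm.trans k3.symm)).trans (wd w3 (pp 2740)).symm
  rcases k5 with k | ⟨⟨⟨k5, k6⟩, k7⟩, k8⟩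
  · have := big k1 y k4 k; omega
  · let z : Pt := ⟨_, blt1 k7⟩
    have := big (L := Y ⊓ stabilizer (Perm Pt) z) k1 (fun u hu => ⟨y u hu, (r.fix_iff (by
      simp only [List.mem_cons, List.not_mem_nil, or_false] at hu
      rcases hu with rfl | rfl | rfl
      exacts [by decide, by decide, w3]) z).2 (Nat.eq_of_beq_eq_true (List.all_eq_true.1 k8 u hu))⟩) k4 k5
    exact ⟨z, (orbC.2 z).2 (decide_eq_true (Nat.le_of_ble_eq_true k6)), fun g hg =>
      ((eq_of_le_of_card_ge (inf_le_left (b := stabilizer (Perm Pt) z)) (hc.le.trans this)).ge hg).2⟩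

end CfH4.Ru
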