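import Cfsg.Agent.H4.RuD6

/-! Matrix checks for the Ree group `²F₄(2)`. -/

set_option autoImplicit false
set_option maxRecDepth 100000
open Cfsg.Lie CfH6 CfL Equiv MulAction Subgroup CfH2.AbT Matrix

namespace CfH4.Ru

abbrev Mt := Matrix chevF4.Idx chevF4.Idx (ZMod 2)
abbrev sem : ℕ → Mt := PM.toM (ZMod 2) e
theorem D2 : CfH6.Mdl PM.mx (fun _ => true) PM.one sem := MP.mdlx (P := PM) (ZMod 2) e (by decide) (by decide +kernel)
def rtl (x : ℕ) : ℕ := [33, 24, 14, 23, 27, 25, 28, 30, 20, 22, 19, 17].getD x 0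
theorem hx1 : ∀ x < 12, sem (lget fr 0 x) = chevF4.x (ZMod 2) (rtl x) 1 := by decide +kernel
theorem hx0 : ∀ x < 12, chevF4.x (ZMod 2) (rtl x) 0 = 1 := by decide +kernel
theorem U6 : UOk PM.mx (fun _ => true) PM.one sem fm6 il 6 := D2.uok (by decide +kernel)

theorem tpT : ∀ x < 6, ∀ i < 52, ∀ k < 52, dig 1 (lget fT 0 x) (i * 52 + k) = dig 1 (lget fm6 0 x) (k * 52 + i) := by
  decide +kernel

theorem act0 : ∀ x < 6, ∀ b < 34, frc (PM.mx (dig 2704 vt b) (lget fT 0 x)).pred (fun Y => all1 (fun i =>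
    frc (52 * b + i) fun j => Nat.ble 1756 j || Nat.beq (dig 52 Y i) (dig 52 vt (T.R x j))) 52) = true := by decide +kernel

end CfH4.Ru
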