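import Cfsg.Agent.H4.RuC3
import Cfsg.Agent.OD.Helper4x686254f847

/-! The vertex stabiliser of the Rudvalis graph is the Ree group `²F₄(2)`. -/

set_option autoImplicit false
set_option maxRecDepth 100000
open Cfsg.Lie CfH6 CfL Equiv MulAction Subgroup CfH2.AbT Matrix

namespace CfH4.Ru

noncomputable def mu : ℕ → GL chevF4.Idx (ZMod 2) := evU sem fm6 il

theorem eqw (u w : List ℕ) (h : (allLt 6 u && chkM PM.mx PM.one fm6 u (mW PM.mx fr w PM.one).pred &&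
    (allLt 12 w && chkM PM.mx PM.one fr w (mW PM.mx fr w PM.one).pred)) = true := by decide +kernel) :
    ((evw mu u : GL chevF4.Idx (ZMod 2)) : Mt) = (w.map fun a => chevF4.x (ZMod 2) (rtl a) 1).prod := by
  rw [Bool.and_eq_true, Bool.and_eq_true (allLt 12 w)] at h
  rw [← List.map_congr_left fun a ha => hx1 a (allLt_sound h.2.1 a ha),
    D2.chk (k := 12) (fun _ _ => rfl) (allLt_sound h.2.1) h.2.2]
  exact U6.word h.1

theorem F_eq : twistedF4 (ZMod 2) 1 = gensub mu 6 := by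
  have z : ∀ x < 12, ∀ r, rtl x = r → chevF4.x (ZMod 2) r 0 = 1 := fun x hx r e => e ▸ hx0 x hx
  have z0 := z 0 (by decide) 33 rfl; have z1 := z 1 (by decide) 24 rfl; have z2 := z 2 (by decide) 14 rfl
  have z3 := z 3 (by decide) 23 rfl; have z4 := z 4 (by decide) 27 rfl; have z5 := z 5 (by decide) 25 rfl
  have z6 := z 6 (by decide) 28 rfl; have z7 := z 7 (by decide) 30 rfl; have z8 := z 8 (by decide) 20 rfl
  have z9 := z 9 (by decide) 22 rfl; have z10 := z 10 (by decide) 19 rfl; have z11 := z 11 (by decide) 17 rfl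
  have k : ∀ w ∈ f4Words (ZMod 2) 1, ∃ u, allLt 6 u = true ∧
      ((evw mu u : GL chevF4.Idx (ZMod 2)) : Mt) = chevF4.wordMat (ZMod 2) w := by
    have c : ∀ t : ZMod 2, t = 0 ∨ t = 1 := by decide
    have a : (1 : ZMod 2) + 1 = 0 := rfl
    rintro w (⟨t, rfl | rfl⟩ | ⟨t, u, rfl | rfl⟩) <;> rcases c t with rfl | rfl <;> try rcases c u with rfl | rfl
    all_goals simp only [ChevalleyDatum.wordMat, f4PairWord, b2ClassWord, f4p1, f4p4, f4m1, f4m4, f4a, f4b, f4ab, f4aab, f4ma,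
      f4mb, f4mab, f4maab, List.map_cons, List.map_nil, List.prod_cons, List.prod_nil, pow_one, one_pow, add_zero, zero_add, a,
      zero_pow (show 1 + 1 ≠ 0 by decide), zero_pow (show 2 * 1 ≠ 0 by decide), z0, z1, z2, z3, z4, z5, z6, z7, z8, z9, z10, z11, one_mul]
    exacts [⟨[], rfl, rfl⟩, ⟨[0], rfl, eqw _ [0, 1]⟩, ⟨[], rfl, rfl⟩, ⟨[1], rfl, eqw _ [2, 3]⟩, ⟨[], rfl, rfl⟩,
      ⟨[2, 2], rfl, eqw _ [6, 7]⟩, ⟨[2], rfl, eqw _ [4, 5, 6]⟩, ⟨[3], rfl, eqw _ [4, 5, 7]⟩, ⟨[], rfl, rfl⟩,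
      ⟨[4, 4], rfl, eqw _ [10, 11]⟩, ⟨[4], rfl, eqw _ [8, 9, 10]⟩, ⟨[5], rfl, eqw _ [8, 9, 11]⟩]
  refine le_antisymm ((closure_le _).2 ?_) (gensub_le fun x hx => subset_closure ?_)
  · rintro g ⟨w, hw, e⟩
    obtain ⟨u, h1, h2⟩ := k w hw
    rw [show g = evw mu u from Units.ext (e.trans h2.symm)]
    exact evw_mem (fun _ => mem_gensub) (allLt_sound h1)
  · have a : (1 : ZMod 2) + 1 = 0 := rfl
    rw [show mu x = evw mu [x] by simp]
    interval_cases x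
    · exact ⟨_, Or.inl ⟨1, Or.inl rfl⟩, (eqw _ [0, 1]).trans (by simp [ChevalleyDatum.wordMat, f4PairWord, f4p1, f4p4, rtl])⟩
    · exact ⟨_, Or.inl ⟨1, Or.inr rfl⟩, (eqw _ [2, 3]).trans (by simp [ChevalleyDatum.wordMat, f4PairWord, f4m1, f4m4, rtl])⟩
    · exact ⟨_, Or.inr ⟨1, 0, Or.inl rfl⟩, (eqw _ [4, 5, 6]).trans
        (by simp [ChevalleyDatum.wordMat, b2ClassWord, f4a, f4b, f4ab, f4aab, rtl, z7])⟩
    · exact ⟨_, Or.inr ⟨1, 1, Or.inl rfl⟩, (eqw _ [4, 5, 7]).trans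
        (by simp [ChevalleyDatum.wordMat, b2ClassWord, f4a, f4b, f4ab, f4aab, rtl, z6, a])⟩
    · exact ⟨_, Or.inr ⟨1, 0, Or.inr rfl⟩, (eqw _ [8, 9, 10]).trans
        (by simp [ChevalleyDatum.wordMat, b2ClassWord, f4ma, f4mb, f4mab, f4maab, rtl, z11])⟩
    · exact ⟨_, Or.inr ⟨1, 1, Or.inr rfl⟩, (eqw _ [8, 9, 11]).trans
        (by simp [ChevalleyDatum.wordMat, b2ClassWord, f4ma, f4mb, f4mab, f4maab, rtl, z10, a])⟩

theorem dig1 (W X a : ℕ) {t : ℕ} (ht : t < W) : dig 1 (dig W X a) t = dig 1 X (W * a + t) := by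
  apply Nat.eq_of_testBit_eq
  intro i
  simp only [dig, Nat.testBit_mod_two_pow, Nat.testBit_shiftRight, one_mul, add_assoc]
  by_cases h : i < 1
  · rw [decide_eq_true (show t + i < W by omega)]; simp
  · simp [h]

noncomputable def vv (j : ℕ) : chevF4.Idx → ZMod 2 := fun k => (dig 1 (dig 52 vt j) (e k) : ZMod 2)

theorem sem_row (Y : ℕ) (i : chevF4.Idx) {j : ℕ} (h : dig 52 Y (e i) = dig 52 vt j) : sem Y i = vv j := funext fun k => by
  rw [vv, ← h, dig1 _ _ _ (e k).2, mul_comm]; rfl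

theorem act {x : ℕ} (hx : x < 6) {j : ℕ} (hj : j < 1756) : (mu x : Mt) *ᵥ vv j = vv (T.R x j) := by
  have h := act0 x hx (j / 52) (by omega)
  rw [frc_eq, all1_iff] at h
  have h := h (j % 52) (by omega)
  rw [frc_eq, Nat.div_add_mod, Bool.or_eq_true, Nat.ble_eq, Nat.beq_eq] at h
  let i := e.symm ⟨j % 52, by omega⟩
  have ei : (e i).1 = j % 52 := by simp [i]
  have t : sem (lget fT 0 x) = (mu x : Mt)ᵀ := by
    rw [mu, U6.val x hx]
    ext a b
    exact congrArg Nat.cast (tpT x hx _ (e a).2 _ (e b).2)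
  rw [← sem_row _ i (j := T.R x j) (ei ▸ h.resolve_left (by omega)), (D2.mul (X := dig 2704 vt (j / 52)) (Y := lget fT 0 x) (r := (PM.mx (dig 2704 vt (j / 52)) (lget fT 0 x)).pred) rfl rfl rfl).2,
    ← vecMul_transpose, ← t, ← sem_row (dig 2704 vt (j / 52)) i (j := j)]
  · rfl
  · rw [ei]
    apply Nat.eq_of_testBit_eq
    intro s
    simp only [dig, Nat.testBit_mod_two_pow, Nat.testBit_shiftRight]
    by_cases h : s < 52
    · rw [decide_eq_true (show 52 * (j % 52) + s < 2704 by omega),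
        show 2704 * (j / 52) + (52 * (j % 52) + s) = 52 * j + s by omega]; simp
    · simp [h]

theorem X_lt {g : Perm Pt} (hg : g ∈ X) {j : Pt} (hj : j.1 < 1756) : (g j).1 < 1756 := by
  by_contra h
  have := (orbC.2 j).1 (g.symm_apply_apply j ▸ mem_orbit_of_mem_orbit (⟨g, hg⟩ : X)⁻¹ ((orbC.2 (g j)).2 (by simpa using h)))
  simp at this; omega

noncomputable def DD : Subgroup (GL chevF4.Idx (ZMod 2) × Perm Pt) := gensub (fun x => (mu x, (ev x)⁻¹)) 6

theorem DD_act {π : GL chevF4.Idx (ZMod 2) × Perm Pt} (h : π ∈ DD) :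
    π.2 ∈ X ∧ ∀ j : Pt, j.1 < 1756 → (π.1 : Mt) *ᵥ vv j.1 = vv (π.2 j).1 :=
  gensub_le (K := subOf (fun π : GL chevF4.Idx (ZMod 2) × Perm Pt =>
      π.2 ∈ X ∧ ∀ j : Pt, j.1 < 1756 → (π.1 : Mt) *ᵥ vv j.1 = vv (π.2 j).1) ⟨X.one_mem, fun j _ => one_mulVec _⟩
    fun a b ha hb => ⟨X.mul_mem ha.1 hb.1, fun j hj => by
      rw [Prod.fst_mul, Units.val_mul, ← mulVec_mulVec, hb.2 j hj, ha.2 _ (X_lt hb.1 hj)]; rfl⟩)
    (fun x hx => ⟨X.inv_mem (mem_gensub hx), fun j hj => by rw [act hx hj, wd1 (by omega)]⟩) h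

theorem DD_one {π : GL chevF4.Idx (ZMod 2) × Perm Pt} (h : π ∈ DD) : π.1 = 1 ↔ π.2 = 1 := by
  obtain ⟨h1, h2⟩ := DD_act h
  constructor <;> intro e1
  · have c : ∀ b ∈ bD, b < 1756 ∧ allN (fun j => !Nat.beq (dig 52 vt j) (dig 52 vt b) || Nat.beq j b) 1756 = true := by
      decide +kernel
    have f : ∀ i : Pt, i.1 ∈ bD → π.2 i = i := fun i hi => by
      have a := h2 i (c _ hi).1
      rw [e1, Units.val_one, one_mulVec] at a
      have := (allN_iff _ _).1 (c _ hi).2 _ (X_lt h1 (c _ hi).1)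
      rw [show dig 52 vt (π.2 i).1 = dig 52 vt i.1 from ?_, Nat.beq_refl] at this
      · exact Subtype.ext (Nat.eq_of_beq_eq_true this)
      rw [eq_pk (W := 1) (N := 52) (Nat.shiftRight_eq_zero _ _ (dig_lt 52 vt i.1)),
        eq_pk (W := 1) (N := 52) (Nat.shiftRight_eq_zero _ _ (dig_lt 52 vt (π.2 i).1))]
      refine pk_congr fun t ht => ?_
      have := (ZMod.natCast_eq_natCast_iff' _ _ 2).1 (congrFun a (e.symm ⟨t, ht⟩))
      rw [Equiv.apply_symm_apply, Nat.mod_eq_of_lt (b := 2) (dig_lt 1 _ _), Nat.mod_eq_of_lt (b := 2) (dig_lt 1 _ _)] at this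
      exact this.symm
    obtain ⟨C, c1, c2, c3⟩ := eng_sound e6 List.mem_cons_self (pp 2343) rfl
    exact base (X_le h1).1 (X_le h1).2 (f _ (by decide)) (Set.ncard_le_one_iff_subsingleton.1 c1
      ((c3 _ (X_le h1).1 f _).2 c2) c2) (f _ (by decide))
  · have c : ∀ i < 52, fb.getD i 0 < 1756 ∧ dig 52 fB i = dig 52 vt (fb.getD i 0) := by decide +kernel
    have b : sem fB * (π.1 : Mt)ᵀ = sem fB := by
      ext i k
      obtain ⟨c1, c2⟩ := c _ (e i).2
      have := h2 ⟨_, c1.trans (by decide : 1756 < 4060)⟩ c1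
      rw [e1, ← vecMul_transpose, ← sem_row _ _ c2] at this
      exact (congrFun this k).trans (congrFun (sem_row _ _ c2) k).symm
    have := congrArg (sem fBi * ·) b
    simp only [← mul_assoc, ← (D2.mul (X := fBi) (Y := fB) (r := PM.one) rfl rfl (by decide +kernel)).2, D2.sem1, one_mul] at this
    exact Units.ext (transpose_eq_one.1 this)

theorem isoF : Nonempty (twistedF4 (ZMod 2) 1 ≃* X) := by
  have a : DD.map (MonoidHom.fst _ _) = twistedF4 (ZMod 2) 1 := by rw [DD, map_gensub, F_eq]; rfl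
  have b : DD.map (MonoidHom.snd _ _) = X := by
    rw [DD, map_gensub]
    exact le_antisymm (gensub_le fun x hx => X.inv_mem (mem_gensub hx)) (gensub_le fun x hx =>
      (Subgroup.inv_mem_iff _).1 (mem_gensub (el := fun x => (MonoidHom.snd _ _) (mu x, (ev x)⁻¹)) hx))
  have k : ∀ {H : Type} [Group H] (f : GL chevF4.Idx (ZMod 2) × Perm Pt →* H), (∀ π ∈ DD, f π = 1 → π = 1) →
      Nonempty (DD ≃* DD.map f) := fun f h => ⟨MulEquiv.ofBijective (f.subgroupMap DD)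
        ⟨(injective_iff_map_eq_one _).2 fun π e => Subtype.ext (h π π.2 (congrArg Subtype.val e)), f.subgroupMap_surjective DD⟩⟩
  obtain ⟨e1⟩ := k (MonoidHom.fst _ _) fun π h e => Prod.ext e ((DD_one h).1 e)
  obtain ⟨e2⟩ := k (MonoidHom.snd _ _) fun π h e => Prod.ext ((DD_one h).2 e) e
  exact ⟨a ▸ b ▸ e1.symm.trans e2⟩

end CfH4.Ru
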