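import Cfsg.Agent.H9.RuG
/-! Subgroups of order 15600 (a variant of `CfH9.RuG.clsD`). -/
set_option autoImplicit false
open MulAction Subgroup Equiv CfH9 CfH9.RuG
namespace CfH4.Ru

theorem clsD2 {P : Type*} [Finite P] {X : Subgroup (Perm P)} (hX : Nat.card X = 35942400) {x y n : Perm P}
    (hx : x ∈ X) (hy : y ∈ X) (hn : n ∈ X) (ox : orderOf x = 13) (oy : orderOf y = 4) {c0 c1 c2 : P}
    (x0 : x c0 = c0) (x1 : x c1 = c1) (x2 : x c2 = c2) (y0 : y c0 = c0) (y1 : y c1 = c1)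
    (n0 : n c0 = c1) (n1 : n c1 = c2) (n2 : n c2 = c0)
    (hN : Nat.card (X ⊓ stabilizer (Perm P) c0 ⊓ stabilizer (Perm P) c1 : Subgroup (Perm P)) ≤ 52)
    (hF : ∀ z ∈ orbit X c0, x z = z → z = c0 ∨ z = c1 ∨ z = c2)
    (hO : ∀ g ∈ X, g c0 = c0 → g c1 ≠ c2) (h01 : c0 ≠ c1)
    (hT : ∀ t ∈ X, ¬ (t c0 = c0 ∧ t c1 = c1) → (∃ k, t ^ 2 ^ k = 1) → t * y * t⁻¹ ∈ zpowers y → ∀ Y ≤ X, Nat.card Y = 15600 →
      X ⊓ stabilizer (Perm P) c0 ⊓ stabilizer (Perm P) c1 ≤ Y → t ∈ Y → ∃ z ∈ orbit X c0, ∀ g ∈ Y, g z = z) :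
    ∀ Y ≤ X, Nat.card Y = 15600 → ∃ z ∈ orbit X c0, ∀ g ∈ Y, g z = z := by
  intro Y₀ hY₀ hc₀
  haveI : Fact (Nat.Prime 13) := ⟨by decide⟩
  have cx : Nat.card (zpowers x) = 13 := by rw [Nat.card_zpowers, ox]
  have cy : Nat.card (zpowers y) = 4 := by rw [Nat.card_zpowers, oy]
  have h1 := card_mul_relIndex (zpowers_le.2 hx)
  rw [cx, hX] at h1
  have hS := sylIn_of_not_dvd (p := 13) (zpowers_le.2 hx) (IsPGroup.of_card (n := 1) cx) (by omega)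
  obtain ⟨k, k1, k2⟩ := exists_le_cj hS hY₀ (by rw [cx, hc₀]; decide)
  refine cj_back k1 ?_
  have hY := cj_le_of k1 hY₀
  have hc := (card_cj k Y₀).trans hc₀
  generalize cj k Y₀ = Y at k2 hY hc
  set D := X ⊓ stabilizer (Perm P) c0 ⊓ stabilizer (Perm P) c1 with hD
  have hD' : Nat.card D = 52 := le_antisymm hN (Nat.le_of_dvd Nat.card_pos
    (Nat.Coprime.mul_dvd_of_dvd_of_dvd (m := 13) (n := 4) (by decide)
      (cx ▸ card_dvd_of_le (zpowers_le.2 (⟨⟨hx, x0⟩, x1⟩ : x ∈ D)))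
      (cy ▸ card_dvd_of_le (zpowers_le.2 (⟨⟨hy, y0⟩, y1⟩ : y ∈ D)))))
  have h12 : c1 ≠ c2 := fun e => h01 (n.injective (by rw [n0, n1, e]))
  have h20 : c2 ≠ c0 := fun e => h12 (n.injective (by rw [n1, n2, e]))
  set N := Y ⊓ Nm(zpowers x) with hN'
  have pm : ∀ g ∈ N, ∀ z ∈ orbit X c0, x z = z → g z = c0 ∨ g z = c1 ∨ g z = c2 := by
    rintro g hg _ ⟨l, rfl⟩ hz
    refine hF _ ⟨⟨g, hY hg.1⟩ * l, rfl⟩ (Perm.inv_eq_iff_eq.1 ?_)
    exact zpowers_le.2 (show x ∈ stabilizer (Perm P) (l • c0) from hz) (conj_mem_of_mem_normalizer' hg.2 (mem_zpowers x))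
  have p0 := fun g hg => pm g hg c0 (mem_orbit_self _) x0
  have p1 := fun g hg => pm g hg c1 ⟨⟨n, hn⟩, n0⟩ x1
  have p2 := fun g hg => pm g hg c2 ⟨⟨n * n, mul_mem hn hn⟩, (congrArg n n0).trans n1⟩ x2
  have f0 : ∀ g ∈ N, g c0 = c0 → g ∈ D := fun g hg e => ⟨⟨hY hg.1, e⟩, ((p1 g hg).resolve_left
    fun e' => h01 (g.injective (e.trans e'.symm))).resolve_right (hO g (hY hg.1) e)⟩
  have f3 : ∀ g ∈ N, (g ^ 3) c0 = c0 := fun g hg => by
    have o1 := hO (n * g * n⁻¹) (mul_mem (mul_mem hn (hY hg.1)) (inv_mem hn))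
    have o2 := hO (n⁻¹ * g * n) (mul_mem (mul_mem (inv_mem hn) (hY hg.1)) hn)
    rw [Perm.mul_apply, Perm.mul_apply, Perm.mul_apply, Perm.mul_apply] at o1 o2
    rw [Perm.inv_eq_iff_eq.2 n2.symm, Perm.inv_eq_iff_eq.2 n0.symm] at o1
    rw [n0, n1, ne_eq, Perm.inv_eq_iff_eq, Perm.inv_eq_iff_eq, n0, n2] at o2
    rw [pow_three]
    exact cube_fix g.injective h01 h12 h20 (p0 g hg) (p1 g hg) (p2 g hg)
      (fun e e' => o1 (by rw [e, n2]) (by rw [e', n1])) o2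
  have hNc : Nat.card N = 52 := by
    have a1 := CfL.card_orbit_mul N c0
    have a2 : (orbit N c0).ncard ≤ 3 := (Set.ncard_le_ncard (t := {c0, c1, c2})
      (by rintro _ ⟨g, rfl⟩; exact p0 g g.2)).trans (Set.ncard_insert_le _ _ |>.trans (by
        have := Set.ncard_insert_le c1 ({c2} : Set P)
        rw [Set.ncard_singleton] at this; omega))
    have a3 := card_le_of_le (show N ⊓ stabilizer (Perm P) c0 ≤ D from fun g hg => f0 g hg.1 hg.2)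
    have a4 : Nat.card N ≤ 156 := by rw [a1]; nlinarith
    have a5 := card_mul_relIndex (inf_le_left : N ≤ Y)
    have a6 := card_sylow_modEq_one 13 Y
    rw [Sylow.card_eq_index_normalizer (hS.mono k2 hY).toSylow] at a6
    change Nm((zpowers x).subgroupOf Y).index ≡ 1 [MOD 13] at a6
    rw [← subgroupOf_normalizer_eq k2, ← inf_subgroupOf_left] at a6
    change N.relIndex Y ≡ 1 [MOD 13] at a6
    obtain ⟨m, hm⟩ := card_dvd_of_le (le_inf k2 le_normalizer : zpowers x ≤ N)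
    rw [hm, cx] at a4 a5 ⊢
    exact ar52 a4 (a5.trans hc) a6
  have hND : N = D := eq_of_le_of_card_ge (fun g hg => by
    have := pow_card_eq_one' (x := (⟨g, hg⟩ : N))
    rw [hNc] at this
    have e : g ^ 52 = 1 := congrArg Subtype.val this
    rw [show g = (g ^ 3) ^ 35 by rw [← pow_mul, show 3 * 35 = 52 * 2 + 1 from rfl, pow_succ, pow_mul,
      e, one_pow, one_mul]]
    exact pow_mem (f0 _ (pow_mem hg 3) (f3 g hg)) 35) (by rw [hD', hNc])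
  have hDY : D ≤ Y := hND ▸ inf_le_left
  have py : IsPGroup 2 (zpowers y) := IsPGroup.of_card (n := 2) cy
  obtain ⟨T, hT1, hT2⟩ := exists_sylIn_ge py (zpowers_le.2 (hDY ⟨⟨hy, y0⟩, y1⟩))
  have b1 := lt_inf_Nm hT1.pgrp (lt_of_le_of_ne hT2 fun e => by
    have b2 := card_mul_relIndex hT1.le
    have b3 := hT1.not_dvd_relIndex
    rw [← e, cy, hc] at b2
    rw [← e] at b3
    omega)
  obtain ⟨t, t1, t2⟩ := SetLike.not_le_iff_exists.1 (show ¬ T ⊓ Nm(zpowers y) ≤ D from fun e => by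
    obtain ⟨j, hj⟩ := IsPGroup.iff_card.1 (hT1.pgrp.to_le (inf_le_left (b := Nm(zpowers y))))
    have b2 := card_lt_of_lt b1
    have b3 := card_dvd_of_le e
    rw [hj, cy] at b2
    rw [hj, hD'] at b3
    have : 3 ≤ j := by
      by_contra h
      interval_cases j <;> omega
    exact absurd ((pow_dvd_pow 2 this).trans b3) (by decide))
  have t3 := hY (hT1.le t1.1)
  exact hT t t3 (fun e => t2 ⟨⟨t3, e.1⟩, e.2⟩) ((hT1.pgrp ⟨t, t1.1⟩).imp fun _ e => congrArg Subtype.val e) (conj_mem_of_mem_normalizer t1.2 (mem_zpowers y)) Y hY hc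
    hDY (hT1.le t1.1)

end CfH4.Ru
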