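import Cfsg.Agent.H4.Ru10
import Cfsg.Agent.H4.Ru6
import Cfsg.Agent.H4.Ru7
import Cfsg.Agent.H4.RuG2

/-! The Rudvalis group is the automorphism group of its rank 3 graph; rank 3 recognition. -/

set_option autoImplicit false
open Cfsg.Spor CfH6 CfL Equiv MulAction Subgroup

namespace CfH4.Ru

theorem sep {i j : Pt} (h : ∀ e, aj e i.1 = aj e j.1) : i = j := by
  have k : ∀ l : List ℕ, (∀ e ∈ l, e < 4060) → ∃ f, wsum l = pk 16 4060 f ∧ (∀ t, f t < 2 ^ l.length) ∧ f i.1 = f j.1 := fun l hl => by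
    induction l with
    | nil => exact ⟨fun _ => 0, by simp [wsum, pk], fun _ => one_pos, rfl⟩
    | cons e l ih =>
      obtain ⟨f, h1, h2, h3⟩ := ih fun x hx => hl x (List.mem_cons_of_mem _ hx)
      refine ⟨fun t => aj e t + 2 * f t, ?_, fun t => ?_, by simp only [h3, h e]⟩
      · change row e + 2 * wsum l = _
        rw [row_pk (hl e List.mem_cons_self), h1, pk_smul, pk_add]
      · have := aj_le e t; have := h2 t
        rw [List.length_cons, pow_succ]; beta_reduce; omega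
  have k2 : ∀ l : List ℕ, (∀ e ∈ l, e < 4060) → l.length ≤ 16 → dig 16 (wsum l) i.1 = dig 16 (wsum l) j.1 := fun l a b => by
    obtain ⟨f, e, c, d⟩ := k l a
    have c := fun t (_ : t < 4060) => (c t).trans_le (Nat.pow_le_pow_right two_pos b)
    rw [e, dig_pk c i.lt, dig_pk c j.lt, d]
  have := e5
  simp only [sepB, frc_eq, allN_iff, Nat.beq_eq] at this
  refine Subtype.ext ?_
  rw [← this _ i.lt, k2 _ (by decide) (by decide), k2 _ (by decide) (by decide), this _ j.lt]

theorem line_inj {i j : Pt} {a b : ℕ} (h : gI ^ a • vec i.1 = gI ^ b • vec j.1) : i = j := sep fun e => by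
  classical
  exact if_congr (by rw [← or_pow _ _ a, h, or_pow]) rfl rfl

theorem vec_ne (i : Pt) : vec i.1 ≠ 0 := fun e => absurd (e ▸ (vec_mem i).2) (by decide)

theorem MM_eq {u : RuVec} (h : u ∈ MM) : ∃ (e : ℕ) (i : Pt), u = gI ^ e • vec i.1 := by
  let φ : Fin 4 × Pt → RuVec := fun p => gI ^ p.1.1 • vec p.2.1
  have a : Function.Injective φ := fun p q e => by
    have b := line_inj e
    refine Prod.ext ((by decide : ∀ s t : Fin 4, gI ^ s.1 = gI ^ t.1 → s = t) _ _ ?_) b
    exact smul_left_injective _ (vec_ne p.2) (e.trans (by rw [b]))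
  have c : Set.range φ = MM := (Set.finite_range φ).eq_of_subset_of_encard_le
    (by rintro _ ⟨p, rfl⟩; exact ⟨pow_mem_L (vec_mem _).1 _, (norm_pow _ _).trans (vec_mem _).2⟩) (card_min.trans (le_trans (by
      rw [ENat.card_eq_coe_natCard, Nat.card_prod, Nat.card_eq_fintype_card, Fintype.card_fin,
        show Nat.card Pt = 4060 from r.card_Pt]) a.encard_range))
  obtain ⟨p, rfl⟩ := c.ge h
  exact ⟨_, _, rfl⟩

noncomputable def lv (i : Pt) : ruLattice := ⟨vec i.1, (vec_mem i).1⟩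

theorem f_pow (f : fourRu) (v : ruLattice) (e : ℕ) : (f.1 ⟨_, pow_mem_L v.2 e⟩).1 = gI ^ e • (f.1 v).1 := by
  induction e with
  | zero => simp
  | succ e ih =>
    refine (congrArg Subtype.val ((congrArg f.1 (Subtype.ext ?_)).trans (f.2.2.1 ⟨_, pow_mem_L v.2 e⟩))).trans ?_
    · exact (congrArg (· • v.1) (pow_succ' _ _)).trans (mul_smul _ _ _)
    · rw [pow_succ', mul_smul, ← ih]; rfl

theorem ex_sg (f : fourRu) (i : Pt) : ∃ (j : Pt) (e : ℕ), (f.1 (lv i)).1 = gI ^ e • vec j.1 := by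
  obtain ⟨e, j, h⟩ := MM_eq (u := (f.1 (lv i)).1) ⟨(f.1 (lv i)).2, (f.2.2.2 _).trans (vec_mem i).2⟩
  exact ⟨j, e, h⟩

noncomputable def ρ0 : fourRu →* Function.End Pt where
  toFun f i := (ex_sg f i).choose
  map_one' := funext fun i => by
    obtain ⟨e, h⟩ := (ex_sg 1 i).choose_spec
    exact (line_inj (a := 0) ((one_smul _ _).trans h)).symm
  map_mul' f g := funext fun i => by
    obtain ⟨a, h1⟩ := (ex_sg (f * g) i).choose_spec
    obtain ⟨b, h2⟩ := (ex_sg g i).choose_spec
    obtain ⟨c, h3⟩ := (ex_sg f (ex_sg g i).choose).choose_spec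
    refine line_inj (b := b + c) (h1.symm.trans ?_)
    rw [pow_add, mul_smul]
    exact (congrArg (fun v => (f.1 v).1) (Subtype.ext h2)).trans ((f_pow f (lv _) b).trans (congrArg _ h3))

noncomputable def ρ : fourRu →* Perm Pt := ρ0.toHomPerm

theorem ρ_spec (f : fourRu) (i : Pt) : ∃ e : ℕ, (f.1 (lv i)).1 = gI ^ e • vec (ρ f i).1 := (ex_sg f i).choose_spec

theorem f_dot (f : fourRu) (v w : ruLattice) : dot (f.1 v).1 (f.1 w).1 = dot v.1 w.1 := by
  have := f.2.2.2 (v + w)
  rw [f.2.1, AddSubgroup.coe_add, AddSubgroup.coe_add, norm_add, norm_add, f.2.2.2, f.2.2.2] at this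
  omega

def hm (u v : RuVec) : GaussianInt := ⟨dot u v, dot u (gI • v)⟩
theorem f_hm (f : fourRu) (v w : ruLattice) : hm (f.1 v).1 (f.1 w).1 = hm v.1 w.1 :=
  Zsqrtd.ext (f_dot f v w) ((congrArg (fun x : ruLattice => dot _ x.1) (f.2.2.1 w)).symm.trans (f_dot f v (ruI w)))
theorem hm_zero {u v : RuVec} : hm u v = 0 ↔ Or' u v := Zsqrtd.ext_iff
theorem hm_pow (u v : RuVec) (a b : ℕ) : hm (gI ^ a • u) (gI ^ b • v) = gI ^ a * (-gI) ^ b * hm u v := by
  induction a with
  | zero =>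
    induction b with
    | zero => simp
    | succ b ih =>
      rw [pow_succ' (-gI), mul_left_comm, mul_assoc, ← ih, pow_succ', mul_smul]
      exact Zsqrtd.ext (by simp [hm, gI]) (by rw [hm, dot_II]; simp [hm, gI])
  | succ a ih =>
    rw [pow_succ', mul_assoc, mul_assoc, ← mul_assoc (gI ^ a), ← ih, mul_smul]
    exact Zsqrtd.ext (by rw [hm, dot_I]; simp [hm, gI]) (by rw [hm, dot_I _ (gI • _), dot_II]; simp [hm, gI])

theorem ρ_range : ρ.range = A := by
  have k0 : ρ.range ≤ A := by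
    rintro _ ⟨f, rfl⟩ u v
    obtain ⟨a, h1⟩ := ρ_spec f u
    obtain ⟨b, h2⟩ := ρ_spec f v
    rw [Adj, ← or_pow2 _ _ a b, ← h1, ← h2, ← hm_zero, f_hm, hm_zero]; rfl
  refine le_antisymm k0 fun g hg => ?_
  have k : ∀ x < 9, ev (lget cx 0 x) ∈ ρ.range := fun x hx => by
    obtain ⟨f, hf⟩ := exists_f hx
    refine ρ.range.inv_mem_iff.1 ⟨f, Perm.ext fun i => ?_⟩
    obtain ⟨a, h1⟩ := ρ_spec f i
    obtain ⟨b, h2⟩ := step hx i
    exact line_inj (h1.symm.trans (four_inj ((hf (lv i)).symm.trans h2)))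
  have k2 : X ≤ ρ.range := gensub_le fun x hx => by
    interval_cases x
    exacts [k 0 (by decide), k 1 (by decide), k 2 (by decide), ev_il (x := 2) (by decide) ▸ inv_mem (k 2 (by decide)),
      k 3 (by decide), ev_il (x := 4) (by decide) ▸ inv_mem (k 3 (by decide))]
  obtain ⟨c, hc⟩ := transK (K := ρ.range) (by
    simp only [List.forall_mem_cons, List.not_mem_nil, false_imp_iff, implies_true, and_true]
    exact ⟨k 0 (by decide), k 1 (by decide), k 2 (by decide), k 3 (by decide), k 4 (by decide)⟩) (g (pp 0))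
  exact (mul_mem_cancel_left (inv_mem c.2)).1 (k2 ((mem_X (c.1⁻¹ * g)).2
    ⟨mul_mem (inv_mem (k0 c.2)) hg, (Perm.inv_eq_iff_eq (f := c.1)).2 hc.symm⟩))

theorem ρ_ker : ρ.ker = center fourRu := by
  ext f
  rw [MonoidHom.mem_ker, mem_center_iff]
  constructor <;> intro h
  · choose e he using ρ_spec f
    simp only [h, Perm.one_apply] at he
    have k : ∀ i j : Pt, ¬ Adj i j → gI ^ e i = gI ^ e j := fun i j n => by
      have := f_hm f (lv i) (lv j)
      rw [he, he, hm_pow] at this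
      have := (mul_eq_right₀ fun z => n (hm_zero.1 z)).1 this
      rw [← mul_one (gI ^ e j), ← this, mul_left_comm, ← mul_pow, show gI * -gI = 1 by decide, one_pow, mul_one]
    have k2 : ∀ i, gI ^ e i = gI ^ e (pp 0) := fun i => by
      by_cases a : Adj (pp 0) i
      · obtain ⟨g, rfl⟩ := (hadj i).1 a
        refine (k _ (g.1 (pp 3048)) fun b => ?_).trans (k _ _ fun b => ?_).symm
        · have := row_pk (e := 1) (by decide) ▸ (by decide +kernel : dig 16 (row 1) 3048 = 0)
          rw [dig_pk (fun t _ => (aj_le _ _).trans_lt (by decide)) (by decide), aj,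
            if_pos (show Or' (vec 1) (vec 3048) from ((X_le g.2).1 (pp 1) (pp 3048)).1 b)] at this
          cases this
        · rw [← (X_le g.2).2, (X_le g.2).1, adj0] at b
          exact absurd b (by decide)
      · exact (k _ _ a).symm
    have k3 : ∀ v : ruLattice, (f.1 v).1 = gI ^ e (pp 0) • v.1 := fun v => by
      obtain ⟨w, hw, e1⟩ := L_le (K := (AddMonoidHom.eqLocus (ruLattice.subtype.comp (AddMonoidHom.mk' f.1 f.2.1))
        ((DistribSMul.toAddMonoidHom RuVec (gI ^ e (pp 0))).comp ruLattice.subtype)).map ruLattice.subtype)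
        (fun a i => ⟨⟨_, pow_mem_L (lv i).2 a⟩, (f_pow f (lv i) a).trans (by rw [he, k2, smul_comm]; rfl), rfl⟩) v.2
      exact Subtype.ext e1 ▸ hw
    refine fun g => Subtype.ext (Perm.ext fun v => Subtype.ext ?_)
    exact (congrArg (fun w => (g.1 w).1) (Subtype.ext (k3 v))).trans ((f_pow g v _).trans (k3 _).symm)
  · have k : ∀ g ∈ A, g * ρ f = ρ f * g := fun g hg => by
      obtain ⟨g, rfl⟩ := ρ_range.ge hg
      rw [← map_mul, h, map_mul]
    have a : ρ f (pp 0) = pp 0 := r.only_fix (S := X) (ws := [[0], [1], [2], [4]]) wsX (pp 0) (by decide +kernel) _ fun s hs =>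
      (congrArg (· (pp 0)) (k s (X_le hs).1)).trans (congrArg (ρ f) (X_le hs).2)
    ext1 i
    obtain ⟨g, rfl⟩ := exists_smul_eq A (pp 0) i
    exact (congrArg (· (pp 0)) (k g g.2)).symm.trans (congrArg g.1 a)

theorem isoA : Nonempty (A ≃* Ru) := ⟨(((QuotientGroup.quotientMulEquivOfEq ρ_ker.symm).trans
  (QuotientGroup.quotientKerEquivRange ρ)).trans (MulEquiv.subgroupCongr ρ_range)).symm⟩

theorem main {Ω : Type*} [Finite Ω] (hΩ : Nat.card Ω = 4060) (G : Subgroup (Perm Ω)) [IsPretransitive G Ω] {a b c : Ω}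
    (e : stabilizer G a ≃* Cfsg.Lie.twistedF4 (ZMod 2) 1) (hb : (orbit (stabilizer G a) b).ncard = 1755)
    (hc : (orbit (stabilizer G a) c).ncard = 2304) : IsoRu G := by
  have hP : Nat.card Pt = 4060 := r.card_Pt
  obtain ⟨H, ⟨φ⟩, t, hH⟩ := CfH9.RuG.transport G (e.trans isoF.some) hΩ hP (by decide) (by decide) (by decide) hb hc
    (fun _ h => (X_le h).2) orbB.1 orbC.1
    (fun Y h n => CfH9.RuG.clsC cardX (U_le.trans inf_le_left) cardU (fun _ h => (U_le h).2) hU Y h (by rw [cardX] at n; omega))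
    fun Y h n => clsD2 cardX wX wX (inv_mem (wX (w := wn))) ox oy fixw fixw fixw fixw fixw wdp wdp wdp hN hF hO (by decide)
      (fun t a b c d Y _ => hT t a b c d Y) Y h (by rw [cardX] at n; omega)
  have := CfH9.RuG.uniq hP orbB.1 orbC.1 h1 h2 (inv_mem (wX (w := [0, 1]))) wdp wdp (fun _ => Iff.rfl) hadj mem_X hH
  exact ⟨(φ.trans (MulEquiv.subgroupCongr this)).trans isoA.some⟩

end CfH4.Ru
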