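import Cfsg.Agent.H4.Ru1
import Cfsg.Agent.H4.RuD1
import Cfsg.Agent.H4.RuD2
import Cfsg.Agent.H4.RuD3

/-! The Rudvalis lattice: the checkers for the tables. -/

set_option autoImplicit false
set_option exponentiation.threshold 1100
open Cfsg.Spor CfH6 CfL Finset

namespace CfH4.Ru

noncomputable def d (k : ℕ) : ℕ :=
  Nat.land (Nat.shiftRight (dt.get (Nat.shiftRight k 3)) (Nat.mul 896 (Nat.land k 7))) (Nat.pred (Nat.shiftLeft 1 896))
noncomputable def vec (k : ℕ) : RuVec := ofR fun q => (dig 16 (d k) q : ℤ) - 4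

noncomputable def okd (N X : ℕ) : Bool := Nat.beq (Nat.land X (rep 16 N 15)) X && Nat.beq (ge (rep 16 N 1) X 9) 0

theorem okd_sound {N X : ℕ} (h : okd N X = true) : X = pk 16 N (dig 16 X) ∧ ∀ t < N, dig 16 X t ≤ 8 := by
  simp only [okd, Bool.and_eq_true, Nat.beq_eq] at h
  have e : X = pk 16 N fun t => dig 16 X t % 2 ^ 4 := h.1.symm.trans (land_rep (b := 4) (by decide) (by decide) X)
  have e1 : ∀ t < N, dig 16 X t = dig 16 X t % 2 ^ 4 := fun t ht => by
    conv_lhs => rw [e]
    exact dig_pk (fun t _ => by omega) ht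
  have e2 : X = pk 16 N (dig 16 X) := e.trans (pk_congr fun t ht => (e1 t ht).symm)
  refine ⟨e2, fun t ht => ?_⟩
  have := h.2
  rw [e2, ge_pk (fun t ht => by have := e1 t ht; omega) (by decide)] at this
  have := pk_inj (g := fun _ => 0) (fun t _ => by split_ifs <;> omega) (fun _ _ => by omega) (this.trans (by simp [pk])) ht
  split_ifs at this; omega

noncomputable def fm (f : ℕ → ℕ) (l : List ℕ) : (List ℕ → Bool) → Bool :=
  List.rec (fun k => k []) (fun a _ ih k => frc (f a) fun x => ih fun l' => k (x :: l')) l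

theorem fm_eq (f : ℕ → ℕ) (l : List ℕ) : ∀ k, fm f l k = k (l.map f) := by
  induction l with
  | nil => exact fun _ => rfl
  | cons a l ih => exact fun k => (frc_eq (f a) fun x => fm f l fun l' => k (x :: l')).trans (ih _)

noncomputable def allq (s w : ℕ) (l : List ℕ) : ℕ → Bool :=
  List.rec (fun _ => true) (fun c _ ih i => frc i fun i =>
    Nat.beq (Nat.land (Nat.shiftRight c s) 65535) (Nat.land (Nat.shiftRight w i) 65535) && ih (Nat.add i 16)) l

theorem allq_sound (s w : ℕ) (l : List ℕ) : ∀ i, allq s w l (16 * i) = true → ∀ q < l.length,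
    (l.getD q 0 >>> s) % 2 ^ 16 = dig 16 w (i + q) := by
  induction l with
  | nil => exact fun _ _ _ h => absurd h (Nat.not_lt_zero _)
  | cons c l ih =>
    intro i h q hq
    have h : (Nat.beq ((c >>> s) &&& (2 ^ 16 - 1)) (w >>> (16 * i) &&& (2 ^ 16 - 1)) && allq s w l (16 * (i + 1))) = true :=
      (frc_eq (16 * i) fun i => Nat.beq (Nat.land (Nat.shiftRight c s) 65535) (Nat.land (Nat.shiftRight w i) 65535) &&
        allq s w l (Nat.add i 16)).symm.trans h
    rw [Bool.and_eq_true, Nat.beq_eq, Nat.and_two_pow_sub_one_eq_mod, Nat.and_two_pow_sub_one_eq_mod] at h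
    cases q with
    | zero => exact h.1
    | succ q => rw [show i + (q + 1) = i + 1 + q by omega]; exact ih _ h.2 q (by simpa using hq)

noncomputable def trB (b : ℕ) : Bool :=
  fm (fun A => Nat.land (Nat.shiftRight A (Nat.mul 1024 b)) (Nat.pred (Nat.shiftLeft 1 1024))) ar fun l =>
    all1 (fun j => frc (Nat.add (Nat.mul 64 b) j) fun k => !Nat.blt k 4060 ||
      okd 56 (d k) && Nat.ble (off (d k)) 16 && frc (Nat.mul 16 j) fun s =>
        allq s (Nat.add (d k) (Nat.mul 129 (rot (d k)))) l 0) 64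

noncomputable def any4 (a c D : ℕ) : Bool :=
  Nat.beq a (Nat.add c (Nat.mul 4 D)) || (Nat.beq a (Nat.add c (Nat.mul 4 (rot D))) ||
    (Nat.beq a (Nat.add c (Nat.mul 4 (rot (rot D)))) || Nat.beq a (Nat.add c (Nat.mul 4 (rot (rot (rot D)))))))

def cx : List ℕ := [0, 1, 2, 4, 6, 7, 8, 9, 11]

noncomputable def apB (b : ℕ) : Bool :=
  frc (rep 16 504 8) fun R => frc (rep 16 56 1) fun O => frc (Nat.pred (Nat.shiftLeft 1 896)) fun M =>
    all1 (fun j => frc (Nat.add (Nat.mul 64 b) j) fun k => !Nat.blt k 4060 || all1 (fun x =>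
      frc (T.R (lget cx 0 x) k) fun k' => Nat.blt k' 4060 &&
        any4 (Nat.add (Nat.land (Nat.shiftRight (rs R cl (d k)) (Nat.mul 896 x)) M) (Nat.mul 16 O))
          (Nat.mul (Nat.mul 4 (off (d k))) O) (d k')) 9) 64

noncomputable def mt (x q r : ℕ) : ℤ := (dig 16 (cl.getD q 0) (56 * x + r) : ℤ) - 4
noncomputable def lin (x : ℕ) (u : RuVec) : RuVec := ofR fun r => ∑ q ∈ range 56, co u q * mt x q r

theorem rp_vec {k : ℕ} (h : okd 56 (d k) = true) : Rp (d k) (vec k) :=
  ⟨_, (okd_sound h).1, fun q hq => ⟨(okd_sound h).2 q hq, co_ofR _ q hq⟩⟩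

theorem trB_sound {k : ℕ} (hk : k < 4060) (h : trB (k / 64) = true) : Rp (d k) (vec k) ∧ of' (dig 16 (d k)) ≤ 16 ∧
    ∀ q < 56, dig 16 (ar.getD q 0) k = dig 16 (d k) q + 129 * dig 16 (rot (d k)) q := by
  rw [trB, fm_eq, all1_iff] at h
  have h := h (k % 64) (by omega)
  simp only [frc_eq] at h
  rw [show Nat.add (Nat.mul 64 (k / 64)) (k % 64) = k from Nat.div_add_mod k 64, blt2 hk] at h
  simp only [Bool.not_true, Bool.false_or, Bool.and_eq_true, Nat.ble_eq, off_eq] at h
  have r := rp_vec h.1.1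
  refine ⟨r, h.1.2, fun q hq => ?_⟩
  have := allq_sound _ _ _ 0 h.2 q (by rw [List.length_map]; exact hq)
  rw [zero_add] at this
  rw [List.getD_eq_getElem _ _ (by rw [List.length_map]; exact hq), List.getElem_map, ← List.getD_eq_getElem _ 0] at this
  change ((_ >>> (1024 * (k / 64)) &&& (1 <<< 1024 - 1)) >>> (16 * (k % 64))) % _ = dig 16 (d k + 129 * rot (d k)) q at this
  rw [congrArg₂ (fun a b => a + 129 * b) r.dig.1 r.rot.dig.1, pk_smul, pk_add, dig_pk (fun t ht => by
    have := (r.dig.2 t ht).1; have := (r.rot.dig.2 t ht).1; omega) hq] at this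
  rw [← this, dig, Nat.one_shiftLeft, Nat.and_two_pow_sub_one_eq_mod]
  apply Nat.eq_of_testBit_eq
  intro i
  simp only [Nat.testBit_mod_two_pow, Nat.testBit_shiftRight]
  by_cases hi : i < 16
  · rw [show 16 * k + i = 1024 * (k / 64) + (16 * (k % 64) + i) by omega, decide_eq_true (show _ + i < 1024 by omega)]
    simp
  · simp [hi]

theorem any4_sound {a c D : ℕ} {u : RuVec} (r : Rp D u) (h : any4 a c D = true) :
    ∃ e < 4, ∃ D', Rp D' (gI ^ e • u) ∧ a = c + 4 * D' := by
  simp only [any4, Bool.or_eq_true, Nat.beq_eq] at h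
  rcases h with h | h | h | h
  · exact ⟨0, by decide, _, by simpa using r, h⟩
  · exact ⟨1, by decide, _, by simpa using r.rot, h⟩
  · exact ⟨2, by decide, _, by simpa [pow_succ, mul_smul] using r.rot.rot, h⟩
  · exact ⟨3, by decide, _, by simpa [pow_succ, mul_smul] using r.rot.rot.rot, h⟩

theorem of_le {x : ℕ → ℕ} (h : ∀ q < 56, x q ≤ 8) : of' x ≤ 224 :=
  (sum_le_card_nsmul _ _ 4 fun q hq => by have := h q (mem_range.1 hq); omega).trans (by simp)

theorem cl_ok : ∀ q < 56, okd 504 (cl.getD q 0) = true := by decide +kernel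

theorem apB_sound (hr : ∀ k < 4060, Rp (d k) (vec k)) {k : ℕ} (hk : k < 4060) (h : apB (k / 64) = true) {x : ℕ} (hx : x < 9) :
    ∃ e < 4, lin x (vec k) = (4 : ℤ) • gI ^ e • vec (T.R (lget cx 0 x) k) := by
  simp only [apB, frc_eq, all1_iff] at h
  have h := h (k % 64) (by omega)
  rw [show Nat.add (Nat.mul 64 (k / 64)) (k % 64) = k from Nat.div_add_mod k 64, blt2 hk] at h
  simp only [Bool.not_true, Bool.false_or, all1_iff, Bool.and_eq_true] at h
  obtain ⟨e, he, D', r, h⟩ := any4_sound (hr _ (blt1 (h x hx).1)) (h x hx).2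
  refine ⟨e, he, co_ext fun q hq => ?_⟩
  have b := fun t (ht : t < 504) => hs_cast (c := 4) (dig 16 (d k)) (g := fun q => dig 16 (cl.getD q 0) t)
    fun q hq => (okd_sound (cl_ok q hq)).2 t ht
  have o := of_le fun q hq => ((hr k hk).dig.2 q hq).1
  change (_ >>> (896 * x) &&& (1 <<< 896 - 1)) + 16 * rep 16 56 1 = 4 * off (d k) * rep 16 56 1 + 4 * D' at h
  rw [Nat.one_shiftLeft, Nat.and_two_pow_sub_one_eq_mod, ← dig, dig_block,
    rs_pk (c := 4) rfl fun q hq => okd_sound (cl_ok q hq), rep_eq (by decide), r.dig.1, off_eq, pk_smul, pk_smul, pk_smul,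
    pk_add, pk_add] at h
  have e1 : ∀ t < 56, dig 16 (pk 16 504 fun t => hs 4 (dig 16 (d k)) fun q => dig 16 (cl.getD q 0) t) (56 * x + t) = _ :=
    fun t ht => dig_pk (fun t ht => by have := (b t ht).2; omega) (by omega)
  have := pk_inj (fun t ht => by have := (b (56 * x + t) (by omega)).2; rw [e1 t ht]; omega)
    (fun t ht => by have := (r.dig.2 t ht).1; omega) h hq
  rw [e1 q hq] at this
  have b1 := (b (56 * x + q) (by omega)).1
  rw [co_four, (r.dig.2 q hq).2, lin, co_ofR _ q hq,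
    sum_congr rfl fun s hs => by rw [((hr k hk).dig.2 s (mem_range.1 hs)).2, mt]]
  push_cast at b1
  omega

end CfH4.Ru
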