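import Cfsg.Agent.H4.RuC1
import Cfsg.Agent.H4.RuC2

/-! The Rudvalis lattice: the linear maps and the orthogonality graph on the 4060 lines. -/

set_option autoImplicit false
set_option exponentiation.threshold 1100
open Cfsg.Spor CfH6 CfL Finset

namespace CfH4.Ru

theorem hd {k : ℕ} (hk : k < 4060) : Rp (d k) (vec k) ∧ of' (dig 16 (d k)) ≤ 16 ∧
    ∀ q < 56, dig 16 (ar.getD q 0) k = dig 16 (d k) q + 129 * dig 16 (rot (d k)) q :=
  trB_sound hk (trB_all (by omega))

theorem happ {k x : ℕ} (hk : k < 4060) (hx : x < 9) :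
    ∃ e < 4, lin x (vec k) = (4 : ℤ) • gI ^ e • vec (T.R (lget cx 0 x) k) :=
  apB_sound (fun _ h => (hd h).1) hk (apB_all (by omega)) hx

theorem eq_pk {W N x : ℕ} (h : x >>> (W * N) = 0) : x = pk W N (dig W x) := by
  rw [pk_dig, Nat.mod_eq_of_lt]
  rwa [Nat.shiftRight_eq_div_pow, Nat.div_eq_zero_iff_lt (by positivity)] at h

theorem ar_lt : ∀ q < 56, ar.getD q 0 >>> (16 * 4060) = 0 := by decide +kernel

noncomputable def trp (x : ℕ) : List ℕ := (List.range 56).map fun r =>
  sum1 (fun t => Nat.shiftLeft (dig 16 (cl.getD t 0) (56 * x + r)) (16 * t)) 56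

theorem gram0 : ∀ x < 9, fm (fun a => a) (trp x) (fun l => all1 (fun q =>
    Nat.beq (rs (rep 16 56 8) l (dig 896 (cl.getD q 0) x))
      (Nat.add (Nat.mul (Nat.mul 4 (off (dig 896 (cl.getD q 0) x))) (rep 16 56 1)) (Nat.shiftLeft 16 (16 * q)))) 56) = true := by
  decide +kernel

theorem pk_one {N e : ℕ} (he : e < N) (c : ℕ) : c <<< (16 * e) = pk 16 N fun t => if t = e then c else 0 := by
  rw [pk, sum_eq_single e (fun t _ h => by rw [if_neg h, zero_mul]) fun h => absurd (mem_range.2 he) h, if_pos rfl,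
    Nat.shiftLeft_eq]

theorem gram {x q t : ℕ} (hx : x < 9) (hq : q < 56) (ht : t < 56) :
    ∑ r ∈ range 56, mt x q r * mt x t r = if t = q then 16 else 0 := by
  have h := gram0 x hx
  rw [fm_eq, List.map_id', all1_iff] at h
  have h := Nat.eq_of_beq_eq_true (h q hq)
  have b : ∀ t < 56, ∀ r < 56, dig 16 (cl.getD t 0) (56 * x + r) ≤ 2 * 4 := fun t ht r hr =>
    (okd_sound (cl_ok t ht)).2 _ (by omega)
  have e : ∀ r < 56, dig 16 (dig 896 (cl.getD q 0) x) r = dig 16 (cl.getD q 0) (56 * x + r) := fun r hr => by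
    rw [dig_block, dig_pk (fun _ _ => dig_lt _ _ _) hr]
  have c := fun t (ht : t < 56) => hs_cast (c := 4) (dig 16 (dig 896 (cl.getD q 0) x))
    (g := fun r => dig 16 (cl.getD t 0) (56 * x + r)) (b t ht)
  have o := of_le (x := dig 16 (dig 896 (cl.getD q 0) x)) fun r hr => (e r hr).le.trans (b q hq r hr)
  change _ = 4 * off _ * rep 16 56 1 + 16 <<< (16 * q) at h
  rw [rs_pk (c := 4) (g := fun r t => dig 16 (cl.getD t 0) (56 * x + r)) (by simp [trp]) fun r hr => ⟨by
    rw [trp, List.getD_eq_getElem _ _ (by simpa using hr), List.getElem_map, List.getElem_range, sum1_eq]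
    exact sum_congr rfl fun t _ => Nat.shiftLeft_eq _ _, fun t ht => b t ht r hr⟩, rep_eq (by decide), off_eq,
    pk_smul, pk_one hq, pk_add] at h
  have := pk_inj (fun t ht => by have := (c t ht).2; omega) (fun t _ => by split_ifs <;> omega) h ht
  have c1 := (c t ht).1
  rw [sum_congr rfl fun r hr => by rw [e r (mem_range.1 hr)]] at c1
  simp only [mt]
  push_cast at c1
  split_ifs at this ⊢ <;> omega

theorem co_lin (x : ℕ) (u : RuVec) {r : ℕ} (hr : r < 56) : co (lin x u) r = ∑ q ∈ range 56, co u q * mt x q r :=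
  co_ofR _ r hr

theorem dot_lin {x : ℕ} (hx : x < 9) (u v : RuVec) : dot (lin x u) (lin x v) = 16 * dot u v := by
  rw [dot_eq, dot_eq, sum_congr rfl fun r hr => by rw [co_lin x u (mem_range.1 hr), co_lin x v (mem_range.1 hr), sum_mul_sum],
    sum_comm, mul_sum]
  refine sum_congr rfl fun q hq => ?_
  rw [sum_comm, sum_congr rfl fun t ht => show _ = co u q * co v t * if t = q then 16 else 0 by
    rw [← gram hx (mem_range.1 hq) (mem_range.1 ht), mul_sum]; exact sum_congr rfl fun _ _ => by ring]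
  simp only [mul_ite, mul_zero, sum_ite_eq', if_pos hq]; ring

theorem blk : ∀ x < 9, ∀ q < 28, ∀ r < 28, dig 16 (cl.getD (28 + q) 0) (56 * x + r) + dig 16 (cl.getD q 0) (56 * x + (28 + r)) = 8 ∧
    dig 16 (cl.getD q 0) (56 * x + r) = dig 16 (cl.getD (28 + q) 0) (56 * x + (28 + r)) := by decide +kernel

theorem lin_I {x : ℕ} (hx : x < 9) (u : RuVec) : lin x (gI • u) = gI • lin x u := by
  refine co_ext (cases56 (fun r hr => ?_) fun r hr => ?_)
  · rw [co_I_lo _ hr, co_lin _ _ (by omega), co_lin _ _ (by omega), show 56 = 28 + 28 from rfl, sum_range_add,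
      sum_range_add, ← sum_add_distrib, ← sum_add_distrib, ← sum_neg_distrib]
    refine sum_congr rfl fun q hq => ?_
    have := blk x hx q (mem_range.1 hq) r hr
    rw [co_I_lo _ (mem_range.1 hq), co_I_hi _ (mem_range.1 hq), show mt x (28 + q) r = -mt x q (28 + r) by simp only [mt]; omega,
      show mt x (28 + q) (28 + r) = mt x q r by simp only [mt]; omega]
    ring
  · rw [co_I_hi _ hr, co_lin _ _ (by omega), co_lin _ _ (by omega), show 56 = 28 + 28 from rfl, sum_range_add,
      sum_range_add, ← sum_add_distrib, ← sum_add_distrib]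
    refine sum_congr rfl fun q hq => ?_
    have := blk x hx q (mem_range.1 hq) r hr
    rw [co_I_lo _ (mem_range.1 hq), co_I_hi _ (mem_range.1 hq), show mt x (28 + q) r = -mt x q (28 + r) by simp only [mt]; omega,
      show mt x (28 + q) (28 + r) = mt x q r by simp only [mt]; omega]
    ring

theorem lin_add (x : ℕ) (u v : RuVec) : lin x (u + v) = lin x u + lin x v := co_ext fun r hr => by
  simp only [co_add, co_lin _ _ hr, add_mul, sum_add_distrib]

theorem dot_four (u v : RuVec) : dot ((4 : ℤ) • u) ((4 : ℤ) • v) = 16 * dot u v := by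
  simp only [dot_eq, co_four, mul_sum]
  exact sum_congr rfl fun p _ => by ring

theorem or_four (u v : RuVec) : Or' ((4 : ℤ) • u) ((4 : ℤ) • v) ↔ Or' u v := by
  rw [Or', Or', smul_comm gI, dot_four, dot_four]; simp

theorem or_lin {x : ℕ} (hx : x < 9) (u v : RuVec) : Or' (lin x u) (lin x v) ↔ Or' u v := by
  rw [Or', Or', ← lin_I hx, dot_lin hx, dot_lin hx]; simp

theorem or_tab {x i j : ℕ} (hx : x < 9) (hi : i < 4060) (hj : j < 4060) :
    Or' (vec (T.R (lget cx 0 x) i)) (vec (T.R (lget cx 0 x) j)) ↔ Or' (vec i) (vec j) := by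
  obtain ⟨a, -, e1⟩ := happ hi hx
  obtain ⟨b, -, e2⟩ := happ hj hx
  rw [← or_lin hx (vec i), e1, e2, or_four, or_pow2]

/-! rows of the adjacency matrix -/

theorem dot_hs {D D' : ℕ} {u v : RuVec} (h : Rp D u) (h' : Rp D' v) :
    dot u v = ∑ q ∈ range 56, ((dig 16 D q : ℤ) - 4) * (dig 16 D' q - 4) ∧
      -(4 * of' (dig 16 D) : ℤ) ≤ dot u v ∧ dot u v ≤ 4 * of' (dig 16 D) := by
  have e : dot u v = ∑ q ∈ range 56, ((dig 16 D q : ℤ) - 4) * (dig 16 D' q - 4) := by
    rw [dot_eq]
    exact sum_congr rfl fun q hq => by rw [(h.dig.2 q (mem_range.1 hq)).2, (h'.dig.2 q (mem_range.1 hq)).2]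
  have := hs_cast (c := 4) (dig 16 D) (g := dig 16 D') fun q hq => (h'.dig.2 q hq).1
  push_cast at this
  rw [← e] at this
  exact ⟨e, by omega, by omega⟩

noncomputable def O : ℕ := rep 16 4060 1
noncomputable def RR : ℕ := rep 16 4060 (2 * 520)

noncomputable def row (e : ℕ) : ℕ := frc (Nat.mul 520 (off (d e))) fun m =>
  Nat.sub (ge O (rs RR ar (d e)) m) (ge O (rs RR ar (d e)) (Nat.succ m))

open Classical in
noncomputable def aj (e j : ℕ) : ℕ := if Or' (vec e) (vec j) then 1 else 0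

theorem row_pk {e : ℕ} (he : e < 4060) : row e = pk 16 4060 (aj e) := by
  obtain ⟨r, o, -⟩ := hd he
  have b : ∀ q < 56, ∀ j < 4060, dig 16 (d j) q + 129 * dig 16 (rot (d j)) q ≤ 2 * 520 := fun q hq j hj => by
    have := ((hd hj).1.dig.2 q hq).1; have := ((hd hj).1.rot.dig.2 q hq).1; omega
  have c := fun j (hj : j < 4060) => hs_cast (c := 520) (dig 16 (d e))
    (g := fun q => dig 16 (d j) q + 129 * dig 16 (rot (d j)) q) fun q hq => b q hq j hj
  rw [row, frc_eq, RR, O, rs_pk (g := fun q j => dig 16 (d j) q + 129 * dig 16 (rot (d j)) q) rfl fun q hq =>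
    ⟨(eq_pk (ar_lt q hq)).trans (pk_congr fun j hj => (hd hj).2.2 q hq), b q hq⟩, off_eq]
  change ge _ _ (520 * _) - ge _ _ (520 * _ + 1) = _
  rw [ge_pk (fun j hj => by have := (c j hj).2; omega) (by omega), ge_pk (fun j hj => by have := (c j hj).2; omega) (by omega)]
  refine Nat.sub_eq_of_eq_add ?_
  rw [pk_add]
  refine pk_congr fun j hj => ?_
  have c1 := (c j hj).1
  obtain ⟨e1, l1⟩ := dot_hs r (hd hj).1
  obtain ⟨e2, l2⟩ := dot_hs r (hd hj).1.rot
  rw [show ∑ q ∈ range 56, _ = dot (vec e) (vec j) + 129 * dot (vec e) (gI • vec j) by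
    rw [e1, e2, mul_sum, ← sum_add_distrib]; exact sum_congr rfl fun q _ => by push_cast; ring] at c1
  rw [aj, Or']
  push_cast at c1
  split_ifs <;> omega

end CfH4.Ru
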