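import Cfsg.Agent.H4.Ru3

/-! The orthogonality graph on the 4060 lines: invariant masks. -/

set_option autoImplicit false
set_option exponentiation.threshold 1100
open Cfsg.Spor CfH6 CfL Finset Equiv

namespace CfH4.Ru

abbrev Pt : Type := {i // i < T.N}
noncomputable instance : Fintype Pt := Fintype.ofFinite _
theorem Pt.lt (i : Pt) : i.1 < 4060 := i.2

def Adj (u v : Pt) : Prop := Or' (vec u.1) (vec v.1)

def A : Subgroup (Perm Pt) where
  carrier := {g | ∀ u v, Adj (g u) (g v) ↔ Adj u v}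
  one_mem' _ _ := Iff.rfl
  mul_mem' ha hb u v := (ha _ _).trans (hb u v)
  inv_mem' {g} ha u v := by rw [← ha]; simp

def Inv (σ : Perm Pt) (X : ℕ) : Prop := ∀ j : Pt, dig 16 X (σ j).1 = dig 16 X j.1

variable {σ : Perm Pt}

theorem dig_land (a b j : ℕ) : dig 16 (a &&& b) j = dig 16 a j &&& dig 16 b j := by
  rw [dig, Nat.shiftRight_and_distrib, Nat.and_mod_two_pow]; rfl
theorem dig_xor (a b j : ℕ) : dig 16 (a ^^^ b) j = dig 16 a j ^^^ dig 16 b j := by
  rw [dig, Nat.shiftRight_xor_distrib, Nat.xor_mod_two_pow]; rfl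

theorem inv_pk {f : ℕ → ℕ} (hf : ∀ t < 4060, f t < 2 ^ 16) (h : ∀ j : Pt, f (σ j).1 = f j.1) : Inv σ (pk 16 4060 f) :=
  fun j => by rw [dig_pk hf (σ j).lt, dig_pk hf j.lt, h]

theorem inv_O : Inv σ O := by
  rw [O, rep_eq (by decide)]; exact inv_pk (fun _ _ => by decide) fun _ => rfl

abbrev Sp := List (ℕ × Bool)

noncomputable def spc (st : List ℕ) (s : Sp) : ℕ :=
  List.rec O (fun a _ ih => Nat.land (Bool.rec (Nat.xor O (lget st 0 a.1)) (lget st 0 a.1) a.2) ih) s

theorem inv_spc {st : List ℕ} (h : ∀ m ∈ st, Inv σ m) (s : Sp) : Inv σ (spc st s) := by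
  induction s with
  | nil => exact inv_O
  | cons a s ih =>
    have b : Inv σ (lget st 0 a.1) := (lget_mem st 0 a.1).elim (fun e _ => by rw [e]; simp [dig]) (h _)
    intro j
    change dig 16 ((Bool.rec (O ^^^ lget st 0 a.1) (lget st 0 a.1) a.2 : ℕ) &&& spc st s) _ =
      dig 16 ((Bool.rec (O ^^^ lget st 0 a.1) (lget st 0 a.1) a.2 : ℕ) &&& spc st s) _
    rw [dig_land, dig_land, ih j]
    cases a.2
    · simp only [dig_xor, b j, inv_O j]
    · simp only [b j]

noncomputable def sgl (l : List ℕ) : ℕ := List.rec 0 (fun e _ ih => Nat.add (Nat.shiftLeft 1 (Nat.mul 16 e)) ih) l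
noncomputable def srw (l : List ℕ) : ℕ := List.rec 0 (fun e _ ih => Nat.add (row e) ih) l

theorem sgl_pk {l : List ℕ} (h : ∀ e ∈ l, e < 4060) : sgl l = pk 16 4060 fun t => l.count t := by
  induction l with
  | nil => simp [sgl, pk]
  | cons e l ih =>
    change 1 <<< (16 * e) + sgl l = _
    rw [ih fun x hx => h x (List.mem_cons_of_mem _ hx), pk_one (h e List.mem_cons_self), pk_add]
    exact pk_congr fun t _ => by simp only [List.count_cons, beq_iff_eq, eq_comm (a := e)]; omega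

theorem srw_pk {l : List ℕ} (h : ∀ e ∈ l, e < 4060) :
    srw l = pk 16 4060 fun j => ∑ t : Pt, l.count t.1 * aj t.1 j := by
  induction l with
  | nil => simp [srw, pk]
  | cons e l ih =>
    have he := h e List.mem_cons_self
    change row e + srw l = _
    rw [ih fun x hx => h x (List.mem_cons_of_mem _ hx), row_pk he, pk_add]
    refine pk_congr fun j _ => ?_
    simp only [List.count_cons, beq_iff_eq, add_mul, sum_add_distrib]
    rw [add_comm]
    congr 1
    exact ((sum_eq_single (⟨e, he⟩ : Pt) (fun t _ ht => by rw [if_neg fun a => ht (Subtype.ext a.symm), zero_mul])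
      (by simp)).trans (by simp)).symm

theorem sum_count {l : List ℕ} : ∑ t : Pt, l.count t.1 ≤ l.length := by
  induction l with
  | nil => simp
  | cons e l ih =>
    simp only [List.count_cons, beq_iff_eq, sum_add_distrib, List.length_cons]
    refine Nat.add_le_add ih ?_
    rw [← card_filter]
    exact card_le_one.2 fun a ha b hb => Subtype.ext ((mem_filter.1 ha).2.symm.trans (mem_filter.1 hb).2)

theorem aj_le (e j : ℕ) : aj e j ≤ 1 := by unfold aj; split_ifs <;> omega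
theorem aj_inv (h : σ ∈ A) (u v : Pt) : aj (σ u).1 (σ v).1 = aj u.1 v.1 := by
  classical exact if_congr (h u v) rfl rfl

theorem inv_ge (hσ : σ ∈ A) {l : List ℕ} (h : ∀ e ∈ l, e < 4060) (hl : l.length < 32768) (hi : Inv σ (sgl l)) {m : ℕ}
    (hm : m < 32768) : Inv σ (ge O (srw l) m) := by
  have c : ∀ t < 4060, l.count t < 2 ^ 16 := fun t _ => by have := List.count_le_length (a := t) (l := l); omega
  rw [O, srw_pk h, ge_pk (fun j _ => lt_of_le_of_lt ((sum_le_sum fun t _ =>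
    (Nat.mul_le_mul_left _ (aj_le _ _)).trans (mul_one _).le).trans sum_count) hl) hm.le]
  refine inv_pk (fun _ _ => by split_ifs <;> omega) fun j => ?_
  rw [← Equiv.sum_comp σ, sum_congr rfl fun t _ => ?_]
  have := hi t
  rw [sgl_pk h, dig_pk c (σ t).lt, dig_pk c t.lt] at this
  rw [this, aj_inv hσ]

structure Ins where
  s : Sp
  l : List ℕ
  t : List ℕ

theorem frcB {x : ℕ} {k : ℕ → Bool} (h : frc x k = true) : k x = true := (frc_eq x k).symm.trans h

noncomputable def run (p : List Ins) (fin : List ℕ → Bool) : List ℕ → Bool :=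
  List.rec fin (fun i _ ih st => allLt 4060 i.l && Nat.blt i.l.length 32768 && allLt 32768 i.t &&
    Nat.beq (spc st i.s) (sgl i.l) && frc (srw i.l) fun c => fm (ge O c) i.t fun ms => ih (st ++ ms)) p

theorem run_sound (p : List Ins) (fin : List ℕ → Bool) : ∀ st, run p fin st = true →
    ∃ st', fin st' = true ∧ ∀ σ ∈ A, (∀ m ∈ st, Inv σ m) → ∀ m ∈ st', Inv σ m := by
  induction p with
  | nil => exact fun st h => ⟨st, h, fun _ _ h => h⟩
  | cons i p ih =>
    intro st h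
    have h : (allLt 4060 i.l && Nat.blt i.l.length 32768 && allLt 32768 i.t && Nat.beq (spc st i.s) (sgl i.l) &&
      frc (srw i.l) fun c => fm (ge O c) i.t fun ms => run p fin (st ++ ms)) = true := h
    simp only [Bool.and_eq_true, frc_eq, fm_eq, Nat.beq_eq] at h
    obtain ⟨⟨⟨⟨h1, h2⟩, h3⟩, h4⟩, h5⟩ := h
    obtain ⟨st', a, b⟩ := ih _ h5
    refine ⟨st', a, fun σ hσ hs => b σ hσ fun m hm => (List.mem_append.1 hm).elim (hs m) fun hm => ?_⟩
    obtain ⟨t, ht, rfl⟩ := List.mem_map.1 hm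
    exact inv_ge hσ (allLt_sound h1) (blt1 h2) (h4 ▸ inv_spc hs _) (allLt_sound h3 t ht)

noncomputable def eng (bs : List ℕ) (p : List Ins) (l : List (Sp × ℕ × ℕ)) : Bool :=
  allLt 4060 bs && run p (fun st => l.all fun a => Nat.beq (dig 16 (spc st a.1) a.2.1 % 2) 1 &&
    Nat.ble (Nat.mod (Nat.land (spc st a.1) O) 65535) a.2.2) (bs.map fun b => sgl [b])

theorem sum_Pt (f : ℕ → ℕ) : ∑ t : Pt, f t.1 = ∑ t ∈ range 4060, f t :=
  (sum_subtype (range 4060) (fun _ => mem_range) f).symm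

theorem ncard_mask (M : ℕ) : {j : Pt | dig 16 M j.1 % 2 = 1}.ncard = (M &&& O) % 65535 := by
  classical
  have e : {j : Pt | dig 16 M j.1 % 2 = 1}.ncard = ∑ t ∈ range 4060, dig 16 M t % 2 ^ 1 := by
    rw [← sum_Pt fun t => dig 16 M t % 2 ^ 1, ← coe_filter_univ, Set.ncard_coe_finset, card_filter]
    exact sum_congr rfl fun t _ => by split_ifs <;> omega
  rw [O, show (1 : ℕ) = 2 ^ 1 - 1 from rfl, land_rep (by decide) (by decide), pk_mod, ← e, Nat.mod_eq_of_lt]
  · rfl
  · rw [e]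
    exact lt_of_le_of_lt (sum_le_card_nsmul _ _ 1 fun t _ => by omega) (by simp)

theorem eng_sound {bs : List ℕ} {p : List Ins} {l : List (Sp × ℕ × ℕ)} (h : eng bs p l = true) {a : Sp × ℕ × ℕ}
    (ha : a ∈ l) (b : Pt) (hb : b.1 = a.2.1) : ∃ C : Set Pt, C.ncard ≤ a.2.2 ∧ b ∈ C ∧
      ∀ σ ∈ A, (∀ i : Pt, i.1 ∈ bs → σ i = i) → ∀ j, σ j ∈ C ↔ j ∈ C := by
  rw [eng, Bool.and_eq_true] at h
  obtain ⟨st, h1, h2⟩ := run_sound _ _ _ h.2
  have h1 := List.all_eq_true.1 h1 a ha
  simp only [Bool.and_eq_true, Nat.beq_eq, Nat.ble_eq] at h1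
  refine ⟨{j : Pt | dig 16 (spc st a.1) j.1 % 2 = 1}, (ncard_mask _).le.trans h1.2, by rw [← hb] at h1; exact h1.1,
    fun σ hσ hf j => ?_⟩
  rw [Set.mem_setOf_eq, inv_spc (h2 σ hσ fun m hm => ?_) a.1 j]; rfl
  obtain ⟨c, hc, rfl⟩ := List.mem_map.1 hm
  have c1 := allLt_sound h.1 c hc
  rw [sgl_pk (by simpa using c1)]
  refine inv_pk (fun t _ => by have := List.count_le_length (a := t) (l := [c]); simp at this; omega) fun j => ?_
  simp only [List.count_singleton, beq_iff_eq]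
  refine if_congr ⟨fun e => ?_, fun e => by rw [hf j (e ▸ hc), e]⟩ rfl rfl
  exact congrArg Subtype.val (σ.injective (a₁ := ⟨c, c1⟩) ((hf _ hc).trans (Subtype.ext e)))

/-! points are separated by their neighbours in a short list -/

inductive DT | l (j : ℕ) | n (k : ℕ) (a b : DT)

noncomputable def DT.get (t : DT) (c : ℕ) : ℕ :=
  DT.rec (fun j => j) (fun k _ _ a b => Nat.rec a (fun _ _ => b) (Nat.land (Nat.shiftRight c k) 1)) t

noncomputable def wsum (l : List ℕ) : ℕ := List.rec 0 (fun e _ ih => Nat.add (row e) (Nat.mul 2 ih)) l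

theorem wsum_pk (hσ : σ ∈ A) {l : List ℕ} (h : ∀ e ∈ l, ∃ i : Pt, i.1 = e ∧ σ i = i) :
    ∃ f, wsum l = pk 16 4060 f ∧ (∀ t, f t < 2 ^ l.length) ∧ ∀ j : Pt, f (σ j).1 = f j.1 := by
  induction l with
  | nil => exact ⟨fun _ => 0, by simp [wsum, pk], fun _ => one_pos, fun _ => rfl⟩
  | cons e l ih =>
    obtain ⟨f, h1, h2, h3⟩ := ih fun x hx => h x (List.mem_cons_of_mem _ hx)
    obtain ⟨i, rfl, hi⟩ := h e List.mem_cons_self
    refine ⟨fun t => aj i.1 t + 2 * f t, ?_, fun t => ?_, fun j => ?_⟩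
    · change row i.1 + 2 * wsum l = _
      rw [row_pk i.lt, h1, pk_smul, pk_add]
    · have := aj_le i.1 t; have := h2 t
      rw [List.length_cons, pow_succ]; beta_reduce; omega
    · simp only [h3]; rw [← aj_inv hσ i j, hi]

noncomputable def sepB (t : DT) (l1 l2 : List ℕ) : Bool := frc (wsum l1) fun a => frc (wsum l2) fun b =>
  allN (fun j => frc (Nat.add (dig 16 a j) (Nat.mul 1024 (dig 16 b j))) fun c => Nat.beq (t.get c) j) 4060

theorem sep_sound {t : DT} {l1 l2 : List ℕ} (h : sepB t l1 l2 = true) (h1 : l1.length ≤ 16) (h2 : l2.length ≤ 16)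
    (hσ : σ ∈ A) (hf : ∀ e ∈ l1 ++ l2, ∃ i : Pt, i.1 = e ∧ σ i = i) : σ = 1 := by
  have k : ∀ l : List ℕ, l.length ≤ 16 → (∀ e ∈ l, ∃ i : Pt, i.1 = e ∧ σ i = i) → Inv σ (wsum l) := fun l a b => by
    obtain ⟨f, e, c, d⟩ := wsum_pk hσ b
    exact e ▸ inv_pk (fun t _ => (c t).trans_le (Nat.pow_le_pow_right two_pos a)) d
  simp only [sepB, frc_eq, allN_iff, Nat.beq_eq] at h
  ext j
  rw [← h _ (σ j).lt, k l1 h1 (fun e he => hf e (List.mem_append_left _ he)) j,
    k l2 h2 (fun e he => hf e (List.mem_append_right _ he)) j, h _ j.lt]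
  rfl

end CfH4.Ru
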