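import Cfsg.Agent.H4.RuD4
import Cfsg.Agent.H4.RuD5
import Cfsg.Agent.OD.Helper4xa2ae29d8e3

/-! The automorphism group of the Rudvalis graph and the stabiliser of a vertex. -/

set_option autoImplicit false
set_option exponentiation.threshold 1100
open Cfsg.Spor CfH6 CfL Equiv MulAction Subgroup

namespace CfH4.Ru

def il : List ℕ := [0, 1, 3, 2, 5, 4, 6, 7, 8, 10, 9, 12, 11]
theorem ok1 : T.ok1 il = true := by decide +kernel

noncomputable def r0 : Rep T (wel T.nc il []) := (Tab.Act.rep ⟨by decide +kernel, ok1, rfl⟩).some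
noncomputable def ev (x : ℕ) : Perm Pt := r0.ρ (wel T.nc il [] x)
noncomputable def r : Rep T ev := ⟨MonoidHom.id _, fun x hx i => by rw [ev, ← map_inv]; exact r0.spec x hx i⟩

def pp (i : ℕ) : Pt := ⟨i % 4060, Nat.mod_lt _ (by decide)⟩
theorem pp_eq {i : Pt} {k : ℕ} (h : i.1 = k) : i = pp k := Subtype.ext (by rw [← h]; exact (Nat.mod_eq_of_lt i.lt).symm)

theorem wd {w : List ℕ} (hw : ∀ x ∈ w, x < 13) (i : Pt) : ((evw ev w)⁻¹ i).1 = T.trL w i.1 := r.word hw i
theorem wd1 {x : ℕ} (hx : x < 13) (i : Pt) : ((ev x)⁻¹ i).1 = T.R x i.1 := r.spec x hx i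

theorem ev_il {x : ℕ} (hx : x < 13) : ev (il.getD x 0) = (ev x)⁻¹ := by
  have := ok1
  rw [Tab.ok1, Bool.and_eq_true, all1_iff] at this
  have := this.2 x hx
  rw [frc_eq, allN_iff] at this
  rw [eq_inv_iff_mul_eq_one, mul_eq_one_comm, ← inv_eq_one, mul_inv_rev]
  ext i
  have := this i.1 i.2
  rw [frc_eq, Bool.and_eq_true, Nat.beq_eq] at this
  rw [Perm.mul_apply, wd1 ((by decide : ∀ x < 13, il.getD x 0 < 13) x hx), wd1 hx, this.2]; rfl

theorem ev_A {x : ℕ} (hx : x < 13) : ev x ∈ A := by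
  have k : ∀ y < 9, ev (lget cx 0 y) ∈ A := fun y hy => A.inv_mem_iff.1 fun u v => by
    have : lget cx 0 y < 13 := by revert y; decide +kernel
    rw [Adj, wd1 this, wd1 this]; exact or_tab hy u.lt v.lt
  have k2 : ∀ y < 9, ev (il.getD (lget cx 0 y) 0) ∈ A := fun y hy => by
    rw [ev_il (by revert y; decide +kernel)]; exact A.inv_mem (k y hy)
  have : ∀ x < 13, ∃ y < 9, x = lget cx 0 y ∨ x = il.getD (lget cx 0 y) 0 := by decide +kernel
  obtain ⟨y, hy, e | e⟩ := this x hx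
  exacts [e ▸ k y hy, e ▸ k2 y hy]

noncomputable def X : Subgroup (Perm Pt) := gensub ev 6

theorem wX {w : List ℕ} (h : allLt 6 w = true := by decide) : evw ev w ∈ X :=
  evw_mem (fun _ => mem_gensub) (allLt_sound h)
theorem wsX {ws : List (List ℕ)} (h : ws.all (allLt 6) = true := by decide) : ∀ w ∈ ws, evw ev w ∈ X :=
  fun w hw => wX (List.all_eq_true.1 h w hw)

theorem X_le {g : Perm Pt} (h : g ∈ X) : g ∈ A ∧ g (pp 0) = pp 0 :=
  gensub_le (K := A ⊓ stabilizer (Perm Pt) (pp 0)) (fun x hx => ⟨ev_A (by omega), (stabilizer (Perm Pt) (pp 0)).inv_mem_iff.1 (Subtype.ext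
    ((wd1 (by omega) _).trans (by revert x; decide +kernel)))⟩) h

theorem adj0 (j : Pt) : Adj (pp 0) j ↔ 0 < j.1 ∧ j.1 < 1756 := by
  have : allN (fun j => Nat.beq (dig 16 (row 0) j) (if 0 < j ∧ j < 1756 then 1 else 0)) 4060 = true := by decide +kernel
  have := Nat.eq_of_beq_eq_true ((allN_iff _ _).1 this j.1 j.lt)
  rw [row_pk (by decide), dig_pk (fun t _ => (aj_le _ _).trans_lt (by decide)) j.lt, aj] at this
  change Or' (vec 0) _ ↔ _
  split_ifs at this <;> simp_all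

theorem base {g : Perm Pt} (h : g ∈ A) (h0 : g (pp 0) = pp 0) (h1 : g (pp 1) = pp 1) (h2 : g (pp 2343) = pp 2343)
    (h3 : g (pp 1054) = pp 1054) : g = 1 := by
  refine sep_sound e5 (by decide) (by decide) h fun e he => ?_
  obtain ⟨a, ha, e1, e2, e3⟩ : ∃ a ∈ L4, a.2.1 = e ∧ a.2.2 = 1 ∧ e < 4060 := by revert e; decide +kernel
  obtain ⟨C, c1, c2, c3⟩ := eng_sound e4 ha ⟨e, e3⟩ e1.symm
  refine ⟨⟨e, e3⟩, rfl, (Set.ncard_le_one_iff_subsingleton.1 (c1.trans e2.le)) ((c3 g h (fun i hi => ?_) _).2 c2) c2⟩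
  simp only [List.mem_cons, List.not_mem_nil, or_false] at hi
  rcases hi with a | a | a | a <;> rwa [pp_eq a]

theorem cardA0 : Nat.card (A ⊓ stabilizer (Perm Pt) (pp 0) : Subgroup _) ≤ 35942400 := by
  obtain ⟨C1, a1, b1, c1⟩ := eng_sound e1 List.mem_cons_self (pp 1) rfl
  obtain ⟨C2, a2, b2, c2⟩ := eng_sound e2 List.mem_cons_self (pp 2343) rfl
  obtain ⟨C3, a3, b3, c3⟩ := eng_sound e3 List.mem_cons_self (pp 1054) rfl
  refine card_step (c := 1755) (n := 20480) (pp 1) (fun g hg => (c1 g hg.1 (fun i hi => ?_) _).2 b1) a1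
    (card_step (c := 1024) (n := 20) (pp 2343) (fun g hg => (c2 g hg.1.1 (fun i hi => ?_) _).2 b2) a2
    (card_step (c := 20) (n := 1) (pp 1054) (fun g hg => (c3 g hg.1.1.1 (fun i hi => ?_) _).2 b3) a3 ?_))
  · rw [pp_eq (List.mem_singleton.1 hi)]; exact hg.2
  · simp only [List.mem_cons, List.not_mem_nil, or_false] at hi
    rcases hi with a | a <;> rw [pp_eq a]
    exacts [hg.1.2, hg.2]
  · simp only [List.mem_cons, List.not_mem_nil, or_false] at hi
    rcases hi with a | a | a <;> rw [pp_eq a]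
    exacts [hg.1.1.2, hg.1.2, hg.2]
  · refine (card_le_of_le (K := ⊥) fun g hg => ?_).trans card_bot.le
    exact base hg.1.1.1.1 hg.1.1.1.2 hg.1.1.2 hg.1.2 hg.2

theorem X_ge : 35942400 ≤ Nat.card X :=
  r.chain_ge (σ := [[0], [1], [2], [3], [4], [5]]) (byW_mem wsX) 12 cX (by decide +kernel)

theorem X_eq : X = A ⊓ stabilizer (Perm Pt) (pp 0) := eq_of_le_of_card_ge (fun _ => X_le) (cardA0.trans X_ge)
theorem cardX : Nat.card X = 35942400 := le_antisymm (X_eq ▸ cardA0) X_ge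
theorem mem_X (g : Perm Pt) : g ∈ X ↔ g ∈ A ∧ g (pp 0) = pp 0 := by rw [X_eq]; rfl

theorem transK {K : Subgroup (Perm Pt)} (h : ∀ x ∈ [0, 1, 2, 4, 6], ev x ∈ K) (i : Pt) : i ∈ orbit K (pp 0) :=
  r.orb_all (ws := [[0], [1], [2], [4], [6]]) (by simpa using h) (pp 0) 3 gT (by decide +kernel) i

instance : IsPretransitive A Pt := ⟨fun i j => by
  have k := transK (K := A) fun x hx => ev_A (by revert x; decide)
  obtain ⟨g, rfl⟩ := k i
  obtain ⟨h, rfl⟩ := k j
  exact ⟨h * g⁻¹, by rw [mul_smul, inv_smul_smul]⟩⟩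

theorem orb_eq {b : Pt} (p : ℕ → Bool) {n : ℕ} (h1 : ∀ g ∈ X, p (g b).1 = true) (h2 : n ≤ (orbit X b).ncard)
    (h3 : Nat.ble (cntN p T.N) n = true) : (orbit X b).ncard = n ∧ ∀ j : Pt, j ∈ orbit X b ↔ p j.1 = true := by
  have a : orbit X b ⊆ {j : Pt | p j.1 = true} := by rintro _ ⟨g, rfl⟩; exact h1 g g.2
  have c := r.ncard_le p (A := {j : Pt | p j.1 = true}) (fun _ h => h) n h3
  have e := Set.eq_of_subset_of_ncard_le a (c.trans h2)
  exact ⟨le_antisymm (e ▸ c) h2, fun j => by rw [e]; rfl⟩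

theorem orbB : (orbit X (pp 1)).ncard = 1755 ∧ ∀ j : Pt, j ∈ orbit X (pp 1) ↔ decide (0 < j.1 ∧ j.1 < 1756) = true :=
  orb_eq (fun j => decide (0 < j ∧ j < 1756)) (fun g hg => decide_eq_true ((adj0 _).1 (by
      rw [← (X_le hg).2, (X_le hg).1]; exact (adj0 _).2 (by decide))))
    (r.orb_ge (ws := [[0], [1], [2], [4]]) wsX (pp 1) 3 (cX.headD (⟨0, [], 0, []⟩, 0)).1.l 1755 12 (by decide +kernel))
    (by decide +kernel)

theorem orbC : (orbit X (pp 2343)).ncard = 2304 ∧ ∀ j : Pt, j ∈ orbit X (pp 2343) ↔ decide (1756 ≤ j.1) = true :=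
  orb_eq (fun j => decide (1756 ≤ j)) (fun g hg => decide_eq_true (by
      have a := (X_le hg).1 (pp 0) (pp 2343)
      rw [(X_le hg).2, adj0, adj0] at a
      have b : (g (pp 2343)).1 ≠ 0 := fun e => absurd (g.injective ((pp_eq e).trans (X_le hg).2.symm)) (by decide)
      have : ¬ ((pp 2343).1 < 1756) := by decide
      omega))
    (r.orb_ge (ws := [[0], [1], [2], [4]]) wsX (pp 2343) 3 gC 2304 12 (by decide +kernel)) (by decide +kernel)

theorem hadj (y : Pt) : Adj (pp 0) y ↔ y ∈ orbit X (pp 1) := by rw [adj0, orbB.2, decide_eq_true_iff]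

/-! partitions into orbits -/

noncomputable def part (ws : List (List ℕ)) (l : List (ℕ × ℕ × List (ℕ × ℕ))) : ℕ → Bool :=
  List.rec (fun S => Nat.beq (Nat.succ S) (Nat.shiftLeft 1 4060)) (fun a _ ih S =>
    frc (T.growL ws 2 a.2.2 (Nat.shiftLeft 1 a.1)) fun B => Nat.blt a.1 4060 && Nat.beq (Nat.land S B) 0 &&
      Nat.beq (popc 12 B) a.2.1 && ih (Nat.lor S B)) l

open Classical in
theorem part_sound {ws : List (List ℕ)} (hw : ws.all (allLt 13) = true) {N : Set Pt}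
    (hN : ∀ g ∈ gensub (byW ev ws) ws.length, ∀ y ∈ N, g y ∈ N) (l : List (ℕ × ℕ × List (ℕ × ℕ))) :
    ∀ S, part ws l S = true → {i ∈ N | S.testBit i.1 = false}.ncard =
      (l.map fun a => if pp a.1 ∈ N then a.2.1 else 0).sum := by
  induction l with
  | nil =>
    intro S h
    rw [List.map_nil, List.sum_nil, Set.ncard_eq_zero, Set.eq_empty_iff_forall_notMem]
    intro i hi
    have := hi.2
    rw [show S = Nat.pred (Nat.shiftLeft 1 4060) by rw [← Nat.eq_of_beq_eq_true h]; rfl, testBit_mask,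
      decide_eq_true i.lt] at this
    cases this
  | cons a l ih =>
    intro S h
    have h : (frc (T.growL ws 2 a.2.2 (Nat.shiftLeft 1 a.1)) fun B => Nat.blt a.1 4060 && Nat.beq (Nat.land S B) 0 &&
      Nat.beq (popc 12 B) a.2.1 && part ws l (Nat.lor S B)) = true := h
    simp only [frc_eq, Bool.and_eq_true, Nat.beq_eq] at h
    obtain ⟨⟨⟨h1, h2⟩, h3⟩, h4⟩ := h
    have e : a.1 = (pp a.1).1 := (Nat.mod_eq_of_lt (blt1 h1)).symm
    have s := r.orb_sub (K := gensub (byW ev ws) ws.length) hw (fun w hw => by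
      obtain ⟨i, hi, rfl⟩ := List.mem_iff_getElem.1 hw
      rw [← List.getD_eq_getElem _ [] hi]; exact mem_gensub (el := byW ev ws) hi) (pp a.1) 2 a.2.2
    rw [← e] at s
    generalize T.growL ws 2 a.2.2 (Nat.shiftLeft 1 a.1) = B at h2 h3 h4 s
    have c : {i : Pt | B.testBit i.1 = true}.ncard = a.2.1 := by
      rw [← h3, popc_eq, ← Set.ncard_coe_finset, ← Set.ncard_image_of_injective _ Subtype.val_injective]
      congr 1
      ext i
      simp only [Finset.coe_filter, Finset.mem_range, Set.mem_setOf_eq]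
      refine ⟨?_, fun hi => ?_⟩
      · rintro ⟨j, hj, rfl⟩; exact ⟨(Pt.lt j).trans (by decide), hj⟩
      · obtain ⟨j, -, rfl⟩ := s i hi.2; exact ⟨j, hi.2, rfl⟩
    have m : ∀ i : Pt, B.testBit i.1 = true → (i ∈ N ↔ pp a.1 ∈ N) := fun i hi => by
      obtain ⟨j, ⟨g, rfl⟩, e⟩ := s _ hi
      rw [← Subtype.ext e]
      exact ⟨fun h => (g.1.symm_apply_apply (pp a.1)) ▸ hN _ (inv_mem g.2) _ h, hN _ g.2 _⟩
    have d : ∀ i, B.testBit i = true → S.testBit i = false := fun i hi => by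
      have := congrArg (Nat.testBit · i) h2
      change (S &&& B).testBit i = _ at this
      simpa [hi] using this
    rw [List.map_cons, List.sum_cons, ← ih _ h4, show {i ∈ N | S.testBit i.1 = false} =
      {i ∈ N | B.testBit i.1 = true} ∪ {i ∈ N | (S ||| B).testBit i.1 = false} from Set.ext fun i => by
        have := d i.1
        simp only [Set.mem_union, Set.mem_setOf_eq, Nat.testBit_or]
        revert this
        cases B.testBit i.1 <;> cases S.testBit i.1 <;> simp,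
      Set.ncard_union_eq (Set.disjoint_left.2 fun i h h' => by have := h'.2; simp [h.2] at this)]
    congr 1
    split_ifs with h
    · rw [← c]; congr 1; ext i; exact ⟨fun a => a.2, fun a => ⟨(m i a).2 h, a⟩⟩
    · rw [Set.ncard_eq_zero, Set.eq_empty_iff_forall_notMem]
      exact fun i a => h ((m i a.2).1 a.1)

open Classical in
theorem part_card {ws : List (List ℕ)} {l : List (ℕ × ℕ × List (ℕ × ℕ))} (h : (ws.all (allLt 13) && part ws l 0) = true)
    {N : Set Pt} (hN : ∀ g ∈ gensub (byW ev ws) ws.length, ∀ y ∈ N, g y ∈ N) :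
    N.ncard = ((l.map fun a => (a.1, a.2.1)).map fun a => if pp a.1 ∈ N then a.2 else 0).sum := by
  rw [Bool.and_eq_true] at h
  simpa [List.map_map, Function.comp_def] using part_sound h.1 hN l 0 h.2

end CfH4.Ru
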