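import Cfsg.Agent.H4.RuD7
import Cfsg.Agent.H2.Ab2n

/-! The Rudvalis lattice is spanned by the 4060 lines; nine automorphisms. -/

set_option autoImplicit false
open Cfsg.Spor CfH6 CfL Finset CfH2.AbRu

namespace CfH4.Ru

def coH (r : ℕ) : RuVec →+ ℤ := AddMonoidHom.mk' (co · r) fun u v => co_add u v r
def bs (q : ℕ) : RuVec := ofR fun r => if r = q then 1 else 0
noncomputable def linH (x : ℕ) : RuVec →+ RuVec := AddMonoidHom.mk' (lin x) (lin_add x)
def apH (m : Mo) : RuVec →+ RuVec := AddMonoidHom.mk' (ap m) (ap_add m)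

theorem sum_bs (u : RuVec) : u = ∑ q ∈ range 56, co u q • bs q := co_ext fun r hr => by
  change _ = coH r _
  rw [map_sum, sum_congr rfl fun q _ => show _ = if r = q then co u q else 0 by
    rw [map_zsmul]; change co u q • co (bs q) r = _; rw [bs, co_ofR _ r hr]; simp]
  simp [hr]

theorem lin_mo {x : ℕ} {m : Mo} (h : ∀ q < 56, ∀ r < 56, mt x q r = 4 * co (ap m (bs q)) r) (u : RuVec) :
    lin x u = (4 : ℤ) • ap m u := by
  change linH x u = (4 : ℤ) • apH m u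
  rw [sum_bs u, map_sum, map_sum, smul_sum]
  refine sum_congr rfl fun q hq => ?_
  rw [map_zsmul, map_zsmul, smul_comm]
  refine congrArg _ (co_ext fun r hr => ?_)
  rw [co_four, ← show _ = 4 * co (apH m (bs q)) r from h q (mem_range.1 hq) r hr]
  change co (lin x _) r = _
  rw [co_lin _ _ hr, sum_congr rfl fun s hs => show _ = if s = q then mt x s r else 0 by
    rw [bs, co_ofR _ s (mem_range.1 hs)]; simp]
  simp [mem_range.1 hq]

def mo (x : ℕ) : Mo := if x = 8 then f else lt (x - 3)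
theorem mo_mem (x : ℕ) : mo x ∈ S := by unfold mo; split_ifs; exacts [f_mem, lt_mem _]
theorem mo_ok : ∀ x < 9, 4 ≤ x → ∀ q < 56, ∀ r < 56, mt x q r = 4 * co (ap (mo x) (bs q)) r := by decide +kernel

theorem four_inj {u v : RuVec} (h : (4 : ℤ) • u = (4 : ℤ) • v) : u = v := smul_right_injective _ (by decide) h

noncomputable def sg (x : ℕ) : Equiv.Perm Pt := (ev (lget cx 0 x))⁻¹

theorem step {x : ℕ} (hx : x < 9) (i : Pt) : ∃ e, lin x (vec i.1) = (4 : ℤ) • gI ^ e • vec (sg x i).1 := by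
  obtain ⟨e, -, h⟩ := happ i.lt hx
  exact ⟨e, by rw [h, sg, wd1 ((by decide +kernel : ∀ y < 9, lget cx 0 y < 13) x hx)]⟩

theorem stepm {x : ℕ} (hx : x < 9) (h4 : 4 ≤ x) (i : Pt) : ∃ e, ap (mo x) (vec i.1) = gI ^ e • vec (sg x i).1 :=
  (step hx i).imp fun _ h => four_inj ((lin_mo (mo_ok x hx h4) _).symm.trans h)

theorem I_back {u v : RuVec} {e : ℕ} (h : u = gI ^ e • v) : v = gI ^ (3 * e) • u := by
  rw [h, smul_smul, ← pow_add, show 3 * e + e = 4 * e by ring, pow_mul, show gI ^ 4 = 1 by decide, one_pow, one_smul]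

theorem pow_mem_L {u : RuVec} (h : u ∈ ruLattice) (e : ℕ) : gI ^ e • u ∈ ruLattice := by
  induction e with
  | zero => simpa using h
  | succ e ih => rw [pow_succ', mul_smul]; exact gI_smul_mem_ruLattice ih

theorem tc_ok : ∀ i < 20, (tc.getD i 0).2 < 4060 ∧ ruNorm (tb i) = 16 ∧
    ∀ p, tb i p = (gI ^ (tc.getD i 0).1 • vec (tc.getD i 0).2) p := by decide +kernel

theorem vec_mem (i : Pt) : vec i.1 ∈ ruLattice ∧ ruNorm (vec i.1) = 16 := by
  have h0 : ∀ l : List (ℕ × ℕ), (∀ a ∈ l, a ∈ tc) → r.Sub (l.foldr (fun a S => S ||| Nat.shiftLeft 1 a.2) 0)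
      {i : Pt | vec i.1 ∈ ruLattice ∧ ruNorm (vec i.1) = 16} := fun l => by
    induction l with
    | nil => intro _ i hi; simp at hi
    | cons a l ih =>
      intro h i hi
      rw [List.foldr_cons, Nat.testBit_or, Bool.or_eq_true] at hi
      refine hi.elim (ih (fun b hb => h b (List.mem_cons_of_mem _ hb)) i) fun hi => ?_
      obtain ⟨n, hn, e⟩ := List.mem_iff_getElem.1 (h a List.mem_cons_self)
      obtain ⟨c1, c2, c3⟩ := tc_ok n hn
      rw [List.getD_eq_getElem _ _ hn, e] at c1 c3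
      exact ⟨⟨a.2, c1⟩, ⟨I_back (funext c3) ▸ pow_mem_L (tb_mem n) _, by rw [← c2, funext c3, norm_pow]⟩, bit_one hi⟩
  refine (r.growL_sub (ws := [[6], [7], [8], [9], [11]]) (by decide +kernel) (fun w hw a ha => ?_) 3 gS _
    (h0 tc fun _ h => h)).all r (by decide +kernel) i
  obtain ⟨x, hx, h4, rfl⟩ : ∃ x < 9, 4 ≤ x ∧ w = [lget cx 0 x] := by revert w; decide +kernel
  obtain ⟨e, h⟩ := stepm hx h4 a
  rw [evw_cons, evw_nil, mul_one]
  exact ⟨I_back h ▸ pow_mem_L ((mo_mem x).1 _ ha.1) _, by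
    change ruNorm (vec (sg x a).1) = _
    rw [← norm_pow _ e, ← h, (mo_mem x).2, ha.2]⟩

def S0 : Set RuVec := {u | ∃ (e : ℕ) (i : Pt), u = gI ^ e • vec i.1}

theorem L_le {K : AddSubgroup RuVec} (h : ∀ (e : ℕ) (i : Pt), gI ^ e • vec i.1 ∈ K) : ruLattice ≤ K := by
  refine le_trans (sInf_le ?_) ((AddSubgroup.closure_le (k := S0) K).2 (by rintro _ ⟨e, i, rfl⟩; exact h e i))
  have k : ∀ m : Mo, (∀ i : Pt, ap m (vec i.1) ∈ S0) → ∀ v ∈ AddSubgroup.closure S0, ap m v ∈ AddSubgroup.closure S0 :=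
    fun m hm => (AddSubgroup.closure_le ((AddSubgroup.closure S0).comap (apH m))).2 (by
      rintro _ ⟨e, i, rfl⟩
      obtain ⟨a, j, h⟩ := hm i
      refine AddSubgroup.subset_closure ⟨e + a, j, ?_⟩
      rw [pow_add, mul_smul, ← h]
      exact funext fun _ => mul_left_comm _ _ _)
  have k2 : ∀ x < 9, 4 ≤ x → ∀ v ∈ AddSubgroup.closure S0, ap (mo x) v ∈ AddSubgroup.closure S0 := fun x hx h4 =>
    k _ fun i => (stepm hx h4 i).imp fun _ h => ⟨_, h⟩
  refine ⟨fun v hv => ?_, fun v hv => ⟨l0 v ▸ k _ (fun i => ⟨1, i, by rw [pow_one, l0]⟩) v hv, l1 v ▸ k2 4 (by decide) le_rfl v hv,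
    l2 v ▸ k2 5 (by decide) (by decide) v hv, l3 v ▸ k2 6 (by decide) (by decide) v hv, l4 v ▸ k2 7 (by decide) (by decide) v hv⟩⟩
  obtain ⟨i, hi, rfl⟩ := List.mem_iff_getElem.1 hv
  rw [← List.getD_eq_getElem _ 0 hi]
  exact AddSubgroup.subset_closure ⟨_, ⟨_, (tc_ok i hi).1⟩, funext (tc_ok i hi).2.2⟩

theorem lin_pow {x : ℕ} (hx : x < 9) (u : RuVec) (e : ℕ) : lin x (gI ^ e • u) = gI ^ e • lin x u := by
  induction e with
  | zero => simp
  | succ e ih => rw [pow_succ', mul_smul, mul_smul, lin_I hx, ih]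

def F4 : RuVec →+ RuVec := DistribSMul.toAddMonoidHom RuVec (4 : ℤ)

theorem lin_L {x : ℕ} (hx : x < 9) : ruLattice.map (linH x) = ruLattice.map F4 := by
  refine le_antisymm (AddSubgroup.map_le_iff_le_comap.2 (L_le fun e i => ?_)) (AddSubgroup.map_le_iff_le_comap.2 (L_le fun e i => ?_))
  · obtain ⟨a, h⟩ := step hx i
    exact ⟨_, pow_mem_L (pow_mem_L (vec_mem (sg x i)).1 a) e, ((lin_pow hx _ e).trans (by rw [h, smul_comm]; rfl)).symm⟩
  · obtain ⟨a, h⟩ := step hx ((sg x)⁻¹ i)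
    refine ⟨_, pow_mem_L (pow_mem_L (vec_mem ((sg x)⁻¹ i)).1 (3 * a)) e, ?_⟩
    change lin x _ = (4 : ℤ) • _
    rw [lin_pow hx, lin_pow hx, h, smul_comm _ (4 : ℤ), smul_comm _ (4 : ℤ), ← I_back rfl]
    simp

theorem exists_f {x : ℕ} (hx : x < 9) : ∃ g : fourRu, ∀ v, lin x v.1 = (4 : ℤ) • (g.1 v).1 := by
  have a : ∀ v : ruLattice, ∃ w : ruLattice, lin x v.1 = (4 : ℤ) • w.1 := fun v => by
    obtain ⟨w, hw, e⟩ := (lin_L hx).le ⟨v.1, v.2, rfl⟩
    exact ⟨⟨w, hw⟩, e.symm⟩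
  choose φ hφ using a
  have n : ∀ v, ruNorm (φ v).1 = ruNorm v.1 := fun v => by
    have := dot_lin hx v.1 v.1
    rw [hφ, ← norm_eq, ← norm_eq, norm_four] at this; omega
  have ad : ∀ v w, φ (v + w) = φ v + φ w := fun v w => Subtype.ext (four_inj (by
    rw [← hφ, AddSubgroup.coe_add, AddSubgroup.coe_add, lin_add, hφ, hφ, smul_add]))
  refine ⟨⟨Equiv.ofBijective φ ⟨(injective_iff_map_eq_zero (AddMonoidHom.mk' φ ad)).2 fun v h => Subtype.ext (norm_zero ?_),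
    fun w => ?_⟩, ad, fun v => Subtype.ext (four_inj ?_), n⟩, hφ⟩
  · rw [← n, show φ v = 0 from h]; rfl
  · obtain ⟨v, hv, e⟩ := (lin_L hx).ge ⟨w.1, w.2, rfl⟩
    exact ⟨⟨v, hv⟩, Subtype.ext (four_inj ((hφ _).symm.trans e))⟩
  · change _ = (4 : ℤ) • gI • (φ v).1
    rw [smul_comm, ← hφ, ← lin_I hx]; exact (hφ _).symm

theorem dot_pow (u v : RuVec) (e : ℕ) : dot (gI ^ e • u) (gI ^ e • v) = dot u v := by
  induction e with
  | zero => simp
  | succ e ih => rw [pow_succ', mul_smul, mul_smul, dot_I, dot_II, neg_neg, ih]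

theorem dot4 (i : Pt) : ∀ u ∈ ruLattice, 4 ∣ dot (vec i.1) u := by
  refine (r.growL_sub (ws := [[0], [1], [2], [4], [6]]) (A := {i : Pt | ∀ u ∈ ruLattice, 4 ∣ dot (vec i.1) u})
    (by decide +kernel) (fun w hw a ha u hu => ?_) 3 gT _ (Rep.Sub.one r (b := pp 0) fun u _ => ?_)).all r (by decide +kernel) i
  · obtain ⟨x, hx, rfl⟩ : ∃ x < 9, w = [lget cx 0 x] := by revert w; decide +kernel
    obtain ⟨e, h⟩ := step hx a
    obtain ⟨v, hv, e2⟩ := (lin_L hx).ge ⟨_, pow_mem_L hu e, rfl⟩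
    have := dot_lin hx (vec a.1) v
    rw [h, show lin x v = (4 : ℤ) • gI ^ e • u from e2, dot_four, dot_pow] at this
    rw [evw_cons, evw_nil, mul_one]
    exact (show dot (vec a.1) v = dot (vec (sg x a).1) u by omega) ▸ ha v hv
  · rw [dot_eq]
    exact dvd_sum fun q hq => Dvd.dvd.mul_right ((by decide +kernel : ∀ q < 56, 4 ∣ co (vec 0) q) q (mem_range.1 hq)) _

end CfH4.Ru
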