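import Cfsg.Agent.H4.Ru2

/-! The Rudvalis lattice: running the checker `trB`. -/

set_option autoImplicit false
open CfL

namespace CfH4.Ru

theorem trB_0 : all1 (fun i => trB (Nat.add 0 i)) 8 = true := by decide +kernel
theorem trB_1 : all1 (fun i => trB (Nat.add 8 i)) 8 = true := by decide +kernel
theorem trB_2 : all1 (fun i => trB (Nat.add 16 i)) 8 = true := by decide +kernel
theorem trB_3 : all1 (fun i => trB (Nat.add 24 i)) 8 = true := by decide +kernel
theorem trB_4 : all1 (fun i => trB (Nat.add 32 i)) 8 = true := by decide +kernel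
theorem trB_5 : all1 (fun i => trB (Nat.add 40 i)) 8 = true := by decide +kernel
theorem trB_6 : all1 (fun i => trB (Nat.add 48 i)) 8 = true := by decide +kernel
theorem trB_7 : all1 (fun i => trB (Nat.add 56 i)) 8 = true := by decide +kernel

theorem trB_all {b : ℕ} (h : b < 64) : trB b = true := by
  have k : ∀ c, all1 (fun i => trB (Nat.add c i)) 8 = true → c ≤ b → b < c + 8 → trB b = true := fun c e h1 h2 => by
    have := (all1_iff _ _).1 e (b - c) (by omega)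
    rwa [show Nat.add c (b - c) = b from Nat.add_sub_cancel' h1] at this
  rcases (by omega : (0 ≤ b ∧ b < 0 + 8) ∨ (8 ≤ b ∧ b < 8 + 8) ∨ (16 ≤ b ∧ b < 16 + 8) ∨ (24 ≤ b ∧ b < 24 + 8) ∨ (32 ≤ b ∧ b < 32 + 8) ∨ (40 ≤ b ∧ b < 40 + 8) ∨ (48 ≤ b ∧ b < 48 + 8) ∨ (56 ≤ b ∧ b < 56 + 8)) with h | h | h | h | h | h | h | h
  exacts [k _ trB_0 h.1 h.2, k _ trB_1 h.1 h.2, k _ trB_2 h.1 h.2, k _ trB_3 h.1 h.2, k _ trB_4 h.1 h.2, k _ trB_5 h.1 h.2, k _ trB_6 h.1 h.2, k _ trB_7 h.1 h.2]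

end CfH4.Ru
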