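import Cfsg.Agent.H4.Ru9

/-! Counting the minimal vectors of the Rudvalis lattice: running the checker. -/

set_option autoImplicit false
open CfL CfH6

namespace CfH4.Ru

theorem tot_0 : tot (Go.drop 3) 0 = 5872 := by decide +kernel
theorem tot_1 : tot (Go.drop 3) (0 ^^^ (Go.getD 2 0).2) = 2432 := by decide +kernel
theorem tot_2 : tot (Go.drop 3) (0 ^^^ (Go.getD 1 0).2) = 2432 := by decide +kernel
theorem tot_3 : tot (Go.drop 3) ((0 ^^^ (Go.getD 1 0).2) ^^^ (Go.getD 2 0).2) = 896 := by decide +kernel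
theorem tot_4 : tot (Go.drop 3) (0 ^^^ (Go.getD 0 0).2) = 2432 := by decide +kernel
theorem tot_5 : tot (Go.drop 3) ((0 ^^^ (Go.getD 0 0).2) ^^^ (Go.getD 2 0).2) = 896 := by decide +kernel
theorem tot_6 : tot (Go.drop 3) ((0 ^^^ (Go.getD 0 0).2) ^^^ (Go.getD 1 0).2) = 896 := by decide +kernel
theorem tot_7 : tot (Go.drop 3) (((0 ^^^ (Go.getD 0 0).2) ^^^ (Go.getD 1 0).2) ^^^ (Go.getD 2 0).2) = 384 := by decide +kernel

theorem tot_cons (a : ℕ × ℕ) (l : List (ℕ × ℕ)) (x : ℕ) : tot (a :: l) x = tot l x + tot l (x ^^^ a.2) := rfl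

theorem tot_all : tot Go 0 = 16240 := by
  rw [show Go = Go.getD 0 0 :: Go.getD 1 0 :: Go.getD 2 0 :: Go.drop 3 from rfl]
  simp only [tot_cons, tot_0, tot_1, tot_2, tot_3, tot_4, tot_5, tot_6, tot_7]

theorem sp_ok : allN (fun k => inSp (Go ++ Gi) (Nat.land (d k) (rep 16 56 1)) &&
    inSp (Go ++ Gi) (Nat.land (rot (d k)) (rep 16 56 1))) 4060 = true := by decide +kernel

theorem dp_ok : dp.get 0 = 9999 ∧ HH 56 = 0 ∧ ∀ b < 57, ∀ a < b, dp.get (HH a ^^^ HH b) = 64 * a + b := by decide +kernel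

theorem G_ok : ∀ a ∈ Go ++ Gi, a.2 &&& rep 16 56 1 = a.2 := by decide +kernel

end CfH4.Ru
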