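import Cfsg.Agent.H8.W0
/-! Two orbits of components, one of them a block: the centralizer of the block orbit is trivial. -/
set_option autoImplicit false
set_option linter.unusedSectionVars false
open Subgroup CfH9 Cfsg CfH8 CfH8.W
open CfH7 (OZ le_Cz_comm comm_le_left comm_le_right comm_eq_bot_left comm_eq_bot_right elemAb_le_Cz)
open scoped commutatorElement
namespace CfH4.W
universe u
variable {G : Type*} [Group G] [Finite G] {T K K₂ L L₂ : Subgroup G}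

theorem two {E : Subgroup G} (h : Nat.card E = 2) {a b : G} (ha : a ∈ E) (hb : b ∈ E) (a1 : a ≠ 1) (b1 : b ≠ 1) :
    a = b := by
  obtain ⟨y, -, hy⟩ := (Nat.card_eq_two_iff' (1 : E)).1 h
  exact congrArg Subtype.val ((hy ⟨a, ha⟩ fun e => a1 (congrArg Subtype.val e)).trans
    (hy ⟨b, hb⟩ fun e => b1 (congrArg Subtype.val e)).symm)

theorem NC {E : Subgroup G} (h : Nat.card E = 2) : Nm(E) ≤ Cz(E) := fun g hg => mem_centralizer_iff.2 fun e he => by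
  by_cases e1 : e = 1
  · simp [e1]
  · have := two h ((mem_normalizer_iff.1 hg e).1 he) he (by simpa using e1) e1
    exact (mul_inv_eq_iff_eq_mul.1 this).symm

theorem wC (j : JC (JJ 2 T) K) : wOf K ⊓ Cz(K) = ⊥ :=
  (j.irred inf_le_left (CfH7.le_normalizer_inf (le_Nm_wOf K) (le_normalizer.trans (Nm_le_Nm_Cz _)))).resolve_right
    fun e => j.not_le_Cz_wOf (le_Cz_comm (e.ge.trans inf_le_right))

section orb
variable (g : GH T) (o : Orb T K K₂)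
include g

theorem ZB : Cz(OZ 2 (JJ 2 T)) ≤ T := (Cz_anti (OZ_le_OZ_J T)).trans g.zc
include o
theorem BN : Cz(OZ 2 (JJ 2 T)) ≤ Nm(K) :=
  comp_le_Nm_of_Cz (o.ll g) o.jc o.le₁ ((ZB g).trans le_sup_right) (ne_bot_of_le_ne_bot (o.jc.OZ_inf_wOf_ne_bot g.pgrp)
    (le_inf inf_le_right (inf_le_left.trans (le_Cz_comm le_rfl))))
theorem WB : wOf K ≤ Cz(OZ 2 (JJ 2 T)) := (wOf_le_pCoreOf K).trans (le_Cz_comm (o.jc.OZ_le_Cz_pCoreOf g.pgrp))
theorem WT : wOf K ≤ T := (WB g o).trans (ZB g)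
theorem OT : pCoreOf 2 K ≤ T := (le_Cz_comm (o.jc.OZ_le_Cz_pCoreOf g.pgrp)).trans (ZB g)
theorem memN {t : G} (ht : t ∈ T) : t ∈ Nm(K) ↔ t ∈ Nm(OZ 2 (JJ 2 T) ⊓ wOf K) :=
  ⟨fun h => inf_normalizer_le_normalizer_inf ⟨CfH7.Nm_le_Nm_OZ _ (le_Nm_J T ht), Nm_le_Nm_wOf K h⟩, fun h =>
    comp_mem_Nm (o.ll g) o.jc o.le₁ (le_sup_right (a := K ⊔ K₂) ht) (ne_bot_of_le_ne_bot (o.jc.OZ_inf_wOf_ne_bot g.pgrp)
      (le_inf ((cj_eq_of_mem_normalizer h).ge.trans (cj_mono t inf_le_right)) inf_le_right))⟩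
theorem CN : T ⊓ Cz(wOf K) ≤ Nm(K) :=
  comp_le_Nm_of_Nm (o.ll g) o.jc o.le₁ (inf_le_left.trans le_sup_right) (inf_le_right.trans (Cz_le_Nm _))
omit g in
theorem N2 {t : G} (ht : t ∈ T) (h : t ∈ Nm(K)) : t ∈ Nm(K₂) := by
  rcases o.swap.orb t ht with e | e
  · exact mem_normalizer_iff_cj.2 e
  · rwa [cj_inj.1 (e.trans (cj_eq_of_mem_normalizer h).symm)]
omit g in
theorem TW : T ≤ Nm(wOf K ⊔ wOf K₂) := fun t ht => by
  apply mem_normalizer_of_cj_le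
  rw [cj_sup, cj_wOf, cj_wOf]
  refine sup_le ?_ ?_
  · rcases o.orb t ht with e | e <;> rw [e]
    exacts [le_sup_left, le_sup_right]
  · rcases o.swap.orb t ht with e | e <;> rw [e]
    exacts [le_sup_right, le_sup_left]
theorem cKY {Y : Subgroup G} (h : Y ≤ T ⊓ Cz(wOf K)) : ⁅K, Y⁆ ≤ pCoreOf 2 K := by
  rw [← o.jc.inf_Cz_wOf]
  exact le_inf (comm_le_left (h.trans (CN g o))) ((commutator_mono le_rfl (h.trans inf_le_right)).trans
    (comm_le_right ((le_Nm_wOf K).trans (Nm_le_Nm_Cz _))))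
theorem KQ : K ≤ Nm(T ⊓ Cz(wOf K ⊔ wOf K₂)) := by
  refine CfH7.le_Nm_of_comm_le_right ((cKY g o (inf_le_inf_left _ (Cz_anti le_sup_left))).trans (le_inf (OT g o) ?_))
  exact (comp_pCoreOf_le (o.ll g) o.jc o.le₁).trans ((CfH7.le_Cz_OZ _).trans (Cz_anti (sup_le
    (comp_wOf_le (o.ll g) o.jc o.le₁) (comp_wOf_le (o.ll g) o.jc₂ o.le₂))))
theorem TQ : T ≤ Nm(T ⊓ Cz(wOf K ⊔ wOf K₂)) := CfH7.le_normalizer_inf le_normalizer ((TW o).trans (Nm_le_Nm_Cz _))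
theorem QD : T ⊓ Cz(wOf K ⊔ wOf K₂) ≤ pCoreOf 2 (K ⊔ K₂ ⊔ T) :=
  CfH7.le_pCoreOf (inf_le_left.trans le_sup_right) (sup_le (sup_le (KQ g o) (o.Nm₂ (TQ g o) (KQ g o))) (TQ g o))
    (g.pgrp.to_le inf_le_left)
/-- coprime splitting over a block -/
theorem split (b : pCoreOf 2 K = wOf K) {Y : Subgroup G} (h : Y ≤ T ⊓ Cz(wOf K)) (hn : K ≤ Nm(Y)) :
    Y ≤ wOf K ⊔ (Y ⊓ Cz(K)) := by
  haveI : Fact (Nat.Prime 3) := ⟨Nat.prime_three⟩
  obtain ⟨⟨k, hk⟩, k3⟩ := exists_prime_orderOf_dvd_card' (G := K) 3 (by rw [← o.jc.idx]; exact relIndex_dvd_card _ _)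
  have k3 : orderOf k = 3 := by simpa using k3
  have hA : zpowers k ≤ K := zpowers_le.2 hk
  have hY : IsPGroup 2 Y := g.pgrp.to_le (h.trans inf_le_left)
  have nd : ∀ {X : Subgroup G}, IsPGroup 2 X → (Nat.card (zpowers k)).Coprime (Nat.card X) := fun hX => by
    obtain ⟨n, hn⟩ := IsPGroup.iff_card.1 hX
    rw [Nat.card_zpowers, k3, hn]; exact Nat.Coprime.pow_right _ (by norm_num)
  have e : pCoreOf 2 K ⊔ zpowers k = K := (o.jc.eq_or_eq le_sup_left (sup_le (CfH7.pCoreOf_le _) hA)).resolve_left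
    fun e => by
      have := (nd (CfH7.isPGroup_pCoreOf (p := 2) K)).eq_one_of_dvd (card_dvd_of_le (le_sup_right.trans e.le))
      rw [Nat.card_zpowers, k3] at this; omega
  haveI := hY.isNilpotent
  refine (commutator_sup_centralizer_eq (hA.trans hn) (nd hY) (.inr inferInstance)).ge.trans (sup_le_sup ?_ ?_)
  · rw [commutator_comm, ← b]; exact (commutator_mono hA le_rfl).trans (cKY g o h)
  · refine le_inf inf_le_left ?_
    conv_rhs => rw [← e, Cz_sup, b]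
    exact le_inf (inf_le_left.trans (h.trans inf_le_right)) inf_le_right
theorem idx2 {a b : G} (ha : a ∈ T ⊓ Nm(K)) (hb : b ∈ T ⊓ Nm(K)) (a1 : a ∉ Cz(wOf K)) (b1 : b ∉ Cz(wOf K)) :
    a * b ∈ Cz(wOf K) := by
  have c2 := o.jc.card_OZ_inf_wOf g.pgrp
  have n0 : T ⊓ Nm(K) ≤ Nm(wOf K) := inf_le_right.trans (Nm_le_Nm_wOf K)
  have c0 : T ⊓ Nm(K) ≤ Cz(OZ 2 (JJ 2 T) ⊓ wOf K) := fun t ht => NC c2 ((memN g o ht.1).1 ht.2)
  have lt := commutator_lt_of_isPGroup (isPGroup_wOf K) (g.pgrp.to_le inf_le_left) n0 o.jc.wOf_ne_bot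
  have cE : ⁅wOf K, T ⊓ Nm(K)⁆ ≤ OZ 2 (JJ 2 T) ⊓ wOf K := by
    by_cases z : ⁅wOf K, T ⊓ Nm(K)⁆ = ⊥
    · rw [z]; exact bot_le
    · refine le_inf ?_ lt.le
      refine le_trans (le_inf lt.le (le_Cz_comm ?_)) ((o.jc.OZ_inf_wOf g.pgrp).ge.trans inf_le_left)
      exact ((le_inf (J_le T) o.jc.le_Nm).trans (normalizer_commutator_ge_right _ _)).trans
        (NC (o.jc.card_eq_two lt.le z lt.ne))
  have fx : ∀ {c x : G}, c ∈ T ⊓ Nm(K) → c ∉ Cz(wOf K) → x ∈ wOf K → x ∉ OZ 2 (JJ 2 T) → ⁅x, c⁆ ≠ 1 :=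
    fun {c x} hc c1 hx x1 e => c1 (by
      have hle : OZ 2 (JJ 2 T) ⊓ wOf K ≤ wOf K ⊓ Cx(c) := le_inf inf_le_right (le_Cx_iff.2 (c0 hc))
      by_contra n
      have := o.jc.card_eq_two (U := wOf K ⊓ Cx(c)) inf_le_left
        (ne_bot_of_le_ne_bot (o.jc.OZ_inf_wOf_ne_bot g.pgrp) hle) fun e => n (le_Cx_iff.1 (e.ge.trans inf_le_right))
      exact x1 ((eq_of_le_of_card_ge hle (this.trans c2.symm).le).ge ⟨hx, mem_centralizer_singleton_iff.2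
        (commutatorElement_eq_one_iff_mul_comm.1 e)⟩).1)
  refine mem_centralizer_iff.2 fun x hx => ?_
  by_cases x1 : x ∈ OZ 2 (JJ 2 T)
  · exact mem_centralizer_iff.1 (c0 (mul_mem ha hb)) x ⟨x1, hx⟩
  have ea := cE (commutator_mem_commutator hx ha)
  have eb := cE (commutator_mem_commutator hx hb)
  have e := two c2 ea (inv_mem eb) (fx ha a1 hx x1) (inv_ne_one.2 (fx hb b1 hx x1))
  have ca := mem_centralizer_iff.1 (c0 ha) _ eb
  refine commutatorElement_eq_one_iff_mul_comm.1 ?_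
  rw [show ⁅x, a * b⁆ = ⁅x, a⁆ * (a * ⁅x, b⁆) * a⁻¹ by simp only [commutatorElement_def]; group, ← ca, e]
  group
end orb

section pair
variable (g : GH T) (o : Orb T K K₂) (o' : Orb T L L₂) (hk : ¬ wOf K ≤ Cz(wOf L))
include g o o' hk

theorem E1 : wOf K ⊓ wOf L = OZ 2 (JJ 2 T) ⊓ wOf K := by
  have a := (WB g o).trans ((BN g o').trans (Nm_le_Nm_wOf L))
  have b := (WB g o').trans ((BN g o).trans (Nm_le_Nm_wOf K))
  have c := o.jc.card_eq_two (U := wOf K ⊓ wOf L) inf_le_left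
    (fun e => hk (comm_eq_bot_left.1 (le_bot_iff.1 (e ▸ le_inf (comm_le_left b) (comm_le_right a)))))
    fun e => hk ((e.ge.trans inf_le_right).trans (elemAb_le_Cz (elemAb_wOf L)))
  refine eq_of_le_of_card_ge ?_ ((o.jc.card_OZ_inf_wOf g.pgrp).trans c.symm).le
  rw [o.jc.OZ_inf_wOf g.pgrp]
  exact le_inf inf_le_left (le_Cz_comm ((CfH7.le_normalizer_inf o.jc.le_Nm_wOf o'.jc.le_Nm_wOf).trans (NC c)))
theorem Ene : wOf K ⊓ wOf L ≠ ⊥ := E1 g o o' hk ▸ o.jc.OZ_inf_wOf_ne_bot g.pgrp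
theorem uE : wOf K ⊓ Cz(wOf L) ≤ wOf L := by
  have hle : wOf K ⊓ wOf L ≤ wOf K ⊓ Cz(wOf L) := inf_le_inf_left _ (elemAb_le_Cz (elemAb_wOf L))
  have c := o.jc.card_eq_two (U := wOf K ⊓ Cz(wOf L)) inf_le_left (ne_bot_of_le_ne_bot (Ene g o o' hk) hle)
    fun e => hk (e.ge.trans inf_le_right)
  rw [← eq_of_le_of_card_ge hle (by rw [c, E1 g o o' hk, o.jc.card_OZ_inf_wOf g.pgrp])]
  exact inf_le_right
theorem N0 {t : G} (ht : t ∈ T) : t ∈ Nm(K) ↔ t ∈ Nm(L) := by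
  rw [memN g o ht, memN g o' ht, ← E1 g o o' hk, ← E1 g o' o (fun e => hk (le_Cz_comm e)), inf_comm]
theorem UN : wOf L ≤ T ⊓ Nm(K) := le_inf (WT g o') ((WB g o').trans (BN g o))
theorem stepB {t : G} (ht : t ∈ T ⊓ Nm(K)) : ∃ u ∈ wOf L, t * u ∈ Cz(wOf K) := by
  by_cases c : t ∈ Cz(wOf K)
  · exact ⟨1, one_mem _, by rwa [mul_one]⟩
  · obtain ⟨u, hu, hu'⟩ := SetLike.not_le_iff_exists.1 fun e => hk (le_Cz_comm e)
    exact ⟨u, hu, idx2 g o ht (UN g o o' hk hu) c hu'⟩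
theorem dW : (wOf K ⊔ wOf L) ⊓ Cz(wOf K) ≤ wOf K := fun x hx => by
  obtain ⟨a, ha, b, hb, rfl⟩ := (mem_sup_of_le_Nm' ((UN g o o' hk).trans (inf_le_right.trans (Nm_le_Nm_wOf K)))).1 hx.1
  exact mul_mem ha (uE g o' o (fun e => hk (le_Cz_comm e))
    ⟨hb, (mul_mem_cancel_left (elemAb_le_Cz (elemAb_wOf K) ha)).1 hx.2⟩)
theorem other (ne : L ≠ L₂) : wOf L₂ ≤ Cz(wOf K) := by
  by_contra n
  have e := E1 g o o'.swap fun e => n (le_Cz_comm e)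
  exact Ene g o o' hk (le_bot_iff.1 ((le_inf inf_le_right ((E1 g o o' hk).le.trans (e.ge.trans inf_le_right))).trans
    (comp_wOf_inf (o'.ll g) o'.jc o'.le₁ o'.jc₂ o'.le₂ ne).le))
theorem CU {C : Subgroup G} (h1 : C ≤ T) (h2 : T ≤ Nm(C)) (h3 : C ≤ Cz(K)) : C ≤ Cz(wOf L) := by
  have n : C ≤ Nm(wOf L) := fun c hc => Nm_le_Nm_wOf L ((N0 g o o' hk (h1 hc)).1 (Cz_le_Nm _ (h3 hc)))
  have a : ⁅C, wOf L⁆ ≤ C := comm_le_left ((WT g o').trans h2)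
  refine comm_eq_bot_left.1 (le_bot_iff.1 (le_trans (le_inf ?_ (a.trans h3)) (wC o.jc).le))
  exact (le_inf (comm_le_right n) (a.trans (h3.trans (Cz_anti (wOf_le K))))).trans
    (uE g o' o fun e => hk (le_Cz_comm e))
theorem QL : ⁅L, T ⊓ Cz(wOf L ⊔ wOf L₂)⁆ ≤ wOf L := by
  have hk' : ¬ wOf L ≤ Cz(wOf K) := fun e => hk (le_Cz_comm e)
  have wn := UN g o' o hk'
  have q1 : T ⊓ Cz(wOf L ⊔ wOf L₂) ≤ T ⊓ Cz(wOf L) := inf_le_inf_left _ (Cz_anti le_sup_left)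
  have e : ⁅L, wOf K⁆ = L := o'.jc.eq_of_not_le (comm_le_left (wn.trans inf_le_right))
    ((CfH7.pCoreOf_le _).trans (normalizer_commutator_ge_left _ _)) fun e => by
      have n : L ≤ Nm(pCoreOf 2 L ⊔ wOf K) := by
        rw [sup_comm]
        exact CfH7.le_Nm_sup_of_comm_le (CfH7.le_normalizer_pCoreOf L) (by rw [commutator_comm]; exact e.trans le_sup_right)
      rcases o'.jc.irred inf_le_left (CfH7.le_normalizer_inf (le_Nm_wOf L) (n.trans (Nm_le_Nm_Cz _))) with z | z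
      · refine Ene g o' o hk' (le_bot_iff.1 (le_trans (le_inf inf_le_left ?_) z.le))
        rw [Cz_sup]
        exact le_inf (inf_le_left.trans (le_Cz_comm (pCoreOf_le_Cz_wOf L))) (inf_le_right.trans (elemAb_le_Cz (elemAb_wOf K)))
      · exact hk' (z.ge.trans (inf_le_right.trans (Cz_anti le_sup_right)))
  have c : ⁅wOf K, T ⊓ Cz(wOf L ⊔ wOf L₂)⁆ ≤ wOf L := le_trans (le_inf
    (comm_le_left fun t ht => Nm_le_Nm_wOf K ((N0 g o o' hk ht.1).2 (CN g o' (q1 ht))))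
    ((comm_le_right ((WT g o).trans (TQ g o'))).trans (q1.trans inf_le_right))) (uE g o o' hk)
  refine le_trans (commutator_mono e.ge le_rfl) (CfH7.three_subgroups (le_Nm_wOf L) (wn.trans (inf_le_right.trans (Nm_le_Nm_wOf L)))
    (q1.trans (inf_le_right.trans (Cz_le_Nm _))) ((commutator_mono c le_rfl).trans (comm_le_left (le_Nm_wOf L))) ?_)
  rw [commutator_comm _ (wOf K)]
  exact (commutator_mono le_rfl (comm_le_left (KQ g o'))).trans c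
theorem CL {C : Subgroup G} (h : C ≤ T ⊓ Cz(wOf L ⊔ wOf L₂)) : ⁅C, C⁆ ≤ Cz(L) ∧ ∀ c ∈ C, c ^ 2 ∈ Cz(L) := by
  have q := (commutator_mono le_rfl h).trans (QL g o o' hk)
  have cu : C ≤ Cz(wOf L) := h.trans (inf_le_right.trans (Cz_anti le_sup_left))
  have z : ⁅⁅L, C⁆, C⁆ ≤ ⊥ := (commutator_mono q le_rfl).trans (comm_eq_bot_right.2 cu).le
  refine ⟨comm_eq_bot_left.1 (le_bot_iff.1 (CfH7.three_subgroups_normal (by rwa [commutator_comm C L]) z)),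
    fun c hc => mem_centralizer_iff.2 fun l hl => ?_⟩
  have m := q (commutator_mem_commutator hl hc)
  have e1 := mem_centralizer_iff.1 (cu hc) _ m
  have e2 := (elemAb_wOf L).2 _ m
  have : l * c * l⁻¹ = ⁅l, c⁆ * c := by simp only [commutatorElement_def]; group
  rw [← mul_inv_eq_iff_eq_mul, ← conj_pow, this, Commute.mul_pow e1, e2, one_mul]
end pair

theorem main (h : Cf T K K₂ L L₂) (hk : ¬ wOf K ≤ Cz(wOf L)) (b : pCoreOf 2 K = wOf K)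
    (hz : OZ 2 (JJ 2 T) ≤ ⁅T, T⁆) : T ⊓ Cz(K ⊔ K₂) = ⊥ := by
  have g := h.gh; have o := h.oK; have o' := h.oL
  have hk' : ¬ wOf L ≤ Cz(wOf K) := fun e => hk (le_Cz_comm e)
  have ne : K = K₂ ↔ L = L₂ := by
    have k : ∀ {K K₂ L L₂ : Subgroup G}, Orb T K K₂ → Orb T L L₂ → ¬ wOf K ≤ Cz(wOf L) → K = K₂ → L = L₂ :=
      fun o o' hk e => by
        obtain ⟨s, hs, e'⟩ := o'.ex
        rw [← e', cj_eq_of_mem_normalizer ((N0 g o o' hk hs).1 (mem_normalizer_iff_cj.2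
          ((o.orb s hs).elim id fun x => x.trans e.symm)))]
    exact ⟨k o o' hk, k o' o hk'⟩
  obtain ⟨t, ht, e1, e2⟩ : ∃ t ∈ T, cj t K = K₂ ∧ cj t L = L₂ := by
    obtain ⟨t, ht, e⟩ := o.ex
    refine ⟨t, ht, e, (o'.orb t ht).elim (fun x => x.trans (ne.1 ?_)) id⟩
    rw [← e, cj_eq_of_mem_normalizer ((N0 g o o' hk ht).2 (mem_normalizer_iff_cj.2 x))]
  have hk2 : ¬ wOf K₂ ≤ Cz(wOf L₂) := by rwa [← e1, ← e2, ← cj_wOf, ← cj_wOf, ← cj_centralizer, cj_le_cj_iff]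
  have b2 : pCoreOf 2 K₂ = wOf K₂ := by rw [← e1, ← cj_wOf, ← CfH7.cj_pCoreOf, b]
  set C := T ⊓ Cz(K ⊔ K₂) with hC
  have cT : C ≤ T := inf_le_left
  have tC : T ≤ Nm(C) := CfH7.le_normalizer_inf le_normalizer (o.T_le_Nm.trans (Nm_le_Nm_Cz _))
  have c1 : C ≤ Cz(K) := inf_le_right.trans (Cz_anti le_sup_left)
  have c2 : C ≤ Cz(K₂) := inf_le_right.trans (Cz_anti le_sup_right)
  have cU : C ≤ Cz(wOf L ⊔ wOf L₂) := by
    rw [Cz_sup]; exact le_inf (CU g o o' hk cT tC c1) (CU g o.swap o'.swap hk2 cT tC c2)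
  have n0 : C ⊓ Cz(L ⊔ L₂) = ⊥ := h.core _ (inf_le_left.trans cT)
    (CfH7.le_normalizer_inf tC (o'.T_le_Nm.trans (Nm_le_Nm_Cz _)))
    ((le_Cz_comm (inf_le_left.trans c1)).trans (Cz_le_Nm _))
    ((le_Cz_comm (inf_le_right.trans (Cz_anti le_sup_left))).trans (Cz_le_Nm _))
  obtain ⟨l1, l2⟩ := CL g o o' hk (le_inf cT cU)
  obtain ⟨l3, l4⟩ := CL g o.swap o'.swap hk2 (le_inf cT (by rwa [sup_comm]))
  have ab : C ≤ Cz(C) := comm_eq_bot_left.1 (le_bot_iff.1 (le_trans (le_inf (comm_le_left le_normalizer)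
    (by rw [Cz_sup]; exact le_inf l1 l3)) n0.le))
  have el : IsElementaryAbelian 2 C := ⟨le_centralizer_iff_isMulCommutative.1 ab, fun c hc =>
    mem_bot.1 (n0.le ⟨pow_mem hc 2, by rw [Cz_sup]; exact ⟨l2 c hc, l4 c hc⟩⟩)⟩
  set R := (wOf K ⊔ wOf K₂) ⊔ (wOf L ⊔ wOf L₂) with hR
  have rT : R ≤ T := sup_le (sup_le (WT g o) (WT g o.swap)) (sup_le (WT g o') (WT g o'.swap))
  have tR : T ≤ Nm(R) := CfH7.le_normalizer_sup (TW o) (TW o')
  have cR : C ≤ Cz(R) := by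
    rw [hR, Cz_sup, Cz_sup (wOf K)]
    exact le_inf (le_inf (c1.trans (Cz_anti (wOf_le K))) (c2.trans (Cz_anti (wOf_le K₂)))) cU
  have sQ : T ⊓ Cz(wOf K ⊔ wOf K₂) ≤ R ⊔ C := by
    refine (split g o b (inf_le_inf_left _ (Cz_anti le_sup_left)) (KQ g o)).trans (sup_le
      (le_sup_of_le_left (le_sup_of_le_left le_sup_left)) ?_)
    refine (split g o.swap b2 (inf_le_left.trans (inf_le_inf_left _ (Cz_anti le_sup_right)))
      (CfH7.le_normalizer_inf (o.Nm₂ (TQ g o) (KQ g o)) ((comp_le_Nm (o.ll g) o.jc o.le₁ o.jc₂ o.le₂).trans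
        (Nm_le_Nm_Cz _)))).trans (sup_le_sup (le_sup_of_le_left le_sup_right) ?_)
    rw [hC, Cz_sup K]
    exact le_inf (inf_le_left.trans (inf_le_left.trans inf_le_left)) (inf_le_inf_right _ inf_le_right)
  have uR : wOf L ≤ R ⊔ C := le_sup_of_le_left (le_sup_of_le_right le_sup_left)
  have uR2 : wOf L₂ ≤ R ⊔ C := le_sup_of_le_left (le_sup_of_le_right le_sup_right)
  have s0 : T ⊓ Nm(K) ≤ R ⊔ C := fun x hx => by
    obtain ⟨u, hu, h1⟩ := stepB g o o' hk hx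
    have m := mul_mem hx (UN g o o' hk hu)
    refine (mul_mem_cancel_right (uR hu)).1 ?_
    by_cases e : K = K₂
    · exact sQ ⟨m.1, by rwa [← e, sup_idem]⟩
    · obtain ⟨v, hv, h2⟩ := stepB g o.swap o'.swap hk2 ⟨m.1, N2 o m.1 m.2⟩
      refine (mul_mem_cancel_right (uR2 hv)).1 (sQ ⟨mul_mem m.1 (WT g o'.swap hv), ?_⟩)
      rw [Cz_sup]
      exact ⟨mul_mem h1 (other g o o' hk (mt ne.2 e) hv), h2⟩
  have cZ : C ≤ OZ 2 (JJ 2 T) := le_OZ_J cT el (le_trans (by rw [Cz_sup]; exact le_inf cR ab)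
    (Cz_anti ((le_inf (J_le T) o.jc.le_Nm).trans s0)))
  have tN : T ≤ Nm(R ⊔ ⁅C, T⁆) := CfH7.le_normalizer_sup tR (normalizer_commutator_ge_right _ _)
  have k0 : ⁅T ⊓ Nm(K), T⁆ ≤ R ⊔ ⁅C, T⁆ := (commutator_mono s0 le_rfl).trans
    (CfH7.commutator_sup_le_of_le_normalizer (rT.trans tN) ((comm_le_left tR).trans le_sup_left) le_sup_right
      (cT.trans tN))
  have k1 : ⁅T, T⁆ ≤ R ⊔ ⁅C, T⁆ := commutator_le.2 fun x hx y hy => by
    by_cases x0 : x ∈ Nm(K)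
    · exact k0 (commutator_mem_commutator ⟨hx, x0⟩ hy)
    by_cases y0 : y ∈ Nm(K)
    · rw [← commutatorElement_inv]; exact inv_mem (k0 (commutator_mem_commutator ⟨hy, y0⟩ hx))
    have ex := (o.orb x hx).resolve_left fun e => x0 (mem_normalizer_iff_cj.2 e)
    have ey := (o.orb y hy).resolve_left fun e => y0 (mem_normalizer_iff_cj.2 e)
    have := k0 (commutator_mem_commutator (g₁ := y⁻¹ * x) ⟨T.mul_mem (T.inv_mem hy) hx, mem_normalizer_iff_cj.2 (by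
      rw [cj_mul, ex, ← ey, cj_inv_cj])⟩ hy)
    rw [show ⁅x, y⁆ = y * ⁅y⁻¹ * x, y⁆ * y⁻¹ by simp only [commutatorElement_def]; group]
    exact (mem_normalizer_iff.1 (tN hy) _).1 this
  have rc : R ⊓ C = ⊥ := by
    by_cases e : K = K₂
    · refine le_bot_iff.1 (le_trans (le_inf ?_ (inf_le_right.trans c1)) (wC o.jc).le)
      refine le_trans (inf_le_inf ?_ (c1.trans (Cz_anti (wOf_le K)))) (dW g o o' hk)
      rw [hR, ← e, ← ne.1 e, sup_idem, sup_idem]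
    refine eq_bot_iff.2 fun r hr => ?_
    have ne' := mt ne.2 e
    have w1 : wOf K₂ ⊔ wOf L₂ ≤ Cz(wOf K) := sup_le ((wOf_le _).trans (comp_le_Cz_wOf (o.ll g) o.jc o.le₁ o.jc₂ o.le₂ e))
      (other g o o' hk ne')
    have kw : K ≤ Cz(wOf K₂) := comp_le_Cz_wOf (o.ll g) o.jc₂ o.le₂ o.jc o.le₁ (Ne.symm e)
    have w2 : wOf K ⊔ wOf L ≤ Cz(wOf K₂) := sup_le ((wOf_le _).trans kw) (other g o.swap o'.swap hk2 (Ne.symm ne'))
    have t0 : wOf K₂ ⊔ wOf L₂ ≤ T ⊓ Nm(K) := le_inf (sup_le (WT g o.swap) (WT g o'.swap))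
      (sup_le ((WB g o.swap).trans (BN g o)) ((WB g o'.swap).trans (BN g o)))
    obtain ⟨d, hd, f, hf, rfl⟩ := (mem_sup_of_le_Nm' (A := wOf K ⊔ wOf L) (CfH7.le_normalizer_sup
      (t0.trans (inf_le_right.trans (Nm_le_Nm_wOf K))) fun x hx => Nm_le_Nm_wOf L ((N0 g o o' hk (t0 hx).1).1
        (t0 hx).2))).1 (by rw [sup_sup_sup_comm]; exact hr.1)
    have d1 := dW g o o' hk ⟨hd, (mul_mem_cancel_right (w1 hf)).1 (Cz_anti (wOf_le K) (c1 hr.2))⟩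
    have f1 := dW g o.swap o'.swap hk2 ⟨hf, (mul_mem_cancel_left (w2 hd)).1 (Cz_anti (wOf_le K₂) (c2 hr.2))⟩
    obtain rfl := mem_bot.1 ((wC o.jc).le ⟨d1, (mul_mem_cancel_right (le_Cz_comm kw f1)).1 (c1 hr.2)⟩)
    rw [one_mul] at hr ⊢
    exact (wC o.jc₂).le ⟨f1, c2 hr.2⟩
  by_contra n
  refine (commutator_lt_of_isPGroup (g.pgrp.to_le cT) g.pgrp tC n).not_ge fun c hc => ?_
  obtain ⟨r, hr, d, hd, rfl⟩ := (mem_sup_of_le_Nm' (((comm_le_left tC).trans cT).trans tR)).1 (k1 (hz (cZ hc)))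
  obtain rfl := mem_bot.1 (rc.le ⟨hr, (mul_mem_cancel_right (comm_le_left tC hd)).1 hc⟩)
  rwa [one_mul]

theorem p4 : P4.{u} := fun {G} _ _ {T K K₂ L L₂} h b hz => by
  have b2 : pCoreOf 2 K₂ = wOf K₂ := by
    obtain ⟨t, -, e⟩ := h.oK.ex
    rw [← e, ← cj_wOf, ← CfH7.cj_pCoreOf, b]
  by_contra n
  have a : ∀ {K K₂ L L₂ : Subgroup G}, Cf T K K₂ L L₂ → pCoreOf 2 K = wOf K → T ⊓ Cz(K ⊔ K₂) ≠ ⊥ →
      wOf K ≤ Cz(wOf L ⊔ wOf L₂) := fun h b n => by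
    rw [Cz_sup]
    exact le_inf (not_not.1 fun e => n (main h e b hz)) (not_not.1 fun e => n (main h.symm.swap.symm e b hz))
  refine h.pK (le_trans ?_ (QD h.gh h.oL))
  rw [b, b2]
  exact le_inf (sup_le (WT h.gh h.oK) (WT h.gh h.oK.swap)) (sup_le (a h b n) (a h.swap b2 (by rwa [sup_comm])))

end CfH4.W
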